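import Cfsg.Agent.Chev.Root

set_option autoImplicit false

namespace Cfsg.Agent.Chev

open Cfsg.Lie Matrix

variable {D : ChevalleyDatum} {p r : ℕ} {F : Type*} [Field F]

theorem x_zero (h : datumOK D p = true) (hr : r < D.nroots) : D.x F r 0 = 1 := by
  apply Matrix.ext_of_mulVec_single
  intro i
  rw [one_mulVec]
  change D.x F r 0 *ᵥ ee i = ee i
  rcases i with i | ⟨s, hs⟩
  · simp [x_h hr]
  · have e : (ee (Sum.inr ⟨s, hs⟩) : D.Idx → F) = rv D F s := by rw [rv, dif_pos hs]
    rw [e]
    by_cases h1 : s = r
    · subst h1; exact x_self h hr 0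
    by_cases h2 : s = D.neg r
    · subst h2; simp [x_neg h hr]
    rw [x_other h hr 0 hs h1 h2]
    have : ∀ (L : List (ℕ × ℤ)) (k : ℕ), cv D F 0 k L = 0 := by
      intro L
      induction L with
      | nil => intro k; rfl
      | cons e L ih => intro k; obtain ⟨v, M⟩ := e; simp [cv, ih]
    simp [this]

theorem x_add (h : datumOK D p = true) (hr : r < D.nroots) (t u : F) :
    D.x F r t * D.x F r u = D.x F r (t + u) := by
  obtain ⟨hn, hne, -, -, -, -, hstr, hsing, hrange⟩ := facts h hr
  apply Matrix.ext_of_mulVec_single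
  intro i
  change (D.x F r t * D.x F r u) *ᵥ ee i = D.x F r (t + u) *ᵥ ee i
  rw [← mulVec_mulVec]
  rcases i with i | ⟨s, hs⟩
  · simp only [x_h hr, mulVec_sub, mulVec_smul, x_self h hr]
    module
  · have e : (ee (Sum.inr ⟨s, hs⟩) : D.Idx → F) = rv D F s := by rw [rv, dif_pos hs]
    rw [e]
    by_cases h1 : s = r
    · subst h1; simp [x_self h hr]
    by_cases h2 : s = D.neg r
    · subst h2
      simp only [x_neg h hr, mulVec_sub, mulVec_add, mulVec_smul, x_self h hr, x_hv h hr]
      module
    simp only [x_other h hr _ hs h1 h2, mulVec_add]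
    have hu : ∀ q ∈ D.chainEntry r s, ∀ v : F,
        D.x F r v *ᵥ rv D F q.1 = rv D F q.1 + cv D F v 0 (D.chainEntry r q.1) := by
      intro q hq v
      obtain ⟨q1, q2, q3, -⟩ := hrange s q hq
      exact x_other h hr v q1 q2 q3
    have hlook : ∀ v, look (D.chain.getD r #[]).toList v = D.chainEntry r v := fun v => rfl
    have hchk := hstr s
    rcases hL : D.chainEntry r s with _ | ⟨⟨a, A⟩, _ | ⟨⟨b, B⟩, _ | ⟨⟨c, C⟩, _ | ⟨d, L⟩⟩⟩⟩
    · simp [cv]
    · rw [hL] at hu
      have ha := hsing s a A hL
      simp only [cv, add_zero, mulVec_smul, hu (a, A) (by simp), ha]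
      simp only [zero_add, pow_one]
      module
    · rw [hL] at hu hchk
      simp only [strOK, Bool.and_eq_true, decide_eq_true_eq, hlook] at hchk
      obtain ⟨h3, hb⟩ := hchk
      split at h3
      rotate_left
      · simp at h3
      next b' B' ha =>
      simp only [Bool.and_eq_true, decide_eq_true_eq, Nat.beq_eq] at h3
      obtain ⟨rfl, hAB⟩ := h3
      have hAB' : (A : F) * B' = 2 * B := by exact_mod_cast congrArg (fun z : ℤ => (z : F)) hAB
      simp only [cv, add_zero, mulVec_add, mulVec_smul, hu (a, A) (by simp), hu (b', B) (by simp), ha, hb,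
        smul_add, smul_smul]
      match_scalars <;> try ring
      linear_combination (u * t) * hAB'
    · rw [hL] at hu hchk
      simp only [strOK, Bool.and_eq_true, decide_eq_true_eq, hlook] at hchk
      obtain ⟨⟨h3, h4⟩, hc⟩ := hchk
      split at h3
      rotate_left
      · simp at h3
      next b' B' c' C' ha =>
      simp only [Bool.and_eq_true, decide_eq_true_eq, Nat.beq_eq] at h3
      obtain ⟨⟨⟨hb', hc'⟩, hAB⟩, hAC⟩ := h3
      subst hb'; subst hc'
      split at h4
      rotate_left
      · simp at h4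
      next c'' C'' hb =>
      simp only [Bool.and_eq_true, decide_eq_true_eq, Nat.beq_eq] at h4
      obtain ⟨hc'', hBC⟩ := h4
      subst hc''
      have hAB' : (A : F) * B' = 2 * B := by exact_mod_cast congrArg (fun z : ℤ => (z : F)) hAB
      have hAC' : (A : F) * C' = 3 * C := by exact_mod_cast congrArg (fun z : ℤ => (z : F)) hAC
      have hBC' : (B : F) * C'' = 3 * C := by exact_mod_cast congrArg (fun z : ℤ => (z : F)) hBC
      simp only [cv, add_zero, mulVec_add, mulVec_smul, hu (a, A) (by simp), hu (b', B) (by simp),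
        hu (c'', C) (by simp), ha, hb, hc, smul_add, smul_smul]
      match_scalars <;> try ring
      · linear_combination (u * t) * hAB'
      · linear_combination (u * t ^ 2) * hAC' + (u ^ 2 * t) * hBC'
    · rw [hL] at hchk
      simp [strOK] at hchk

end Cfsg.Agent.Chev
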