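import Cfsg.Agent.Chev.Check2

set_option autoImplicit false
set_option maxRecDepth 100000

namespace Cfsg.Agent.Chev

open Cfsg.Lie

/-- The certificate for type B2. -/
def certB2 : Cert where
  half := 4
  perms := [0x240d0140f0040b00c07,0x380b030070240201400]
  longest := [0, 1, 0, 1]

theorem packB2 : packOK chevB2 = true := by decide +kernel

theorem simplesB2 : ((List.range 2).all fun i => simpleOK chevB2 certB2 i) = true := by decide +kernel

theorem reflB2_0 : reflOK chevB2 certB2 0 = true := by decide +kernel

theorem reflB2_1 : reflOK chevB2 certB2 1 = true := by decide +kernel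

theorem miscB2 : (reachOK chevB2 certB2 && longestOK chevB2 certB2 && primOK chevB2) = true := by decide +kernel

end Cfsg.Agent.Chev
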