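import Cfsg.Agent.Chev.Check2

set_option autoImplicit false
set_option maxRecDepth 100000

namespace Cfsg.Agent.Chev

open Cfsg.Lie

/-- The certificate for type D4. -/
def certD4 : Cert where
  half := 12
  perms := [0xb8220801e0700b0b42b0a42706818058140240701403094120400e03000,0xb42e0a828094260881a060130841f0440f074160500c0200b0180400003,0xb82909c2c0a82407c1d08820054180581b0380c04c11028040080901c00,0xb82b0b0270a024084220741e0681706414040130300f028060240201400]
  longest := [0, 1, 0, 2, 1, 0, 3, 1, 0, 2, 1, 3]

theorem packD4 : packOK chevD4 = true := by decide +kernel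

theorem simplesD4 : ((List.range 4).all fun i => simpleOK chevD4 certD4 i) = true := by decide +kernel

theorem reflD4_0 : reflOK chevD4 certD4 0 = true := by decide +kernel

theorem reflD4_1 : reflOK chevD4 certD4 1 = true := by decide +kernel

theorem reflD4_2 : reflOK chevD4 certD4 2 = true := by decide +kernel

theorem reflD4_3 : reflOK chevD4 certD4 3 = true := by decide +kernel

theorem miscD4 : (reachOK chevD4 certD4 && longestOK chevD4 certD4 && primOK chevD4) = true := by decide +kernel

end Cfsg.Agent.Chev
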