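import Cfsg.Agent.Chev.Check2

set_option autoImplicit false
set_option maxRecDepth 100000

namespace Cfsg.Agent.Chev

open Cfsg.Lie

/-- The certificate for type E6. -/
def certE6 : Cert where
  half := 36
  perms := [0x2388c228882186e1b06a1a0661905a160561501f214832047f1f47b188601785c1e4771d473148501384c1284811844108400f83c0741b064170c8300b82c054130440f0340b1c43a0e0360d02a0a02609022080080180400800,0x2348e2288821884208801e4771d47e1f07a1c8701b86c1a85b1645714850138331a0661905418c6117c4c1284811844108310bc2d0e82a0a026174400f83c0e4370d424088200781c050120401b064170380c028080180400003,0x2388c214832048a220861f87c1e8781d8741c4721b86c1a8631845f1a0661905c148501383b16c5915c4c1284811844108390dc35154400f83c0c82a0a0260c42f0b424088200701f068180581404810020060100f0340b00800,0x2388b23088218841fc7d208801e8781d8731d0701b86919c6c1a864188601745e16858154561304a10453144481183f0f44f110420e03b0d8340c0330b82c0a8240882909c200781a07418058140380c04c11028080180201400,0x2388c2248a21883210801f87b1f0781d4761c8701b46e1a868194661885f1805c16857160541484f140481144d10c4b1183e1043c0e8360e4340c82e0c42c0a02b09824080230781c0601b05812054100380a034080100700800,0x2388c2288722084204821f47e1e8771e0741c8701b86b1b0671a064184621785c1645a15854144521384b1304712442114400f03f0e8380d0370c8300b02f0a8260a422094200781c0681606414040130300f028060240400800]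
  longest := [0, 1, 2, 0, 3, 1, 2, 0, 3, 2, 4, 3, 1, 2, 0, 3, 2, 4, 3, 1, 5, 4, 3, 1, 2, 0, 3, 2, 4, 3, 1, 5, 4, 3, 2, 0]

theorem packE6 : packOK chevE6 = true := by decide +kernel

theorem simplesE6 : ((List.range 6).all fun i => simpleOK chevE6 certE6 i) = true := by decide +kernel

theorem reflE6_0 : reflOK chevE6 certE6 0 = true := by decide +kernel

theorem reflE6_1 : reflOK chevE6 certE6 1 = true := by decide +kernel

theorem reflE6_2 : reflOK chevE6 certE6 2 = true := by decide +kernel

theorem reflE6_3 : reflOK chevE6 certE6 3 = true := by decide +kernel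

theorem reflE6_4 : reflOK chevE6 certE6 4 = true := by decide +kernel

theorem reflE6_5 : reflOK chevE6 certE6 5 = true := by decide +kernel

theorem miscE6 : (reachOK chevE6 certE6 && longestOK chevE6 certE6 && primOK chevE6) = true := by decide +kernel

end Cfsg.Agent.Chev
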