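import Cfsg.Agent.Chev.Check2

set_option autoImplicit false
set_option maxRecDepth 100000

namespace Cfsg.Agent.Chev

open Cfsg.Lie

/-- The certificate for type F4. -/
def certF4 : Cert where
  half := 24
  perms := [0x1785c168511043f0f45813c4d12c3a0e036074571545312447114340c8300b82c0a81b064170340b024430a0260901504c11018230841f03c0400800,0x1785c15859168541484f1404911c4c12843110400d4330ec390a43f0f4300b8230843709c250b42b0781a074140481905c0e0440c0280401c0800800,0x1785b1705815456148501344e12848114461083f1003c0e8370e0300b4350ac330b8260a4240881e0841c0601b05814040130380c0200b0180201400,0x1745e1685815853150501384b1304712044108400f43e0e43a0d8330d02f0c42a0b42809027080230781c0681606412054100380a034080180400003]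
  longest := [0, 1, 0, 2, 1, 0, 2, 1, 2, 3, 2, 1, 0, 2, 1, 2, 3, 2, 1, 0, 2, 1, 2, 3]

theorem packF4 : packOK chevF4 = true := by decide +kernel

theorem simplesF4 : ((List.range 4).all fun i => simpleOK chevF4 certF4 i) = true := by decide +kernel

theorem reflF4_0 : reflOK chevF4 certF4 0 = true := by decide +kernel

theorem reflF4_1 : reflOK chevF4 certF4 1 = true := by decide +kernel

theorem reflF4_2 : reflOK chevF4 certF4 2 = true := by decide +kernel

theorem reflF4_3 : reflOK chevF4 certF4 3 = true := by decide +kernel

theorem miscF4 : (reachOK chevF4 certF4 && longestOK chevF4 certF4 && primOK chevF4) = true := by decide +kernel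

end Cfsg.Agent.Chev
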