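import Cfsg.Agent.Chev.Sym

set_option autoImplicit false
attribute [-simp] Array.getD_eq_getD_getElem?

namespace Cfsg.Agent.Chev

open Cfsg.Lie Matrix

/-- All the checks on a datum. -/
structure Good (D : ChevalleyDatum) (c : Cert) : Prop where
  datum : datumOK D c.half = true
  pack : packOK D = true
  simples : ((List.range D.rank).all fun i => simpleOK D c i) = true
  refls : ∀ i < D.rank, reflOK D c i = true
  reach : reachOK D c = true
  long : longestOK D c = true
  prim : primOK D = true
  negneg : ((List.range D.nroots).all fun r => Nat.beq (D.neg (D.neg r)) r) = true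

variable {D : ChevalleyDatum} {c : Cert}

theorem Good.neg_neg (g : Good D c) {r : ℕ} (hr : r < D.nroots) : D.neg (D.neg r) = r :=
  Nat.eq_of_beq_eq_true (List.all_eq_true.1 g.negneg r (List.mem_range.2 hr))

theorem Good.neg_lt (g : Good D c) {r : ℕ} (hr : r < D.nroots) : D.neg r < D.nroots :=
  (facts g.datum hr).neg_lt

/-- What the checks say about a fundamental root. -/
structure SimpleFacts (D : ChevalleyDatum) (c : Cert) (i : ℕ) : Prop where
  sgn_self : c.sgn i (D.simple i) = -1
  im_self : c.im i (D.simple i) = D.neg (D.simple i)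
  lt : D.simple i < D.nroots
  pos : c.half ≤ D.simple i
  col : ∀ s < D.nroots, sameVec (runW D (nW D (D.simple i)) s) [(c.im i s, D.cartan i (c.im i s), c.sgn i s)] = true
  colh : ∀ j < D.rank, sameVec (runW D (nW D (D.simple i)) (D.nroots + j))
      [(D.nroots + j, 0, 1), (D.nroots + i, 0, -(D.cartan j (D.simple i)))] = true

theorem Good.simple (g : Good D c) {i : ℕ} (hi : i < D.rank) : SimpleFacts D c i := by
  have h := List.all_eq_true.1 g.simples i (List.mem_range.2 hi)
  simp only [simpleOK, Bool.and_eq_true, List.all_eq_true, decide_eq_true_eq, Nat.blt_eq, Nat.ble_eq,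
    List.mem_range] at h
  obtain ⟨⟨⟨⟨⟨h1, h2⟩, h3⟩, h4⟩, h5⟩, h6⟩ := h
  exact ⟨h1, Nat.eq_of_beq_eq_true h2, h3, h4, h5, h6⟩

theorem sgn_cases (c : Cert) (i s : ℕ) : c.sgn i s = 1 ∨ c.sgn i s = -1 := by
  unfold Cert.sgn
  split <;> simp

theorem sgn_sq (c : Cert) (i s : ℕ) : c.sgn i s * c.sgn i s = 1 := by
  rcases sgn_cases c i s with h | h <;> simp [h]

theorem sgn_sqF (F : Type*) [Field F] (c : Cert) (i s : ℕ) : (c.sgn i s : F) * (c.sgn i s : F) = 1 := by
  rw [← Int.cast_mul, sgn_sq, Int.cast_one]

theorem array_toList_getD {α : Type} (l : List (Array α)) (k : ℕ) :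
    (l.getD k #[]).toList = (l.map Array.toList).getD k [] := by
  simp only [List.getD_eq_getElem?_getD, List.getElem?_map]
  rcases l[k]? with _ | a <;> simp

theorem Good.cartanP_get (g : Good D c) {j s : ℕ} (hj : j < D.rank) (hs : s < D.nroots) :
    getI ((cartanP D).getD j 0) s = D.cartan j s := by
  have hp := g.pack
  simp only [packOK, Bool.and_eq_true, List.all_eq_true] at hp
  have hl : D.cartanSR.toList.length = D.rank := by
    have := g.datum
    simp only [datumOK, Bool.and_eq_true, Nat.beq_eq] at this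
    exact this.1.1.2
  have hlt : j < D.cartanSR.toList.length := by omega
  rw [cartanP, ChevalleyDatum.cartan, array_getD, array_getD, List.getD_eq_getElem _ _ (by simpa using hlt),
    List.getD_eq_getElem _ _ hlt, List.getElem_map]
  obtain ⟨h1, h2⟩ := hp.1.1.1 _ (List.getElem_mem hlt)
  exact getI_pack _ h1 s (by rw [Nat.eq_of_beq_eq_true h2]; exact hs)

theorem Good.coroot_len (g : Good D c) : D.coroot.toList.length = D.nroots := by
  have := g.datum
  simp only [datumOK, Bool.and_eq_true, Nat.beq_eq] at this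
  exact this.1.1.1.2

theorem Good.corootP_get (g : Good D c) {j s : ℕ} (hj : j < D.rank) (hs : s < D.nroots) :
    getI ((corootP D).getD j 0) s = (D.coroot.getD s #[]).getD j 0 := by
  have hp := g.pack
  simp only [packOK, Bool.and_eq_true, List.all_eq_true, List.mem_range] at hp
  have hlt : s < D.coroot.toList.length := by rw [g.coroot_len]; exact hs
  rw [corootP, List.getD_eq_getElem _ _ (by simpa using hj), List.getElem_map, List.getElem_range,
    getI_pack _ (hp.2 j hj) s (by simpa using hlt), List.getD_eq_getElem _ _ (by simpa using hlt),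
    List.getElem_map, array_getD D.coroot s #[], List.getD_eq_getElem _ _ hlt]

theorem Good.chainsP_get (g : Good D c) {r : ℕ} (hr : r < D.nroots) (s : ℕ) :
    chainP ((chainsP D).getD r 0) s = D.chainEntry r s := by
  have hp := g.pack
  simp only [packOK, Bool.and_eq_true, List.all_eq_true] at hp
  have hlt : r < D.chain.toList.length := by rw [Nat.eq_of_beq_eq_true hp.1.1.2]; exact hr
  rw [chainsP, List.getD_eq_getElem _ _ (by simpa using hlt), List.getElem_map,
    (chainP_pack _ 0 (hp.1.2 _ (List.getElem_mem hlt))).2 s, zero_add]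
  unfold look ChevalleyDatum.chainEntry
  rw [array_getD, List.getD_eq_getElem _ _ hlt]
  rfl

/-- What the checks say about the action of a fundamental reflection. -/
structure ReflFacts (D : ChevalleyDatum) (c : Cert) (i s : ℕ) : Prop where
  lt : c.im i s < D.nroots
  invol : c.im i (c.im i s) = s
  reflect : D.reflectRoot i s = c.im i s
  im_neg : c.im i (D.neg s) = D.neg (c.im i s)
  sgn_neg : c.sgn i (D.neg s) = c.sgn i s
  sgn_prod : c.sgn i s * c.sgn i (c.im i s) = (-1) ^ (D.cartan i s).natAbs
  cartan_neg : D.cartan i (D.neg s) = -D.cartan i s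
  cartan_im : ∀ j < D.rank, D.cartan j s = D.cartan j (c.im i s) - D.cartan j (D.simple i) * D.cartan i (c.im i s)
  coroot_im : ∀ j < D.rank, (D.coroot.getD (c.im i s) #[]).getD j 0 = (D.coroot.getD s #[]).getD j 0 -
      if j = i then ((List.range D.rank).map fun m => (D.coroot.getD s #[]).getD m 0 * D.cartan m (D.simple i)).sum else 0

theorem Good.refl_raw (g : Good D c) {i s : ℕ} (hi : i < D.rank) (hs : s < D.nroots) :
    ReflFacts D c i s ∧ ∀ e ∈ (D.chain.getD s #[]).toList,
      chainP ((chainsP D).getD (c.im i s) 0) (c.im i e.1) = mapC c i (c.sgn i e.1) (c.sgn i s) 0 e.2.toList ∧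
      addC ((cartanP D).getD i 0) (getI ((cartanP D).getD i 0) s) (getI ((cartanP D).getD i 0) e.1) 0 e.2.toList = true := by
  have h := g.refls i hi
  simp only [reflOK, List.all_eq_true] at h
  have hp := g.pack
  simp only [packOK, Bool.and_eq_true] at hp
  have hlt : s < D.chain.toList.length := by rw [Nat.eq_of_beq_eq_true hp.1.1.2]; exact hs
  have hrow : D.chain.getD s #[] = D.chain.toList[s] := by rw [array_getD, List.getD_eq_getElem _ _ hlt]
  have h' := h (D.chain.toList[s], s) (List.mem_zipIdx_iff_getElem?.2 (List.getElem?_eq_getElem hlt))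
  simp only [Bool.and_eq_true, List.all_eq_true, decide_eq_true_eq, Nat.blt_eq, List.mem_range] at h'
  obtain ⟨⟨⟨⟨⟨⟨⟨⟨h1, h2⟩, h3⟩, h4⟩, h5⟩, h6⟩, h7⟩, h8⟩, h9⟩ := h'
  have hn := g.neg_lt hs
  have hp' := (g.simple hi).lt
  rw [g.cartanP_get hi hs] at h6
  rw [g.cartanP_get hi hs, g.cartanP_get hi hn] at h7
  refine ⟨⟨h1, Nat.eq_of_beq_eq_true h2, Nat.eq_of_beq_eq_true h3, Nat.eq_of_beq_eq_true h4, h5, h6, h7,
    fun j hj => ?_, fun j hj => ?_⟩, fun e he => ?_⟩
  · have := (h8 j hj).1
    rwa [g.cartanP_get hj hs, g.cartanP_get hj h1, g.cartanP_get hj hp', g.cartanP_get hi h1] at this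
  · have := (h8 j hj).2
    rw [g.corootP_get hj h1, g.corootP_get hj hs] at this
    rw [this]
    split
    · congr 2
      refine List.map_congr_left fun m hm => ?_
      rw [g.corootP_get (List.mem_range.1 hm) hs, g.cartanP_get (List.mem_range.1 hm) hp']
    · rfl
  · rw [hrow] at he
    exact ⟨eqC_sound (h9 e he).1, (h9 e he).2⟩

theorem Good.refl (g : Good D c) {i s : ℕ} (hi : i < D.rank) (hs : s < D.nroots) : ReflFacts D c i s :=
  (g.refl_raw hi hs).1

theorem look_cases (D : ChevalleyDatum) (r s : ℕ) :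
    D.chainEntry r s = [] ∨ ∃ e ∈ (D.chain.getD r #[]).toList, e.1 = s ∧ D.chainEntry r s = e.2.toList := by
  unfold ChevalleyDatum.chainEntry
  cases h : (D.chain.getD r #[]).toList.find? (fun e => e.1 = s) with
  | none => exact Or.inl rfl
  | some e => exact Or.inr ⟨e, List.mem_of_find?_eq_some h, by simpa using List.find?_some h, rfl⟩

/-- The chains are permuted by a fundamental reflection. -/
theorem Good.chain_im (g : Good D c) {i s v : ℕ} (hi : i < D.rank) (hs : s < D.nroots) (hv : v < D.nroots) :
    D.chainEntry (c.im i s) (c.im i v) = mapC c i (c.sgn i v) (c.sgn i s) 0 (D.chainEntry s v) := by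
  obtain ⟨hr, hall⟩ := g.refl_raw hi hs
  rcases look_cases D s v with h | ⟨e, he, hev, hel⟩
  · rw [h, mapC]
    rcases look_cases D (c.im i s) (c.im i v) with h' | ⟨e, he, hev, hel⟩
    · exact h'
    · obtain ⟨hr', hall'⟩ := g.refl_raw hi hr.lt
      have h2 := (hall' e he).1
      rw [hr.invol, hev, (g.refl hi hv).invol, g.chainsP_get hs, h] at h2
      cases hl : e.2.toList with
      | nil => rw [hel, hl]
      | cons q l => rw [hl] at h2; simp [mapC] at h2
  · have h2 := (hall e he).1
    rw [g.chainsP_get hr.lt, hev, ← hel] at h2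
    exact h2

theorem addC_sound (A : ℕ) (as av : ℤ) : ∀ (L : List (ℕ × ℤ)) (k : ℕ), addC A as av k L = true →
    ∀ n, ∀ q, L[n]? = some q → getI A q.1 = av + (((k + n : ℕ) : ℤ) + 1) * as := by
  intro L
  induction L with
  | nil => intro k _ n q hn; simp at hn
  | cons x L ih =>
    intro k h n q hn
    obtain ⟨u, M⟩ := x
    simp only [addC, Bool.and_eq_true, decide_eq_true_eq] at h
    rcases n with _ | n
    · simp at hn; subst hn; simpa using h.1
    · simp at hn
      rw [ih (k + 1) h.2 n q hn]
      push_cast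
      ring

/-- Cartan numbers along a chain. -/
theorem Good.cartan_chain (g : Good D c) {i s v n : ℕ} {q : ℕ × ℤ} (hi : i < D.rank) (hs : s < D.nroots)
    (hv : v < D.nroots) (h : (D.chainEntry s v)[n]? = some q) :
    D.cartan i q.1 = D.cartan i v + ((n : ℤ) + 1) * D.cartan i s := by
  rcases look_cases D s v with h' | ⟨e, he, hev, hel⟩
  · simp [h'] at h
  · have hq := (facts g.datum hs).range v q (List.mem_of_getElem? h)
    rw [hel] at h
    have := addC_sound _ _ _ _ _ ((g.refl_raw hi hs).2 e he).2 n q h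
    rw [g.cartanP_get hi hs, hev, g.cartanP_get hi hv, g.cartanP_get hi hq.1, zero_add] at this
    exact this

end Cfsg.Agent.Chev
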