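import Cfsg.Agent.Chev.CertG2
import Cfsg.Agent.Chev.CertB2
import Cfsg.Agent.Chev.CertD4
import Cfsg.Agent.Chev.CertF4
import Cfsg.Agent.Chev.CertE6
import Cfsg.Agent.Chev.CertE7
import Cfsg.Agent.Chev.CertE8
import Cfsg.Agent.Chev.Good

set_option autoImplicit false
set_option maxRecDepth 100000

namespace Cfsg.Agent.Chev

open Cfsg.Lie

theorem negnegG2 : ((List.range chevG2.nroots).all fun r => Nat.beq (chevG2.neg (chevG2.neg r)) r) = true := by
  decide +kernel

theorem goodG2 : Good chevG2 certG2 := by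
  have hm := miscG2
  simp only [Bool.and_eq_true] at hm
  refine ⟨ok_G2, packG2, simplesG2, fun i hi => ?_, hm.1.1, hm.1.2, hm.2, negnegG2⟩
  have hi' : i < 2 := hi
  interval_cases i
  · exact reflG2_0
  · exact reflG2_1

theorem negnegB2 : ((List.range chevB2.nroots).all fun r => Nat.beq (chevB2.neg (chevB2.neg r)) r) = true := by
  decide +kernel

theorem goodB2 : Good chevB2 certB2 := by
  have hm := miscB2
  simp only [Bool.and_eq_true] at hm
  refine ⟨ok_B2, packB2, simplesB2, fun i hi => ?_, hm.1.1, hm.1.2, hm.2, negnegB2⟩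
  have hi' : i < 2 := hi
  interval_cases i
  · exact reflB2_0
  · exact reflB2_1

theorem negnegD4 : ((List.range chevD4.nroots).all fun r => Nat.beq (chevD4.neg (chevD4.neg r)) r) = true := by
  decide +kernel

theorem goodD4 : Good chevD4 certD4 := by
  have hm := miscD4
  simp only [Bool.and_eq_true] at hm
  refine ⟨ok_D4, packD4, simplesD4, fun i hi => ?_, hm.1.1, hm.1.2, hm.2, negnegD4⟩
  have hi' : i < 4 := hi
  interval_cases i
  · exact reflD4_0
  · exact reflD4_1
  · exact reflD4_2
  · exact reflD4_3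

theorem negnegF4 : ((List.range chevF4.nroots).all fun r => Nat.beq (chevF4.neg (chevF4.neg r)) r) = true := by
  decide +kernel

theorem goodF4 : Good chevF4 certF4 := by
  have hm := miscF4
  simp only [Bool.and_eq_true] at hm
  refine ⟨ok_F4, packF4, simplesF4, fun i hi => ?_, hm.1.1, hm.1.2, hm.2, negnegF4⟩
  have hi' : i < 4 := hi
  interval_cases i
  · exact reflF4_0
  · exact reflF4_1
  · exact reflF4_2
  · exact reflF4_3

theorem negnegE6 : ((List.range chevE6.nroots).all fun r => Nat.beq (chevE6.neg (chevE6.neg r)) r) = true := by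
  decide +kernel

theorem goodE6 : Good chevE6 certE6 := by
  have hm := miscE6
  simp only [Bool.and_eq_true] at hm
  refine ⟨ok_E6, packE6, simplesE6, fun i hi => ?_, hm.1.1, hm.1.2, hm.2, negnegE6⟩
  have hi' : i < 6 := hi
  interval_cases i
  · exact reflE6_0
  · exact reflE6_1
  · exact reflE6_2
  · exact reflE6_3
  · exact reflE6_4
  · exact reflE6_5

theorem negnegE7 : ((List.range chevE7.nroots).all fun r => Nat.beq (chevE7.neg (chevE7.neg r)) r) = true := by
  decide +kernel

theorem goodE7 : Good chevE7 certE7 := by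
  have hm := miscE7
  simp only [Bool.and_eq_true] at hm
  refine ⟨ok_E7, packE7, simplesE7, fun i hi => ?_, hm.1.1, hm.1.2, hm.2, negnegE7⟩
  have hi' : i < 7 := hi
  interval_cases i
  · exact reflE7_0
  · exact reflE7_1
  · exact reflE7_2
  · exact reflE7_3
  · exact reflE7_4
  · exact reflE7_5
  · exact reflE7_6

theorem negnegE8 : ((List.range chevE8.nroots).all fun r => Nat.beq (chevE8.neg (chevE8.neg r)) r) = true := by
  decide +kernel

theorem goodE8 : Good chevE8 certE8 := by
  have hm := miscE8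
  simp only [Bool.and_eq_true] at hm
  refine ⟨ok_E8, packE8, simplesE8, fun i hi => ?_, hm.1.1, hm.1.2, hm.2, negnegE8⟩
  have hi' : i < 8 := hi
  interval_cases i
  · exact reflE8_0
  · exact reflE8_1
  · exact reflE8_2
  · exact reflE8_3
  · exact reflE8_4
  · exact reflE8_5
  · exact reflE8_6
  · exact reflE8_7

theorem good_of_mem {D : ChevalleyDatum}
    (hD : D ∈ [chevG2, chevB2, chevD4, chevF4, chevE6, chevE7, chevE8]) : ∃ c, Good D c := by
  simp only [List.mem_cons, List.not_mem_nil, or_false] at hD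
  rcases hD with rfl | rfl | rfl | rfl | rfl | rfl | rfl
  · exact ⟨_, goodG2⟩
  · exact ⟨_, goodB2⟩
  · exact ⟨_, goodD4⟩
  · exact ⟨_, goodF4⟩
  · exact ⟨_, goodE6⟩
  · exact ⟨_, goodE7⟩
  · exact ⟨_, goodE8⟩

end Cfsg.Agent.Chev
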