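import Cfsg.Agent.Chev.Pair
import Cfsg.Prelude.Def_LieExceptional

set_option autoImplicit false
attribute [-simp] Array.getD_eq_getD_getElem?

namespace Cfsg.Agent.Chev.Tits

open Cfsg.Lie Matrix Cfsg.Agent.Chev.Comm

variable {D : ChevalleyDatum} {c : Cert} {F : Type*} [Field F] (G : TGood D c)
include G

theorem simple_ne {i j : ℕ} (hi : i < D.rank) (hj : j < D.rank)
    (h : (nn G.good F i)⁻¹ * nn G.good F j ∈ D.borelSubgroup F) : D.simple i = D.simple j := by
  by_contra hne
  have hH : (nn G.good F i)⁻¹ * nn G.good F j ∈ D.diagonalSubgroup F := by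
    rw [← N_inf_B G]; exact ⟨h, (D.monomialSubgroup F).mul_mem ((D.monomialSubgroup F).inv_mem (nn_mem_N G hi)) (nn_mem_N G hj)⟩
  obtain ⟨χ, -, hc⟩ := H_char G.good hH
  have hp := (G.good.simple hj).lt
  obtain ⟨hχ, hc⟩ := hc _ hp
  have e : nn G.good F j * xG G.good (D.simple j) hp (1 : F) * (nn G.good F j)⁻¹ =
      nn G.good F i * ((nn G.good F i)⁻¹ * nn G.good F j * xG G.good (D.simple j) hp 1 * ((nn G.good F i)⁻¹ * nn G.good F j)⁻¹) *
        (nn G.good F i)⁻¹ := by group
  rw [hc, nn_conj G hj hp, nn_conj G hi hp] at e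
  apply neg_not_mem_B G (G.good.refl hj hp).lt
    (by rw [(G.good.simple hj).im_self]
        have h1 := neg_side G (G.good.neg_lt hp)
        rw [G.good.neg_neg hp] at h1
        exact h1.2 (G.good.simple hj).pos)
    (t := (c.sgn j (D.simple j) : F) * 1) (by simp [(G.good.simple hj).sgn_self])
  rw [e]
  exact xG_mem_B G _ (G.im_pos hi hp (G.good.simple hj).pos (fun e' => hne e'.symm)) _

theorem union_step {i : ℕ} (hi : i < D.rank) {n b : GL D.Idx F} (hn : n ∈ D.monomialSubgroup F)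
    (hb : b ∈ D.borelSubgroup F) :
    ∃ a ∈ D.borelSubgroup F, ∃ a' ∈ D.borelSubgroup F,
      nn G.good F i * b * n = a * (nn G.good F i * n) * a' ∨ nn G.good F i * b * n = a * n * a' := by
  have hp := (G.good.simple hi).lt
  have hsN := nn_mem_N (F := F) G hi
  -- conjugating the root subgroups of `p` by the inverse of an element of `N`
  have inv_act : ∀ m ∈ D.monomialSubgroup F, ∃ r, ∃ hr : r < D.nroots, ∃ η η' : F, η ≠ 0 ∧ η' ≠ 0 ∧
      (∀ t, m⁻¹ * xG G.good (D.simple i) hp t * m = xG G.good r hr (η * t)) ∧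
      ∀ t, m⁻¹ * xG G.good (D.neg (D.simple i)) (G.good.neg_lt hp) t * m =
        xG G.good (D.neg r) (G.good.neg_lt hr) (η' * t) := by
    intro m hm
    obtain ⟨h, hh, L, hL, e⟩ := N_word G (inv_mem hm)
    obtain ⟨ε, hε, h1, h2⟩ := wact (F := F) G L hL _ hp
    obtain ⟨χ, -, hc⟩ := H_char G.good hh
    have hr := wim_lt G L hL _ hp
    obtain ⟨hne, hc1⟩ := hc _ hr
    obtain ⟨hne', hc2⟩ := hc _ (G.good.neg_lt hr)
    have conj : ∀ x : GL D.Idx F, m⁻¹ * x * m = h * (wp G.good F L * x * (wp G.good F L)⁻¹) * h⁻¹ := by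
      intro x
      have e' : m = (h * wp G.good F L)⁻¹ := by rw [← e, inv_inv]
      rw [e']; group
    refine ⟨_, hr, χ (wim c L (D.simple i)) * ε, χ (D.neg (wim c L (D.simple i))) * ε,
      mul_ne_zero hne (left_ne_zero_of_mul_eq_one hε), mul_ne_zero hne' (left_ne_zero_of_mul_eq_one hε),
      fun t => by rw [conj, h1, hc1, mul_assoc], fun t => by rw [conj, h2, hc2, mul_assoc]⟩
  have case1 : ∀ m ∈ D.monomialSubgroup F, ∀ b ∈ D.borelSubgroup F,
      (∀ r (hr : r < D.nroots) (η : F), (∀ t, m⁻¹ * xG G.good (D.simple i) hp t * m = xG G.good r hr (η * t)) → c.half ≤ r) →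
      ∃ a ∈ D.borelSubgroup F, ∃ a' ∈ D.borelSubgroup F, nn G.good F i * b * m = a * (nn G.good F i * m) * a' := by
    intro m hm b hb hpos
    obtain ⟨u, hu, t, h, hh, rfl⟩ := B_form G hi hb
    obtain ⟨r, hr, η, -, -, -, hη, -⟩ := inv_act m hm
    refine ⟨_, Ui_mem_B G (Ui_nn G hi u hu), _,
      mul_mem (xG_mem_B G hr (hpos r hr η hη) (η * t)) (H_mem_B G (norm_H' G hm hh)), ?_⟩
    rw [← hη]
    group
  obtain ⟨r, hr, η, ηn, hη0, hηn, hη, hη'⟩ := inv_act n hn
  by_cases hrp : c.half ≤ r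
  · obtain ⟨a, ha, a', ha', e⟩ := case1 n hn b hb (fun r' hr' η' h' => by
      by_contra hlt
      have e1 := (hη 1).symm.trans (h' 1)
      have := xG_mem_B G hr hrp (η * 1)
      rw [e1] at this
      by_cases hz : η' = 0
      · rw [hz, zero_mul, show xG G.good r' hr' (0 : F) = 1 from Units.ext (x_zero G.good.datum hr')] at e1
        exact xG_ne G hr (by simpa using hη0) e1
      · exact neg_not_mem_B G hr' (not_le.1 hlt) (by simpa using hz) this)
    exact ⟨a, ha, a', ha', Or.inl e⟩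
  · have hn' : nn G.good F i * n ∈ D.monomialSubgroup F := mul_mem hsN hn
    set s := nn G.good F i with hs
    have hnegp : c.half ≤ D.neg r := (neg_side G hr).1 (not_le.1 hrp)
    have case2 := fun b hb => case1 (s * n) hn' b hb (fun r' hr' η' h' => by
      by_contra hlt
      have e1 : (s * n)⁻¹ * xG G.good (D.simple i) hp (1 : F) * (s * n) =
          n⁻¹ * (s⁻¹ * xG G.good (D.simple i) hp 1 * s) * n := by group
      obtain ⟨k, hk, ek⟩ := nn_inv (F := F) G hi
      have e2 : s⁻¹ * xG G.good (D.simple i) hp (1 : F) * s = k * (s * xG G.good (D.simple i) hp 1 * s⁻¹) * k⁻¹ := by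
        conv_lhs => rw [ek, show s = (k * s)⁻¹ from by rw [← ek, inv_inv]]
        group
        rfl
      obtain ⟨χ, -, hc⟩ := H_char G.good hk
      rw [e2, nn_conj G hi hp, xG_congr G.good (G.good.simple hi).im_self _ (G.good.neg_lt hp),
        (hc _ (G.good.neg_lt hp)).2, hη', h' 1] at e1
      have := xG_mem_B G (G.good.neg_lt hr) hnegp (ηn * (χ (D.neg (D.simple i)) * ((c.sgn i (D.simple i) : F) * 1)))
      rw [← e1] at this
      by_cases hz : η' = 0
      · rw [hz, zero_mul, show xG G.good r' hr' (0 : F) = 1 from Units.ext (x_zero G.good.datum hr')] at e1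
        refine xG_ne G (G.good.neg_lt hr) ?_ e1.symm
        simp [hηn, (G.good.simple hi).sgn_self, (hc _ (G.good.neg_lt hp)).1]
      · exact neg_not_mem_B G hr' (not_le.1 hlt) (by simpa using hz) this)
    obtain ⟨k, hk, ek⟩ := nn_inv (F := F) G hi
    have e : s * b * n = (s * b * s⁻¹) * (s * n) := by group
    rcases conj_B G hi hb with h | ⟨a, ha, a', ha', h⟩
    · exact ⟨_, h, 1, one_mem _, Or.inl (by rw [mul_one]; exact e)⟩
    · obtain ⟨p, hpB, q, hq, e'⟩ := case2 a' ha'
      refine ⟨a * p * (s * s), mul_mem (mul_mem ha hpB) (H_mem_B G (nn_sq G hi)), q, hq, Or.inr ?_⟩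
      calc s * b * n = a * (s * a' * (s * n)) := by rw [e, h]; simp only [mul_assoc]; rfl
        _ = _ := by rw [e']; simp only [mul_assoc]

end Cfsg.Agent.Chev.Tits
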