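import Cfsg.Agent.Chev.Struct

set_option autoImplicit false
attribute [-simp] Array.getD_eq_getD_getElem?

namespace Cfsg.Agent.Chev

open Cfsg.Lie Matrix

variable {D : ChevalleyDatum} {c : Cert} {F : Type*} [Field F]

/-- Matrices lowering the level by at least `k`. -/
def Lower (D : ChevalleyDatum) (F : Type*) [Field F] (p : ℕ) (A : Matrix D.Idx D.Idx F) : Prop :=
  ∀ i j, A i j ≠ 0 → lev D p i + 1 ≤ lev D p j

theorem x_lower (g : Good D c) {r : ℕ} (hr : r < D.nroots) (hneg : r < c.half) (t : F) :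
    Lower D F c.half (D.x F r t - 1) := by
  obtain ⟨hn, hne, -, -, -, hside, -, -, hrange⟩ := facts g.datum hr
  rw [if_pos hneg] at hside
  intro i j hij
  have hcol : (D.x F r t - 1) i j = (D.x F r t *ᵥ (ee j : D.Idx → F) - (ee j : D.Idx → F)) i := by
    simp [ee, Matrix.one_apply, Pi.single_apply]
  rw [hcol] at hij
  rcases j with j | ⟨s, hs⟩
  · rw [x_h hr] at hij
    rcases i with i | i
    · simp [rv_inl] at hij
    · simp [rv_apply] at hij
      simp [lev, hij.1, hneg]
  · have e : (ee (Sum.inr ⟨s, hs⟩) : D.Idx → F) = rv D F s := by rw [rv, dif_pos hs]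
    rw [e] at hij
    by_cases h1 : s = r
    · subst h1; simp [x_self g.datum hr] at hij
    by_cases h2 : s = D.neg r
    · subst h2
      rw [x_neg g.datum hr] at hij
      have : ¬ D.neg r < c.half := by omega
      rcases i with i | i
      · simp [lev, this]; omega
      · simp [rv_apply, hv] at hij
        simp [lev, this, hij.1, hneg]
        omega
    rw [x_other g.datum hr t hs h1 h2] at hij
    rcases i with i | u
    · simp [(cv_apply t _ _).1] at hij
    · simp only [add_sub_cancel_left, (cv_apply t _ _).2] at hij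
      have key : ∀ (L : List (ℕ × ℤ)) (k : ℕ), (∀ q ∈ L, q.1 < s) → cs F t k L u ≠ 0 → (u : ℕ) < s := by
        intro L
        induction L with
        | nil => intro k _ hh; simp [cs] at hh
        | cons q L ih =>
          intro k hq hh
          obtain ⟨v, M⟩ := q
          by_cases hv' : v = (u : ℕ)
          · exact hv' ▸ hq (v, M) (by simp)
          · exact ih (k + 1) (fun q hq' => hq q (List.mem_cons_of_mem _ hq')) (by simpa [cs, hv'] using hh)
      have hlt := key _ 0 (fun q hq => by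
        have := (hrange s q hq).2.2.2
        rwa [if_pos hneg] at this) hij
      simp [lev]
      split <;> split <;> omega

theorem V_lower (g : Good D c) {v : GL D.Idx F} (hv : v ∈ D.negUnipotent F) :
    Lower D F c.half ((v : Matrix D.Idx D.Idx F) - 1) := by
  have prod : ∀ A B : Matrix D.Idx D.Idx F, Lower D F c.half (A - 1) → Lower D F c.half (B - 1) →
      Lower D F c.half (A * B - 1) := by
    intro A B hA hB i j h
    have e : A * B - 1 = (A - 1) * (B - 1) + ((A - 1) + (B - 1)) := by noncomm_ring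
    rw [e] at h
    by_cases h1 : (A - 1) i j = 0
    · by_cases h2 : (B - 1) i j = 0
      · rw [Matrix.add_apply, Matrix.add_apply, h1, h2, add_zero, add_zero, Matrix.mul_apply] at h
        obtain ⟨l, -, hl⟩ := Finset.exists_ne_zero_of_sum_ne_zero h
        have := hA i l (left_ne_zero_of_mul hl)
        have := hB l j (right_ne_zero_of_mul hl)
        omega
      · exact hB i j h2
    · exact hA i j h1
  suffices Lower D F c.half ((v : Matrix D.Idx D.Idx F) - 1) ∧ Lower D F c.half (((v⁻¹ : GL D.Idx F) : Matrix D.Idx D.Idx F) - 1) from this.1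
  induction hv using Subgroup.closure_induction with
  | mem x hx =>
    obtain ⟨r, t, hr, hx⟩ := hx
    obtain ⟨hr1, hr2⟩ := (neg_iff g).1 hr
    have : x⁻¹ = xG g r hr1 (-t) := by rw [show x = xG g r hr1 t from Units.ext hx, xG_inv]
    refine ⟨hx ▸ x_lower g hr1 hr2 t, ?_⟩
    rw [this]; exact x_lower g hr1 hr2 (-t)
  | one => constructor <;> intro i j h <;> simp at h
  | mul a b _ _ ha hb =>
    refine ⟨by rw [Units.val_mul]; exact prod _ _ ha.1 hb.1, ?_⟩
    rw [_root_.mul_inv_rev, Units.val_mul]; exact prod _ _ hb.2 ha.2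
  | inv a _ ha => exact ⟨ha.2, by rw [inv_inv]; exact ha.1⟩

theorem H_norm_U (g : Good D c) :
    D.diagonalSubgroup F ≤ Subgroup.normalizer (D.posUnipotent F : Set (GL D.Idx F)) := by
  have key : ∀ h ∈ D.diagonalSubgroup F, ∀ u ∈ D.posUnipotent F, h * u * h⁻¹ ∈ D.posUnipotent F := by
    intro h hh u hu
    obtain ⟨χ, -, hc⟩ := H_char g hh
    induction hu using Subgroup.closure_induction with
    | mem x hx =>
      obtain ⟨r, t, hr, hx⟩ := hx
      rw [show x = xG g r hr.1 t from Units.ext hx, (hc r hr.1).2]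
      exact Subgroup.subset_closure ⟨r, χ r * t, hr, rfl⟩
    | one => simp
    | mul a b _ _ ha hb => have := mul_mem ha hb; simpa [mul_assoc] using this
    | inv a _ ha => have := inv_mem ha; simpa [mul_assoc] using this
  intro h hh
  rw [Subgroup.mem_normalizer_iff]
  intro u
  refine ⟨key h hh u, fun hu => ?_⟩
  simpa [mul_assoc] using key h⁻¹ (inv_mem hh) _ hu

theorem mem_B (g : Good D c) {b : GL D.Idx F} :
    b ∈ D.borelSubgroup F ↔ ∃ u ∈ D.posUnipotent F, ∃ h ∈ D.diagonalSubgroup F, u * h = b := by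
  rw [ChevalleyDatum.borelSubgroup, ← SetLike.mem_coe,
    Subgroup.coe_mul_of_right_le_normalizer_left _ _ (H_norm_U g)]
  exact Set.mem_mul

theorem U_H (g : Good D c) {u : GL D.Idx F} (hu : u ∈ D.posUnipotent F) (hh : u ∈ D.diagonalSubgroup F) : u = 1 := by
  obtain ⟨χ, hχ, -⟩ := H_char g hh
  have hr : Raise D F c.half 1 ((u : Matrix D.Idx D.Idx F) - 1) := U_le g.datum hu
  apply Units.ext
  rw [Units.val_one, ← sub_eq_zero]
  ext i j
  by_contra hne
  have h1 := hr i j hne
  have : i = j := by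
    by_contra e
    apply hne
    rw [Matrix.sub_apply, Matrix.one_apply_ne e, hχ, dg, diagonal_apply_ne _ e, sub_self]
    rfl
  subst this
  omega

theorem B_V (g : Good D c) {v : GL D.Idx F} (hb : v ∈ D.borelSubgroup F) (hv : v ∈ D.negUnipotent F) : v = 1 := by
  obtain ⟨u, hu, h, hh, e⟩ := (mem_B g).1 hb
  obtain ⟨χ, hχ, -⟩ := H_char g hh
  have hr : Raise D F c.half 1 ((u : Matrix D.Idx D.Idx F) - 1) := U_le g.datum hu
  have hl := V_lower g hv
  have hval : (v : Matrix D.Idx D.Idx F) = ((u : Matrix D.Idx D.Idx F) - 1) * dg D χ + dg D χ := by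
    rw [← e, Units.val_mul, hχ, sub_mul, one_mul, sub_add_cancel]
  have hraise : ∀ i j, (((u : Matrix D.Idx D.Idx F) - 1) * dg D χ) i j ≠ 0 → lev D c.half j + 1 ≤ lev D c.half i := by
    intro i j h
    rw [dg, mul_diagonal] at h
    exact hr i j (left_ne_zero_of_mul h)
  apply Units.ext
  rw [Units.val_one, ← sub_eq_zero]
  ext i j
  by_contra hne
  have h1 := hl i j hne
  by_cases h2 : (((u : Matrix D.Idx D.Idx F) - 1) * dg D χ) i j = 0
  · have hij : i ≠ j := fun h => by subst h; omega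
    apply hne
    rw [Matrix.sub_apply, hval, Matrix.add_apply, h2, dg, diagonal_apply_ne _ hij, Matrix.one_apply_ne hij, add_zero,
      sub_self]
    rfl
  · have := hraise i j h2
    omega

/-- A representative of the longest element. -/
theorem longest (g : Good D c) :
    ∃ n ∈ W0 g F, (∀ s, ∀ hs : s < D.nroots, ∃ v, ∃ hv : v < D.nroots, (v < c.half ↔ c.half ≤ s) ∧
      ∃ ε : F, ε * ε = 1 ∧ ∀ t, n * xG g s hs t * n⁻¹ = xG g v hv (ε * t)) ∧
      ∀ v, v < D.nroots → v < c.half → ∃ s, ∃ hs : s < D.nroots, ∃ hv : v < D.nroots, c.half ≤ s ∧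
        ∃ ε : F, ε * ε = 1 ∧ ∀ t, n * xG g s hs t * n⁻¹ = xG g v hv (ε * t) := by
  have hl := g.long
  simp only [longestOK, Bool.and_eq_true, List.all_eq_true, Nat.blt_eq, List.mem_range] at hl
  obtain ⟨hw, hall⟩ := hl
  have key : ∀ w : List ℕ, (∀ i ∈ w, i < D.rank) → ∃ n ∈ W0 g F, ∀ s, ∀ hs : s < D.nroots,
      ∃ hv : w.foldr (fun i v => c.im i v) s < D.nroots, w.reverse.foldr (fun i v => c.im i v) (w.foldr (fun i v => c.im i v) s) = s ∧
        ∃ ε : F, ε * ε = 1 ∧ ∀ t, n * xG g s hs t * n⁻¹ = xG g _ hv (ε * t) := by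
    intro w
    induction w with
    | nil => intro _; exact ⟨1, one_mem _, fun s hs => ⟨hs, rfl, 1, one_mul _, fun t => by simp⟩⟩
    | cons i w ih =>
      intro hw
      have hi := hw i (by simp)
      obtain ⟨n, hn, hn2⟩ := ih (fun j hj => hw j (List.mem_cons_of_mem _ hj))
      refine ⟨nG g (D.simple i) (g.simple hi).lt 1 * n, mul_mem (Subgroup.subset_closure ⟨i, hi, rfl⟩) hn, fun s hs => ?_⟩
      obtain ⟨hv, hrev, ε, hε, he⟩ := hn2 s hs
      have hr := g.refl hi hv
      refine ⟨hr.lt, ?_, (c.sgn i (w.foldr (fun i v => c.im i v) s) : F) * ε, ?_, fun t => ?_⟩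
      · rw [List.reverse_cons, List.foldr_append, List.foldr_cons]
        simp only [List.foldr_nil, List.foldr_cons]
        rw [hr.invol, hrev]
      · linear_combination ((c.sgn i (w.foldr (fun i v => c.im i v) s) : F) * (c.sgn i (w.foldr (fun i v => c.im i v) s) : F)) * hε + sgn_sqF F c i (w.foldr (fun i v => c.im i v) s)
      · calc _ = nG g (D.simple i) (g.simple hi).lt (1 : F) * (n * xG g s hs t * n⁻¹) * (nG g (D.simple i) (g.simple hi).lt (1 : F))⁻¹ := by group
          _ = _ := by rw [he, n1_conj g hi hv, ← mul_assoc]; rfl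
  obtain ⟨n, hn, hn2⟩ := key c.longest (fun i hi => hw i hi)
  have back : ∀ (w : List ℕ), (∀ i ∈ w, i < D.rank) → ∀ v < D.nroots,
      w.reverse.foldr (fun i v => c.im i v) v < D.nroots ∧
      w.foldr (fun i v => c.im i v) (w.reverse.foldr (fun i v => c.im i v) v) = v := by
    intro w
    induction w with
    | nil => intro _ v hv; exact ⟨hv, rfl⟩
    | cons i w ih =>
      intro hw v hv
      have hi := hw i (by simp)
      obtain ⟨h1, h2⟩ := ih (fun j hj => hw j (List.mem_cons_of_mem _ hj)) _ (g.refl hi hv).lt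
      rw [List.reverse_cons, List.foldr_append]
      simp only [List.foldr_cons, List.foldr_nil]
      exact ⟨h1, by rw [h2, (g.refl hi hv).invol]⟩
  have dir : ∀ s < D.nroots, (c.longest.foldr (fun i v => c.im i v) s < c.half ↔ c.half ≤ s) := by
    intro s hs
    have := hall s hs
    by_cases h : c.half ≤ s
    · rw [show Nat.ble c.half s = true by simpa using h, cond_true, Nat.blt_eq] at this
      exact iff_of_true this h
    · rw [show Nat.ble c.half s = false by simpa [← Bool.not_eq_true] using h, cond_false, Nat.ble_eq] at this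
      exact iff_of_false (by omega) h
  refine ⟨n, hn, fun s hs => ?_, fun v hv hvn => ?_⟩
  · obtain ⟨hv, -, he⟩ := hn2 s hs
    exact ⟨_, hv, dir s hs, he⟩
  · obtain ⟨hs, hfs⟩ := back c.longest (fun i hi => hw i hi) v hv
    obtain ⟨hv', -, ε, hε, he⟩ := hn2 _ hs
    refine ⟨_, hs, hv, (dir _ hs).1 (hfs.symm ▸ hvn), ε, hε, fun t => ?_⟩
    rw [he, xG_congr g hfs hv' hv]

theorem W0_le (g : Good D c) : W0 g F ≤ D.group F := by
  rw [W0, Subgroup.closure_le]
  rintro x ⟨i, hi, rfl⟩
  have hp := (g.simple hi).lt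
  have : ∀ r, ∀ hr : r < D.nroots, ∀ t : F, xG g r hr t ∈ D.group F := fun r hr t =>
    Subgroup.subset_closure ⟨⟨r, hr⟩, t, x_eq hr t⟩
  exact mul_mem (mul_mem (this _ hp _) (this _ (g.neg_lt hp) _)) (this _ hp _)

theorem longest_conj (g : Good D c) :
    ∃ n ∈ W0 g F, (D.posUnipotent F).map (MulAut.conj n).toMonoidHom = D.negUnipotent F ∧
      (D.negUnipotent F).map (MulAut.conj n).toMonoidHom ≤ D.posUnipotent F := by
  obtain ⟨n, hn, fwd, bwd⟩ := longest (F := F) g
  refine ⟨n, hn, le_antisymm ?_ ?_, ?_⟩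
  · rw [ChevalleyDatum.posUnipotent, MonoidHom.map_closure, Subgroup.closure_le]
    rintro _ ⟨x, ⟨r, t, hr, hx⟩, rfl⟩
    obtain ⟨v, hv, hiff, ε, -, he⟩ := fwd r hr.1
    refine Subgroup.subset_closure ⟨v, ε * t, (neg_iff g).2 ⟨hv, hiff.2 ((pos_iff g).1 hr).2⟩, ?_⟩
    rw [show x = xG g r hr.1 t from Units.ext hx]
    exact congrArg Units.val (he t)
  · rw [ChevalleyDatum.negUnipotent, Subgroup.closure_le]
    rintro x ⟨v, t, hv, hx⟩
    obtain ⟨s, hs, hv', hps, ε, hε, he⟩ := bwd v hv.1 ((neg_iff g).1 hv).2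
    refine ⟨xG g s hs (ε * t), Subgroup.subset_closure ⟨s, ε * t, (pos_iff g).2 ⟨hs, hps⟩, rfl⟩, ?_⟩
    change n * xG g s hs (ε * t) * n⁻¹ = x
    rw [he, ← mul_assoc, hε, one_mul]
    exact (Units.ext hx).symm
  · rw [ChevalleyDatum.negUnipotent, MonoidHom.map_closure, Subgroup.closure_le]
    rintro _ ⟨x, ⟨r, t, hr, hx⟩, rfl⟩
    obtain ⟨v, hv, hiff, ε, -, he⟩ := fwd r hr.1
    have := ((neg_iff g).1 hr).2
    refine Subgroup.subset_closure ⟨v, ε * t, (pos_iff g).2 ⟨hv, ?_⟩, ?_⟩
    · by_contra h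
      have := hiff.1 (by omega)
      omega
    · rw [show x = xG g r hr.1 t from Units.ext hx]
      exact congrArg Units.val (he t)

end Cfsg.Agent.Chev
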