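import Cfsg.Agent.Chev.Count

set_option autoImplicit false
attribute [-simp] Array.getD_eq_getD_getElem?

namespace Cfsg.Agent.Chev.Tits

open Cfsg.Lie Matrix Cfsg.Agent.Chev.Comm

variable {D : ChevalleyDatum} {c : Cert} {F : Type*} [Field F]

/-- The group of the roots made negative by the inverse of a word. -/
abbrev UL (D : ChevalleyDatum) (F : Type*) [Field F] (c : Cert) (L : List ℕ) : Subgroup (GL D.Idx F) :=
  Subgroup.closure {x : GL D.Idx F | ∃ (r : ℕ) (t : F), D.IsPosRoot r ∧ wim c L.reverse r < c.half ∧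
    (x : Matrix D.Idx D.Idx F) = D.x F r t}

variable (G : TGood D c)
include G

theorem neg_half {r : ℕ} (hr : r < D.nroots) (hp : c.half ≤ r) : D.neg r < c.half := by
  have h := neg_side G (G.good.neg_lt hr)
  rw [G.good.neg_neg hr] at h
  exact h.2 hp

theorem CC_form : ∀ L : List ℕ, GoodW D c L → (∀ j ∈ L, j < D.rank) → ∀ x ∈ CC D F (wp G.good F L),
    ∃ u ∈ UL D F c L, ∃ b ∈ D.borelSubgroup F, x = u * wp G.good F L * b := by
  intro L
  induction L with
  | nil =>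
    rintro - - x ⟨a, ha, b, hb, rfl⟩
    exact ⟨1, one_mem _, a * b, mul_mem ha hb, by simp [wp]⟩
  | cons i L ih =>
    rintro hgood hL x ⟨a, ha, b, hb, rfl⟩
    obtain ⟨hi, hpos, hgood'⟩ := hgood
    have hL' : ∀ j ∈ L, j < D.rank := fun j hj => hL j (List.mem_cons_of_mem _ hj)
    set s := nn G.good F i with hs
    set w := wp G.good F L with hw
    have e0 : wp G.good F (i :: L) = s * w := by simp [wp, hs, hw]
    have hp := (G.good.simple hi).lt
    obtain ⟨u, hu, v, h, hh, e⟩ := B_form G hi ((D.borelSubgroup F).inv_mem ha)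
    obtain ⟨χ, -, hc⟩ := H_char G.good (inv_mem hh)
    obtain ⟨k, hk, ek⟩ := nn_inv (F := F) G hi
    have hu' : s⁻¹ * u⁻¹ * s ∈ D.borelSubgroup F := by
      have := Ui_mem_B G (Ui_nn G hi _ (inv_mem hu))
      have h' := mul_mem (mul_mem (H_mem_B G hk) this) (inv_mem (H_mem_B G hk))
      have e2 : s⁻¹ * u⁻¹ * s = k * (s * u⁻¹ * s⁻¹) * k⁻¹ := by
        calc s⁻¹ * u⁻¹ * s = (k * s) * u⁻¹ * (k * s)⁻¹ := by rw [← ek, inv_inv]
          _ = _ := by group
      rw [e2]; exact h'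
    have hy : (s⁻¹ * h⁻¹ * s) * (s⁻¹ * u⁻¹ * s) * w * b ∈ CC D F w :=
      ⟨_, mul_mem (H_mem_B G (norm_H' G (nn_mem_N (F := F) G hi) (inv_mem hh))) hu', b, hb, rfl⟩
    obtain ⟨p, hpU, b', hb', ey⟩ := ih hgood' hL' _ hy
    have hnp : wim c (i :: L).reverse (D.simple i) < c.half := by
      rw [List.reverse_cons, wim_append G]
      show wim c L.reverse (c.im i (D.simple i)) < c.half
      have hR : ∀ j ∈ L.reverse, j < D.rank := fun j hj => hL' j (List.mem_reverse.1 hj)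
      rw [(G.good.simple hi).im_self, wim_neg G L.reverse hR _ hp]
      exact neg_half G (wim_lt G L.reverse hR _ hp) hpos
    have hconj : s * p * s⁻¹ ∈ UL D F c (i :: L) := by
      clear ey
      induction hpU using Subgroup.closure_induction with
      | mem z hz =>
        obtain ⟨r, t, hr, hn, hz⟩ := hz
        obtain ⟨hr1, hr2⟩ := (pos_iff G.good).1 hr
        have hne : r ≠ D.simple i := fun e' => absurd hpos (by rw [← e']; omega)
        rw [show z = xG G.good r hr1 t from Units.ext hz, hs, nn_conj G hi hr1]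
        refine Subgroup.subset_closure ⟨_, _, (pos_iff G.good).2 ⟨(G.good.refl hi hr1).lt, G.im_pos hi hr1 hr2 hne⟩, ?_, rfl⟩
        rw [List.reverse_cons, wim_append G]
        show wim c L.reverse (c.im i (c.im i r)) < c.half
        rw [(G.good.refl hi hr1).invol]
        exact hn
      | one => simp
      | mul a b _ _ ha hb => have := mul_mem ha hb; simpa [mul_assoc] using this
      | inv a _ ha => have := inv_mem ha; simpa [mul_assoc] using this
    refine ⟨xG G.good (D.simple i) hp (χ (D.simple i) * -v) * (s * p * s⁻¹),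
      mul_mem (Subgroup.subset_closure ⟨_, _, (pos_iff G.good).2 ⟨hp, (G.good.simple hi).pos⟩, hnp, rfl⟩) hconj, b', hb', ?_⟩
    rw [e0, ← (hc _ hp).2, ← xG_inv]
    have ea : a = (u * xG G.good (D.simple i) hp v * h)⁻¹ := by rw [← e, inv_inv]
    subst ea
    calc (u * xG G.good (D.simple i) hp v * h)⁻¹ * (s * w) * b
        = h⁻¹ * (xG G.good (D.simple i) hp v)⁻¹ * h⁻¹⁻¹ * (s * (s⁻¹ * h⁻¹ * s * (s⁻¹ * u⁻¹ * s) * w * b)) := by group
      _ = _ := by rw [ey]; group

omit G in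
/-- The group `U_n⁻`. -/
abbrev UN (D : ChevalleyDatum) (F : Type*) [Field F] (n : GL D.Idx F) : Subgroup (GL D.Idx F) :=
  Subgroup.closure {x : GL D.Idx F | ∃ (r : ℕ) (t : F), D.IsPosRoot r ∧
    (D.rootSubgroup F r).map (MulAut.conj n).toMonoidHom ≤ D.negUnipotent F ∧ (x : Matrix D.Idx D.Idx F) = D.x F r t}

theorem canon_exists (hrev : revOK D = true) (hcs : corSimpleOK D = true) (Ls : ℕ → Lev)
    (hLs : ∀ m < D.rank, levOK D c m (Ls m) = true) (h1 : D.borelSubgroup F ≤ D.group F)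
    (h2 : D.monomialSubgroup F ≤ D.group F) (h3 : D.borelSubgroup F ⊔ D.monomialSubgroup F = D.group F)
    {g : GL D.Idx F} (hg : g ∈ D.group F) :
    ∃ b ∈ D.borelSubgroup F, ∃ n ∈ D.monomialSubgroup F, ∃ u ∈ UN D F n, g = b * n * u := by
  obtain ⟨P, hB, hN, -⟩ := exists_pair G h1 h2 h3
  obtain ⟨m, hm, hc⟩ := Cfsg.Agent.BN.bruhat P ⟨g⁻¹, inv_mem hg⟩
  obtain ⟨a, ha, b, hb, e⟩ := (Cfsg.Agent.BN.mem_cell P).1 hc
  rw [hB, Subgroup.mem_subgroupOf] at ha hb
  rw [hN, Subgroup.mem_subgroupOf] at hm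
  obtain ⟨k, hk, L, hL, em⟩ := N_word G hm
  obtain ⟨w, hw, ew⟩ := word_in_combos (F := F) G hrev hcs Ls hLs L hL
  have hlt := combos_lt Ls D.rank hLs w hw
  have hx : g⁻¹ ∈ CC D F (wp G.good F w) := by
    rw [← CC_eqv G ew]
    refine ⟨(a : GL D.Idx F) * k, mul_mem ha (H_mem_B G hk), (b : GL D.Idx F), hb, ?_⟩
    have e' : g⁻¹ = (a : GL D.Idx F) * (m : GL D.Idx F) * (b : GL D.Idx F) := congrArg Subtype.val e
    rw [e', em]; group
  obtain ⟨u, hu, b', hb', e'⟩ := CC_form G w (combos_good G hcs Ls D.rank le_rfl hLs w hw) hlt _ hx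
  refine ⟨b'⁻¹, inv_mem hb', (wp G.good F w)⁻¹, inv_mem (wp_mem_N G w hlt), u⁻¹, inv_mem ?_, ?_⟩
  · refine (Subgroup.closure_le _).2 ?_ hu
    rintro z ⟨r, t, hr, hn, hz⟩
    refine Subgroup.subset_closure ⟨r, t, hr, ?_, hz⟩
    obtain ⟨hr1, -⟩ := (pos_iff G.good).1 hr
    rw [ChevalleyDatum.rootSubgroup, MonoidHom.map_closure, Subgroup.closure_le]
    rintro y ⟨z', ⟨v, hv'⟩, rfl⟩
    have hR : ∀ j ∈ w.reverse, j < D.rank := fun j hj => hlt j (List.mem_reverse.1 hj)
    obtain ⟨ε, hε, h4, -⟩ := wact (F := F) G w hlt _ (wim_lt G w.reverse hR r hr1)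
    have h5 := h4 (ε * v)
    rw [← mul_assoc ε, hε, one_mul, xG_congr G.good (wim_inv G w hlt r hr1).2 _ hr1] at h5
    show (MulAut.conj (wp G.good F w)⁻¹) z' ∈ D.negUnipotent F
    rw [MulAut.conj_apply, show z' = xG G.good r hr1 v from Units.ext hv', ← h5, inv_inv]
    have h6 : (wp G.good F w)⁻¹ * (wp G.good F w * xG G.good (wim c w.reverse r) (wim_lt G w.reverse hR r hr1) (ε * v) * (wp G.good F w)⁻¹) * wp G.good F w =
        xG G.good (wim c w.reverse r) (wim_lt G w.reverse hR r hr1) (ε * v) := by group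
    rw [h6]
    exact Subgroup.subset_closure ⟨_, _, (neg_iff G.good).2 ⟨wim_lt G w.reverse hR r hr1, hn⟩, rfl⟩
  · rw [← inv_inv g, e']; group

theorem canon_unique (h1 : D.borelSubgroup F ≤ D.group F)
    (h2 : D.monomialSubgroup F ≤ D.group F) (h3 : D.borelSubgroup F ⊔ D.monomialSubgroup F = D.group F)
    {b b' n n' u u' : GL D.Idx F} (hb : b ∈ D.borelSubgroup F) (hb' : b' ∈ D.borelSubgroup F)
    (hn : n ∈ D.monomialSubgroup F) (hn' : n' ∈ D.monomialSubgroup F) (hu : u ∈ UN D F n) (hu' : u' ∈ UN D F n')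
    (e : b * n * u = b' * n' * u') :
    n⁻¹ * n' ∈ D.diagonalSubgroup F ∧ (n = n' → b = b' ∧ u = u') := by
  have hUB : ∀ m, UN D F m ≤ D.borelSubgroup F := by
    intro m
    rw [UN, Subgroup.closure_le]
    rintro x ⟨r, t, hr, -, hx⟩
    exact Subgroup.mem_sup_left (Subgroup.subset_closure ⟨r, t, hr, hx⟩)
  refine ⟨CC_inj G h1 h2 h3 hn' hn ⟨b', hb', u', hUB _ hu', e⟩ ⟨b, hb, u, hUB _ hu, rfl⟩, fun hnn => ?_⟩
  subst hnn
  have hV : ∀ x ∈ UN D F n, n * x * n⁻¹ ∈ D.negUnipotent F := by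
    intro x hx
    induction hx using Subgroup.closure_induction with
    | mem z hz =>
      obtain ⟨r, t, -, hle, hz⟩ := hz
      exact hle ⟨z, Subgroup.subset_closure ⟨t, hz⟩, rfl⟩
    | one => simp
    | mul a b _ _ ha hb => have := mul_mem ha hb; simpa [mul_assoc] using this
    | inv a _ ha => have := inv_mem ha; simpa [mul_assoc] using this
  have e1 : b⁻¹ * b' = n * (u * u'⁻¹) * n⁻¹ := by
    calc b⁻¹ * b' = b⁻¹ * (b' * n * u') * u'⁻¹ * n⁻¹ := by group
      _ = _ := by rw [← e]; group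
  have h4 := B_V G.good (mul_mem (inv_mem hb) hb') (e1 ▸ hV _ (mul_mem hu (inv_mem hu')))
  have hbb : b = b' := inv_mul_eq_one.1 h4
  subst hbb
  exact ⟨rfl, mul_left_cancel e⟩

end Cfsg.Agent.Chev.Tits
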