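import Cfsg.Agent.Chev.Check2

set_option autoImplicit false
set_option maxRecDepth 100000

namespace Cfsg.Agent.Chev

open Cfsg.Lie

/-- The certificate for type G2. -/
def certG2 : Cert where
  half := 6
  perms := [0x580d04412024140080f0100702c00,0x54160480f0400b034060240400003]
  longest := [0, 1, 0, 1, 0, 1]

theorem packG2 : packOK chevG2 = true := by decide +kernel

theorem simplesG2 : ((List.range 2).all fun i => simpleOK chevG2 certG2 i) = true := by decide +kernel

theorem reflG2_0 : reflOK chevG2 certG2 0 = true := by decide +kernel

theorem reflG2_1 : reflOK chevG2 certG2 1 = true := by decide +kernel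

theorem miscG2 : (reachOK chevG2 certG2 && longestOK chevG2 certG2 && primOK chevG2) = true := by decide +kernel

end Cfsg.Agent.Chev
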