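import Cfsg.Agent.Chev.TitsCheck
import Cfsg.Prelude.Def_ChevStructure
import Cfsg.Agent.Chev.CertG2
import Cfsg.Agent.Chev.CertB2
import Cfsg.Agent.Chev.CertD4
import Cfsg.Agent.Chev.CertF4
import Cfsg.Agent.Chev.CertE6
import Cfsg.Agent.Chev.CertE7
import Cfsg.Agent.Chev.CertE8

set_option autoImplicit false
set_option maxRecDepth 100000

namespace Cfsg.Agent.Chev.Tits

open Cfsg.Lie

/-- The negatives are listed in reverse order and coroots have `rank` coordinates. -/
def revOK (D : ChevalleyDatum) : Bool :=
  (List.range D.nroots).all fun r => Nat.beq (D.neg r + r + 1) D.nroots && Nat.ble (D.coroot.getD r #[]).toList.length D.rank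

theorem revG2 : revOK chevG2 = true := by decide +kernel

theorem revB2 : revOK chevB2 = true := by decide +kernel

theorem revD4 : revOK chevD4 = true := by decide +kernel

theorem revF4 : revOK chevF4 = true := by decide +kernel

theorem revE6 : revOK chevE6 = true := by decide +kernel

theorem revE7 : revOK chevE7 = true := by decide +kernel

theorem revE8 : revOK chevE8 = true := by decide +kernel

theorem rev_of_mem {D : ChevalleyDatum}
    (hD : D ∈ [chevG2, chevB2, chevD4, chevF4, chevE6, chevE7, chevE8]) : revOK D = true := by
  simp only [List.mem_cons, List.not_mem_nil, or_false] at hD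
  rcases hD with rfl | rfl | rfl | rfl | rfl | rfl | rfl
  · exact revG2
  · exact revB2
  · exact revD4
  · exact revF4
  · exact revE6
  · exact revE7
  · exact revE8

end Cfsg.Agent.Chev.Tits
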