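import Cfsg.Agent.Chev.Pair
import Cfsg.Agent.Chev.UnipOrd

set_option autoImplicit false
attribute [-simp] Array.getD_eq_getD_getElem?

namespace Cfsg.Agent.Chev.Tits

open Cfsg.Lie Matrix Cfsg.Agent.Chev.Comm

variable {D : ChevalleyDatum} {c : Cert} {F : Type*} [Field F]

/-- The root element, or `1` out of range. -/
noncomputable def xx (g : Good D c) (r : ℕ) (t : F) : GL D.Idx F :=
  if hr : r < D.nroots then xG g r hr t else 1

/-- The subgroup generated by the root subgroups from `k` on. -/
noncomputable def V (g : Good D c) (F : Type*) [Field F] (k : ℕ) : Subgroup (GL D.Idx F) :=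
  Subgroup.closure {x | ∃ (r : ℕ) (t : F), k ≤ r ∧ ∃ hr : r < D.nroots, x = xG g r hr t}

/-- An ordered product of root elements. -/
noncomputable def pr (g : Good D c) (t : ℕ → F) (k m : ℕ) : GL D.Idx F :=
  ((List.range' k m).map fun r => xx g r (t r)).prod

variable (G : TGood D c)
include G

theorem neg_val (hrev : revOK D = true) {r : ℕ} (hr : r < D.nroots) : D.neg r + r + 1 = D.nroots :=
  Nat.eq_of_beq_eq_true (by
    have := List.all_eq_true.1 hrev r (List.mem_range.2 hr)
    rw [Bool.and_eq_true] at this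
    exact this.1)

theorem posRoots_eq : D.posRoots = List.range' c.half (D.nroots - c.half) := by
  have h : D.posRoots = (List.range D.nroots).filter fun r => decide (c.half ≤ r) := by
    unfold ChevalleyDatum.posRoots
    apply List.filter_congr
    intro r hr
    simp only [decide_eq_decide, pos_iff G.good, List.mem_range.1 hr, true_and]
  have hN := nroots_eq G.good.datum
  rw [h, show D.nroots = c.half + c.half by omega, List.range_add, List.filter_append, List.range'_eq_map_range]
  rw [List.filter_eq_nil_iff.2 (by intro a ha; simp only [List.mem_range] at ha; simp; omega), List.nil_append,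
    List.filter_eq_self.2 (by intro a ha; obtain ⟨b, -, rfl⟩ := List.mem_map.1 ha; simp), add_tsub_cancel_right]

theorem xx_zero (r : ℕ) : xx G.good r (0 : F) = 1 := by
  unfold xx
  split
  · next hr => exact Units.ext (x_zero G.good.datum hr)
  · rfl

theorem pr_val (t : ℕ → F) (k m : ℕ) :
    (pr G.good t k m : Matrix D.Idx D.Idx F) = D.wordMat F ((List.range' k m).map fun r => (r, t r)) := by
  induction m generalizing k with
  | zero => simp [pr, ChevalleyDatum.wordMat]
  | succ m ih =>
    have h := ih (k + 1)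
    simp only [pr, List.range'_succ, List.map_cons, List.prod_cons, ChevalleyDatum.wordMat, Units.val_mul] at h ⊢
    rw [h]
    congr 1
    unfold xx ChevalleyDatum.x
    split
    · next hr => simp [xG, ChevalleyDatum.x, hr]
    · rfl

theorem V_norm {k : ℕ} (hk : k < D.nroots) (hkp : c.half ≤ k) :
    D.rootSubgroup F k ≤ Subgroup.normalizer (V G.good F (k + 1) : Set (GL D.Idx F)) := by
  have conj : ∀ v : F, ∀ u ∈ V G.good F (k + 1), xG G.good k hk v * u * (xG G.good k hk v)⁻¹ ∈ V G.good F (k + 1) := by
    intro v u hu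
    induction hu using Subgroup.closure_induction with
    | mem x hx =>
      obtain ⟨r, t, hkr, hr, rfl⟩ := hx
      have hne : r ≠ D.neg k := by
        intro e
        have h1 := (neg_side G (G.good.neg_lt hk)).2 (by rw [G.good.neg_neg hk]; exact hkp)
        omega
      have mem : ∀ q, ∀ hq : q < D.nroots, k + 1 ≤ q → ∀ w : F, xG G.good q hq w ∈ V G.good F (k + 1) :=
        fun q hq hle w => Subgroup.subset_closure ⟨q, w, hle, hq, rfl⟩
      refine comm_conj G hk hr (by omega) hne v t (mem r hr hkr t) fun q hq hql w => mem q.1 hql ?_ w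
      have cgt : ∀ {a b n q : ℕ}, a < D.nroots → c.half ≤ a → D.chainRoot a b n = some q → b < q := by
        intro a b n q ha hpa h
        simp only [ChevalleyDatum.chainRoot, Option.map_eq_some_iff] at h
        obtain ⟨x, hx, rfl⟩ := h
        have := ((facts G.good.datum ha).range b x (List.mem_of_getElem? hx)).2.2.2
        rwa [if_neg (by omega)] at this
      simp only [ChevalleyDatum.commTerms, List.mem_filterMap, List.mem_cons, List.not_mem_nil, or_false,
        Option.map_eq_some_iff] at hq
      obtain ⟨a, ha, z, hz, rfl⟩ := hq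
      have hrp : c.half ≤ r := by omega
      rcases ha with rfl | rfl | rfl | rfl | rfl | rfl | rfl
      · have := cgt hk hkp hz; omega
      · have := cgt hk hkp hz; omega
      · have := cgt hr hrp hz; omega
      · have := cgt hk hkp hz; omega
      · have := cgt hr hrp hz; omega
      · obtain ⟨j, hj, hj'⟩ := Option.bind_eq_some_iff.1 hz
        have := cgt hk hkp hj
        have := cgt (root_lt G.good hk hj) (by omega) hj'
        show k + 1 ≤ z
        omega
      · obtain ⟨j, hj, hj'⟩ := Option.bind_eq_some_iff.1 hz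
        have := cgt hr hrp hj
        have := cgt (root_lt G.good hr hj) (by omega) hj'
        show k + 1 ≤ z
        -- the last step starts from a root above `k`
        rcases Option.map_eq_some_iff.1 hj' with ⟨x, hx, rfl⟩
        have hh := ((facts G.good.datum (root_lt G.good hr hj)).range k x (List.mem_of_getElem? hx)).2.2.2
        rw [if_neg (by omega)] at hh
        omega
    | one => simp
    | mul a b _ _ ha hb => have := mul_mem ha hb; simpa [mul_assoc] using this
    | inv a _ ha => have := inv_mem ha; simpa [mul_assoc] using this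
  rw [ChevalleyDatum.rootSubgroup, Subgroup.closure_le]
  rintro x ⟨t, hx⟩
  rw [show x = xG G.good k hk t from Units.ext hx, SetLike.mem_coe, Subgroup.mem_normalizer_iff]
  intro u
  refine ⟨conj t u, fun h => ?_⟩
  have := conj (-t) _ h
  rwa [← xG_inv, show (xG G.good k hk t)⁻¹ * (xG G.good k hk t * u * (xG G.good k hk t)⁻¹) * ((xG G.good k hk t)⁻¹)⁻¹ = u by group] at this

theorem exists_pr : ∀ m k : ℕ, k + m = D.nroots → c.half ≤ k → ∀ g ∈ V G.good F k,
    ∃ t : ℕ → F, g = pr G.good t k m := by
  intro m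
  induction m with
  | zero =>
    intro k hk _ g hg
    refine ⟨0, ?_⟩
    have : V G.good F k = ⊥ := by
      rw [V, Subgroup.closure_eq_bot_iff]
      rintro x ⟨r, t, hkr, hr, rfl⟩
      omega
    rw [this, Subgroup.mem_bot] at hg
    simp [pr, hg]
  | succ m ih =>
    intro k hk hkp g hg
    have hlt : k < D.nroots := by omega
    have hle : V G.good F k ≤ D.rootSubgroup F k ⊔ V G.good F (k + 1) := by
      rw [V, Subgroup.closure_le]
      rintro x ⟨r, t, hkr, hr, rfl⟩
      by_cases e : r = k
      · subst e; exact Subgroup.mem_sup_left (Subgroup.subset_closure ⟨t, rfl⟩)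
      · exact Subgroup.mem_sup_right (Subgroup.subset_closure ⟨r, t, by omega, hr, rfl⟩)
    have h1 := hle hg
    rw [← SetLike.mem_coe, Subgroup.coe_mul_of_left_le_normalizer_right _ _ (V_norm G hlt hkp)] at h1
    obtain ⟨a, ha, w, hw, rfl⟩ := Set.mem_mul.1 h1
    obtain ⟨v, rfl⟩ := root_form G hlt ha
    obtain ⟨t, rfl⟩ := ih (k + 1) (by omega) (by omega) w hw
    refine ⟨Function.update t k v, ?_⟩
    simp only [pr, List.range'_succ, List.map_cons, List.prod_cons, Function.update_self, xx, dif_pos hlt]
    congr 2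
    apply List.map_congr_left
    intro r hr
    rw [List.mem_range'] at hr
    obtain ⟨i, -, rfl⟩ := hr
    rw [Function.update_of_ne (by omega)]

theorem pr_mem {k m : ℕ} (t : ℕ → F) : pr G.good t k m ∈ V G.good F k := by
  refine Subgroup.list_prod_mem _ fun x hx => ?_
  obtain ⟨r, hr, rfl⟩ := List.mem_map.1 hx
  rw [List.mem_range'] at hr
  obtain ⟨i, -, rfl⟩ := hr
  unfold xx
  split
  · next h => exact Subgroup.subset_closure ⟨_, _, by omega, h, rfl⟩
  · exact one_mem _

omit G in
/-- Vectors above the negative root `-k`. -/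
def Above (D : ChevalleyDatum) (F : Type*) [Field F] (a : ℕ) (z : D.Idx → F) : Prop :=
  (∀ j, z (Sum.inl j) = 0) ∧ ∀ s : Fin D.nroots, z (Sum.inr s) ≠ 0 → a < s.val

theorem decomp {z : D.Idx → F} (hz : ∀ j, z (Sum.inl j) = 0) :
    z = ∑ s : Fin D.nroots, z (Sum.inr s) • rv D F s := by
  funext i
  rcases i with i | i
  · simp [hz, Finset.sum_apply, rv_inl]
  · simp [Finset.sum_apply, rv_apply, Fin.val_inj, eq_comm]

theorem above_cv {a : ℕ} (t : F) : ∀ (L : List (ℕ × ℤ)) (j : ℕ), (∀ q ∈ L, a < q.1) → Above D F a (cv D F t j L) := by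
  intro L
  induction L with
  | nil => intro j _; exact ⟨fun i => by simp [cv], fun s h => by simp [cv] at h⟩
  | cons q L ih =>
    intro j h
    obtain ⟨u, M⟩ := q
    obtain ⟨h1, h2⟩ := ih (j + 1) fun q hq => h q (List.mem_cons_of_mem _ hq)
    refine ⟨fun i => by simp [cv, rv_inl, h1], fun s hs => ?_⟩
    by_contra hle
    have : cv D F t (j + 1) L (Sum.inr s) = 0 := by_contra fun hh => hle (h2 s hh)
    have hu := h (u, M) (by simp)
    have hne : s.val ≠ u := fun e => hle (e ▸ hu)
    simp [cv, this, rv_apply, hne, Ne.symm hne] at hs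

theorem x_above (hrev : revOK D = true) {k r : ℕ} (hk : k < D.nroots) (hkp : c.half ≤ k) (hr : r < D.nroots)
    (hkr : k ≤ r) (t : F) :
    (∀ z, Above D F (D.neg k) z → Above D F (D.neg k) (D.x F r t *ᵥ z)) ∧
      (k < r → Above D F (D.neg k) (D.x F r t *ᵥ rv D F (D.neg k) - rv D F (D.neg k))) := by
  have hnk := neg_val G hrev hk
  have hnr := neg_val G hrev hr
  have hrp : c.half ≤ r := by omega
  have basis : ∀ v, ∀ hv : v < D.nroots, v ≠ r → v ≠ D.neg r → D.neg k ≤ v →
      Above D F (D.neg k) (D.x F r t *ᵥ rv D F v - rv D F v) := by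
    intro v hvl h1 h2 hle
    rw [x_other G.good.datum hr t hvl h1 h2, add_sub_cancel_left]
    refine above_cv G t _ 0 fun q hq => ?_
    have := ((facts G.good.datum hr).range v q hq).2.2.2
    rw [if_neg (by omega)] at this
    omega
  refine ⟨fun z hz => ?_, fun hlt => basis _ (G.good.neg_lt hk) ?_ ?_ le_rfl⟩
  · rw [decomp G hz.1, mulVec_sum]
    have each : ∀ s : Fin D.nroots, Above D F (D.neg k) (D.x F r t *ᵥ (z (Sum.inr s) • rv D F s.val)) := by
      intro s
      by_cases h0 : z (Sum.inr s) = 0
      · simp [h0, Above]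
      have hs := hz.2 s h0
      rw [mulVec_smul]
      have hsv : Above D F (D.neg k) (rv D F s.val) := ⟨fun j => rv_inl _ _, fun i hi => by
        rw [rv_apply] at hi; split at hi
        · omega
        · exact absurd rfl hi⟩
      have hx : Above D F (D.neg k) (D.x F r t *ᵥ rv D F s.val) := by
        by_cases h1 : s.val = r
        · rw [h1, x_self G.good.datum hr]; rwa [h1] at hsv
        have h2 : s.val ≠ D.neg r := by omega
        have := basis s.val s.2 h1 h2 hs.le
        refine ⟨fun j => ?_, fun i hi => ?_⟩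
        · have e := this.1 j
          rwa [Pi.sub_apply, rv_inl, sub_zero] at e
        · by_contra hle
          have e1 : rv D F s.val (Sum.inr i) = 0 := by_contra fun hh => hle (hsv.2 i hh)
          exact hle (this.2 i (by rwa [Pi.sub_apply, e1, sub_zero]))
      exact ⟨fun j => by simp [hx.1 j], fun i hi => hx.2 i fun e => hi (by simp [e])⟩
    refine ⟨fun j => ?_, fun i hi => ?_⟩
    · rw [Finset.sum_apply]; exact Finset.sum_eq_zero fun s _ => (each s).1 j
    · rw [Finset.sum_apply] at hi
      obtain ⟨s, -, hs⟩ := Finset.exists_ne_zero_of_sum_ne_zero hi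
      exact (each s).2 i hs
  · have := (neg_side G (G.good.neg_lt hk)).2 (by rw [G.good.neg_neg hk]; exact hkp); omega
  · omega

theorem V_above (hrev : revOK D = true) {k : ℕ} (hk : k < D.nroots) (hkp : c.half ≤ k) {w : GL D.Idx F}
    (hw : w ∈ V G.good F (k + 1)) :
    (∀ z, Above D F (D.neg k) z → Above D F (D.neg k) ((w : Matrix D.Idx D.Idx F) *ᵥ z)) ∧
      Above D F (D.neg k) ((w : Matrix D.Idx D.Idx F) *ᵥ rv D F (D.neg k) - rv D F (D.neg k)) := by
  rw [V] at hw
  have step : ∀ x y : GL D.Idx F, ((∀ z, Above D F (D.neg k) z → Above D F (D.neg k) ((x : Matrix D.Idx D.Idx F) *ᵥ z)) ∧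
      Above D F (D.neg k) ((x : Matrix D.Idx D.Idx F) *ᵥ rv D F (D.neg k) - rv D F (D.neg k))) →
    ((∀ z, Above D F (D.neg k) z → Above D F (D.neg k) ((y : Matrix D.Idx D.Idx F) *ᵥ z)) ∧
      Above D F (D.neg k) ((y : Matrix D.Idx D.Idx F) *ᵥ rv D F (D.neg k) - rv D F (D.neg k))) →
    ((∀ z, Above D F (D.neg k) z → Above D F (D.neg k) (((x * y : GL D.Idx F) : Matrix D.Idx D.Idx F) *ᵥ z)) ∧
      Above D F (D.neg k) (((x * y : GL D.Idx F) : Matrix D.Idx D.Idx F) *ᵥ rv D F (D.neg k) - rv D F (D.neg k))) := by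
    rintro x y ⟨x1, x2⟩ ⟨y1, y2⟩
    refine ⟨fun z hz => by rw [Units.val_mul, ← mulVec_mulVec]; exact x1 _ (y1 z hz), ?_⟩
    rw [Units.val_mul, ← mulVec_mulVec]
    have h1 := x1 _ y2
    rw [mulVec_sub] at h1
    refine ⟨fun j => ?_, fun s hs => ?_⟩
    · have e1 := h1.1 j
      have e2 := x2.1 j
      simp only [Pi.sub_apply] at e1 e2 ⊢
      linear_combination e1 + e2
    · by_contra hle
      have e1 := by_contra fun hh => hle (h1.2 s hh)
      have e2 := by_contra fun hh => hle (x2.2 s hh)
      apply hs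
      simp only [Pi.sub_apply] at e1 e2 ⊢
      linear_combination e1 + e2
  induction hw using Subgroup.closure_induction_left with
  | one => exact ⟨fun z hz => by simpa using hz, by simp [Above]⟩
  | mul_left x hx y _ ih =>
    obtain ⟨r, t, hkr, hr, rfl⟩ := hx
    exact step _ y ⟨(x_above G hrev hk hkp hr (by omega) t).1, (x_above G hrev hk hkp hr (by omega) t).2 (by omega)⟩ ih
  | inv_mul_cancel x hx y _ ih =>
    obtain ⟨r, t, hkr, hr, rfl⟩ := hx
    rw [xG_inv]
    exact step _ y ⟨(x_above G hrev hk hkp hr (by omega) (-t)).1, (x_above G hrev hk hkp hr (by omega) (-t)).2 (by omega)⟩ ih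

theorem read_coord (hrev : revOK D = true) {k : ℕ} (hk : k < D.nroots) (hkp : c.half ≤ k) (v : F) {w : GL D.Idx F}
    (hw : w ∈ V G.good F (k + 1)) (j : Fin D.rank) :
    (((xG G.good k hk v * w : GL D.Idx F) : Matrix D.Idx D.Idx F) *ᵥ rv D F (D.neg k)) (Sum.inl j) =
      v * (((D.coroot.getD k #[]).getD j.val 0 : ℤ) : F) := by
  have h1 := (x_above G hrev hk hkp hk le_rfl v).1 _ (V_above G hrev hk hkp hw).2
  rw [mulVec_sub, x_neg G.good.datum hk] at h1
  have e := h1.1 j
  rw [Units.val_mul, ← mulVec_mulVec]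
  simp [xG, rv_inl, hv] at e ⊢
  linear_combination e

theorem coroot_unit (hrev : revOK D = true) {k : ℕ} (hk : k < D.nroots) :
    ∃ j : Fin D.rank, (((D.coroot.getD k #[]).getD j.val 0 : ℤ) : F) ≠ 0 := by
  by_contra hall
  push Not at hall
  have hp := pairing_ok G.good.datum hk
  have h := G.good.prim
  simp only [primOK, List.all_eq_true, List.any_eq_true, Bool.or_eq_true, decide_eq_true_eq] at h
  have hlt : k < D.coroot.toList.length := by rw [G.good.coroot_len]; exact hk
  have ea : D.coroot.getD k #[] = D.coroot.toList[k] := by rw [array_getD, List.getD_eq_getElem _ _ hlt]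
  obtain ⟨x, hx, hx'⟩ := h _ (List.getElem_mem hlt)
  rw [← ea] at hx hx'
  have zero : ∀ y ∈ (D.coroot.getD k #[]).toList, ((y : ℤ) : F) = 0 := by
    intro y hy
    obtain ⟨i, hi, rfl⟩ := List.getElem_of_mem hy
    by_cases hir : i < D.rank
    · have := hall ⟨i, hir⟩
      rwa [array_getD, List.getD_eq_getElem _ _ hi] at this
    · have hlen := List.all_eq_true.1 hrev k (List.mem_range.2 hk)
      rw [Bool.and_eq_true, Nat.ble_eq] at hlen
      omega
  rcases hx' with hx' | ⟨y, hy, hxy⟩
  · rcases Int.natAbs_eq x with e | e <;> rw [hx'] at e <;> have := zero x hx <;> rw [e] at this <;> simp at this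
  · have e0 : ((x - y : ℤ) : F) = 0 := by rw [Int.cast_sub, zero x hx, zero y hy, sub_zero]
    rcases Int.natAbs_eq (x - y) with e | e <;> rw [hxy] at e <;> rw [e] at e0 <;> simp at e0

theorem pr_inj (hrev : revOK D = true) : ∀ m k : ℕ, k + m = D.nroots → c.half ≤ k → ∀ t t' : ℕ → F,
    pr G.good t k m = pr G.good t' k m → ∀ r, k ≤ r → r < D.nroots → t r = t' r := by
  intro m
  induction m with
  | zero => intro k hk _ t t' _ r h1 h2; omega
  | succ m ih =>
    intro k hk hkp t t' e r h1 h2
    have hlt : k < D.nroots := by omega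
    have e' : xG G.good k hlt (t k) * pr G.good t (k + 1) m = xG G.good k hlt (t' k) * pr G.good t' (k + 1) m := by
      simpa [pr, List.range'_succ, xx, hlt] using e
    obtain ⟨j, hj⟩ := coroot_unit (F := F) G hrev hlt
    have a := read_coord G hrev hlt hkp (t k) (pr_mem G (k := k + 1) (m := m) t) j
    rw [e', read_coord G hrev hlt hkp (t' k) (pr_mem G (k := k + 1) (m := m) t') j] at a
    have ek : t k = t' k := (mul_right_cancel₀ hj a).symm
    rcases eq_or_lt_of_le h1 with rfl | h
    · exact ek
    · rw [ek] at e'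
      exact ih (k + 1) (by omega) (by omega) t t' (mul_left_cancel e') r (by omega) h2

theorem U_eq_V : D.posUnipotent F = V G.good F c.half := by
  refine le_antisymm ?_ ?_
  · rw [ChevalleyDatum.posUnipotent, Subgroup.closure_le]
    rintro x ⟨r, t, hr, hx⟩
    exact Subgroup.subset_closure ⟨r, t, ((pos_iff G.good).1 hr).2, hr.1, Units.ext hx⟩
  · rw [V, Subgroup.closure_le]
    rintro x ⟨r, t, hp, hr, rfl⟩
    exact xG_mem_U G hr hp t

end Cfsg.Agent.Chev.Tits
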