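import Cfsg.Agent.Chev.Simple
import Cfsg.Agent.Chev.Order

set_option autoImplicit false
attribute [-simp] Array.getD_eq_getD_getElem?

namespace Cfsg.Agent.Chev.Tits

open Cfsg.Lie Matrix Cfsg.Agent.Chev.Comm

variable {D : ChevalleyDatum} {c : Cert} {F : Type*} [Field F]

/-- A double coset of the Borel subgroup. -/
def CC (D : ChevalleyDatum) (F : Type*) [Field F] (n : GL D.Idx F) : Set (GL D.Idx F) :=
  {x | ∃ a ∈ D.borelSubgroup F, ∃ b ∈ D.borelSubgroup F, x = a * n * b}

/-- Each letter of the word raises the length. -/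
def GoodW (D : ChevalleyDatum) (c : Cert) : List ℕ → Prop
  | [] => True
  | i :: t => i < D.rank ∧ c.half ≤ wim c t.reverse (D.simple i) ∧ GoodW D c t

/-- Two words agree modulo the torus. -/
def Eqv (g : Good D c) (F : Type*) [Field F] (L L' : List ℕ) : Prop :=
  (wp g F L')⁻¹ * wp g F L ∈ D.diagonalSubgroup F

variable (G : TGood D c)
include G

theorem wim_append (A B : List ℕ) (s : ℕ) : wim c (A ++ B) s = wim c A (wim c B s) := by
  simp [wim, List.foldr_append]

theorem wp_append (A B : List ℕ) : wp G.good F (A ++ B) = wp G.good F A * wp G.good F B := by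
  simp [wp, List.map_append, List.prod_append]

theorem wim_inv : ∀ L : List ℕ, (∀ i ∈ L, i < D.rank) → ∀ s < D.nroots,
    wim c L.reverse (wim c L s) = s ∧ wim c L (wim c L.reverse s) = s := by
  intro L
  induction L with
  | nil => intro _ s _; exact ⟨rfl, rfl⟩
  | cons i L ih =>
    intro hL s hs
    have hi := hL i (by simp)
    have hL' : ∀ j ∈ L, j < D.rank := fun j hj => hL j (List.mem_cons_of_mem _ hj)
    have hR : ∀ j ∈ L.reverse, j < D.rank := fun j hj => hL' j (List.mem_reverse.1 hj)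
    constructor
    · rw [List.reverse_cons, wim_append G]
      show wim c L.reverse (c.im i (c.im i (wim c L s))) = s
      rw [(G.good.refl hi (wim_lt G L hL' s hs)).invol]
      exact (ih hL' s hs).1
    · rw [List.reverse_cons, wim_append G]
      show c.im i (wim c L (wim c L.reverse (c.im i s))) = s
      rw [(ih hL' _ (G.good.refl hi hs).lt).2, (G.good.refl hi hs).invol]

theorem xG_index (hrev : revOK D = true) {r r' : ℕ} (hr : r < D.nroots) (hr' : r' < D.nroots) {a b : F} (ha : a ≠ 0)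
    (h : xG G.good r hr a = xG G.good r' hr' b) : r = r' := by
  by_contra hne
  obtain ⟨j, hj⟩ := coroot_unit (F := F) G hrev hr
  have hn := G.good.neg_lt hr
  have h1 := congrArg (fun M : GL D.Idx F => ((M : Matrix D.Idx D.Idx F) *ᵥ rv D F (D.neg r)) (Sum.inl j)) h
  simp only [xG] at h1
  rw [x_neg G.good.datum hr] at h1
  have h2 : D.neg r ≠ D.neg r' := fun e => hne (by rw [← G.good.neg_neg hr, e, G.good.neg_neg hr'])
  by_cases e : D.neg r = r'
  · rw [← e, x_self G.good.datum hn] at h1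
    simp [rv_inl, hv] at h1
    exact hj (by rcases h1 with h1 | h1 <;> first | exact absurd h1 ha | exact h1)
  · rw [x_other G.good.datum hr' _ hn e h2] at h1
    simp [rv_inl, hv, (cv_apply _ _ _).1] at h1
    exact hj (by rcases h1 with h1 | h1 <;> first | exact absurd h1 ha | exact h1)

theorem eqv_wim (hrev : revOK D = true) {L L' : List ℕ} (hL : ∀ i ∈ L, i < D.rank) (hL' : ∀ i ∈ L', i < D.rank)
    (h : Eqv G.good F L L') {s : ℕ} (hs : s < D.nroots) :
    wim c L s = wim c L' s ∧ wim c L.reverse s = wim c L'.reverse s := by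
  have main : ∀ v < D.nroots, wim c L v = wim c L' v := by
    intro v hv'
    obtain ⟨ε, hε, h1, -⟩ := wact (F := F) G L hL v hv'
    obtain ⟨ε', hε', h2, -⟩ := wact (F := F) G L' hL' v hv'
    obtain ⟨χ, -, hc⟩ := H_char G.good h
    obtain ⟨hne, hcv⟩ := hc v hv'
    have e : wp G.good F L * xG G.good v hv' (1 : F) * (wp G.good F L)⁻¹ = wp G.good F L' *
        (((wp G.good F L')⁻¹ * wp G.good F L) * xG G.good v hv' 1 * ((wp G.good F L')⁻¹ * wp G.good F L)⁻¹) * (wp G.good F L')⁻¹ := by
      group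
    rw [h1, hcv, h2] at e
    exact xG_index G hrev _ _ (by simpa using left_ne_zero_of_mul_eq_one hε) e
  refine ⟨main s hs, ?_⟩
  have hr := wim_lt G L'.reverse (fun j hj => hL' j (List.mem_reverse.1 hj)) s hs
  conv_lhs => rw [← (wim_inv G L' hL' s hs).2, ← main _ hr]
  exact (wim_inv G L hL _ hr).1

theorem wp_rev : ∀ L : List ℕ, (∀ i ∈ L, i < D.rank) →
    wp G.good F L.reverse * wp G.good F L ∈ D.diagonalSubgroup F := by
  intro L
  induction L with
  | nil => intro _; simp [wp]
  | cons i L ih =>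
    intro hL
    have hi := hL i (by simp)
    have hL' : ∀ j ∈ L, j < D.rank := fun j hj => hL j (List.mem_cons_of_mem _ hj)
    have h := mul_mem (ih hL') (norm_H' G (wp_mem_N (F := F) G L hL') (nn_sq G hi))
    convert h using 1
    simp only [wp, List.reverse_cons, List.map_append, List.prod_append, List.map_cons, List.prod_cons, List.map_nil,
      List.prod_nil, mul_one]
    group

theorem cor_lin (hsimp : ∀ m < D.rank, ∀ j < D.rank, (D.coroot.getD (D.simple m) #[]).getD j 0 = if m = j then 1 else 0) :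
    ∀ L : List ℕ, (∀ i ∈ L, i < D.rank) → ∀ s < D.nroots, ∀ j < D.rank,
      (D.coroot.getD (wim c L s) #[]).getD j 0 = ∑ m ∈ Finset.range D.rank,
        (D.coroot.getD s #[]).getD m 0 * (D.coroot.getD (wim c L (D.simple m)) #[]).getD j 0 := by
  intro L
  induction L with
  | nil =>
    intro _ s hs j hj
    simp only [wim, List.foldr_nil]
    rw [Finset.sum_eq_single j (fun m hm hne => by rw [hsimp m (Finset.mem_range.1 hm) j hj, if_neg hne, mul_zero])
      (fun h => absurd (Finset.mem_range.2 hj) h), hsimp j hj j hj, if_pos rfl, mul_one]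
  | cons i L ih =>
    intro hL s hs j hj
    have hi := hL i (by simp)
    have hL' : ∀ a ∈ L, a < D.rank := fun a ha => hL a (List.mem_cons_of_mem _ ha)
    have e : ∀ v, v < D.nroots → (D.coroot.getD (wim c (i :: L) v) #[]).getD j 0 = (D.coroot.getD (wim c L v) #[]).getD j 0 -
        if j = i then ∑ n ∈ Finset.range D.rank, (D.coroot.getD (wim c L v) #[]).getD n 0 * D.cartan n (D.simple i) else 0 := by
      intro v hv'
      exact (G.good.refl hi (wim_lt G L hL' v hv')).coroot_im j hj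
    have e' : ∀ m ∈ Finset.range D.rank, (D.coroot.getD s #[]).getD m 0 * (D.coroot.getD (wim c (i :: L) (D.simple m)) #[]).getD j 0 =
        (D.coroot.getD s #[]).getD m 0 * ((D.coroot.getD (wim c L (D.simple m)) #[]).getD j 0 -
          if j = i then ∑ n ∈ Finset.range D.rank, (D.coroot.getD (wim c L (D.simple m)) #[]).getD n 0 * D.cartan n (D.simple i) else 0) :=
      fun m hm => by rw [e _ (G.good.simple (Finset.mem_range.1 hm)).lt]
    rw [Finset.sum_congr rfl e', e s hs, ih hL' s hs j hj]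
    simp only [mul_sub, Finset.sum_sub_distrib]
    congr 1
    by_cases hji : j = i
    · simp only [if_pos hji]
      rw [Finset.sum_congr rfl fun n hn => by rw [ih hL' s hs n (Finset.mem_range.1 hn), Finset.sum_mul], Finset.sum_comm]
      refine Finset.sum_congr rfl fun m _ => ?_
      rw [Finset.mul_sum]
      exact Finset.sum_congr rfl fun n _ => by ring
    · simp [hji]

theorem eqv_of_simple (hrev : revOK D = true)
    (hsimp : ∀ m < D.rank, ∀ j < D.rank, (D.coroot.getD (D.simple m) #[]).getD j 0 = if m = j then 1 else 0)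
    {L L' : List ℕ} (hL : ∀ i ∈ L, i < D.rank) (hL' : ∀ i ∈ L', i < D.rank)
    (h : ∀ m < D.rank, wim c L (D.simple m) = wim c L' (D.simple m)) : Eqv G.good F L L' := by
  have hR : ∀ i ∈ L'.reverse ++ L, i < D.rank := by
    intro i hi
    rcases List.mem_append.1 hi with hi | hi
    exacts [hL' i (List.mem_reverse.1 hi), hL i hi]
  have hpres : Pres G.good F (wp G.good F (L'.reverse ++ L)) := by
    intro s hs hp
    obtain ⟨ε, hε, h1, -⟩ := wact (F := F) G _ hR s hs
    rw [h1]
    refine xG_mem_B G _ ?_ _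
    have hlt := wim_lt G _ hR s hs
    have hcor : ∀ j < D.rank, (D.coroot.getD (wim c (L'.reverse ++ L) s) #[]).getD j 0 = (D.coroot.getD s #[]).getD j 0 := by
      intro j hj
      rw [cor_lin G hsimp _ hR s hs j hj, Finset.sum_eq_single j ?_ (fun h => absurd (Finset.mem_range.2 hj) h)]
      · rw [wim_append G, h j hj, (wim_inv G L' hL' _ (G.good.simple hj).lt).1, hsimp j hj j hj, if_pos rfl, mul_one]
      · intro m hm hne
        rw [wim_append G, h m (Finset.mem_range.1 hm), (wim_inv G L' hL' _ (G.good.simple (Finset.mem_range.1 hm)).lt).1,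
          hsimp m (Finset.mem_range.1 hm) j hj, if_neg hne, mul_zero]
    have hpos : D.IsPosRoot (wim c (L'.reverse ++ L) s) := by
      refine ⟨hlt, fun x hx => ?_⟩
      obtain ⟨j, hj, rfl⟩ := List.getElem_of_mem hx
      have hlen := List.all_eq_true.1 hrev _ (List.mem_range.2 hlt)
      rw [Bool.and_eq_true, Nat.ble_eq] at hlen
      have e := hcor j (by omega)
      rw [array_getD, List.getD_eq_getElem _ _ hj] at e
      rw [e, array_getD]
      by_cases hj' : j < (D.coroot.getD s #[]).toList.length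
      · rw [List.getD_eq_getElem _ _ hj']
        exact ((pos_iff G.good).2 ⟨hs, hp⟩).2 _ (List.getElem_mem hj')
      · rw [List.getD_eq_default _ _ (not_lt.1 hj')]
    exact ((pos_iff G.good).1 hpos).2
  have h2 := pres_word G _ _ rfl hR hpres
  rw [wp_append G] at h2
  have h3 := mul_mem (norm_H G (inv_mem (wp_mem_N (F := F) G L' hL'))
    (mul_mem (inv_mem (wp_rev (F := F) G L' hL')) (one_mem _))) (one_mem (D.diagonalSubgroup F))
  show (wp G.good F L')⁻¹ * wp G.good F L ∈ D.diagonalSubgroup F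
  have h4 := mul_mem (inv_mem (wp_rev (F := F) G L' hL')) (one_mem (D.diagonalSubgroup F))
  rw [mul_one] at h4
  have := mul_mem h4 h2
  rwa [show (wp G.good F L'.reverse * wp G.good F L')⁻¹ * (wp G.good F L'.reverse * wp G.good F L) =
    (wp G.good F L')⁻¹ * wp G.good F L by group] at this

theorem CC_eqv {L L' : List ℕ} (h : Eqv G.good F L L') : CC D F (wp G.good F L) = CC D F (wp G.good F L') := by
  ext x
  constructor
  · rintro ⟨a, ha, b, hb, rfl⟩
    exact ⟨a, ha, _, mul_mem (H_mem_B G h) hb, by group⟩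
  · rintro ⟨a, ha, b, hb, rfl⟩
    exact ⟨a, ha, _, mul_mem (inv_mem (H_mem_B G h)) hb, by group⟩

theorem CC_left {n a x : GL D.Idx F} (ha : a ∈ D.borelSubgroup F) (hx : x ∈ CC D F n) : a * x ∈ CC D F n := by
  obtain ⟨p, hp, q, hq, rfl⟩ := hx
  exact ⟨a * p, mul_mem ha hp, q, hq, by group⟩

theorem CC_inj (h1 : D.borelSubgroup F ≤ D.group F) (h2 : D.monomialSubgroup F ≤ D.group F)
    (h3 : D.borelSubgroup F ⊔ D.monomialSubgroup F = D.group F) {n n' x : GL D.Idx F} (hn : n ∈ D.monomialSubgroup F)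
    (hn' : n' ∈ D.monomialSubgroup F) (hx : x ∈ CC D F n) (hx' : x ∈ CC D F n') :
    n'⁻¹ * n ∈ D.diagonalSubgroup F := by
  obtain ⟨P, hB, hN, -⟩ := exists_pair G h1 h2 h3
  obtain ⟨a, ha, b, hb, rfl⟩ := hx
  obtain ⟨a', ha', b', hb', e⟩ := hx'
  have mN : (⟨n, h2 hn⟩ : ↥(D.group F)) ∈ P.N := by rw [hN]; exact hn
  have mN' : (⟨n', h2 hn'⟩ : ↥(D.group F)) ∈ P.N := by rw [hN]; exact hn'
  have : (⟨n, h2 hn⟩ : ↥(D.group F)) ∈ Cfsg.Agent.BN.cell P ⟨n', h2 hn'⟩ := by
    rw [Cfsg.Agent.BN.mem_cell]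
    refine ⟨⟨a⁻¹ * a', mul_mem (inv_mem (h1 ha)) (h1 ha')⟩, by rw [hB]; exact (D.borelSubgroup F).mul_mem ((D.borelSubgroup F).inv_mem ha) ha',
      ⟨b' * b⁻¹, mul_mem (h1 hb') (inv_mem (h1 hb))⟩, by rw [hB]; exact (D.borelSubgroup F).mul_mem hb' ((D.borelSubgroup F).inv_mem hb), Subtype.ext ?_⟩
    show n = a⁻¹ * a' * n' * (b' * b⁻¹)
    calc n = a⁻¹ * (a * n * b) * b⁻¹ := by group
      _ = _ := by rw [e]; group
  have h := (Cfsg.Agent.BN.cell_inj P mN' mN).1 (Cfsg.Agent.BN.cell_eq P this).symm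
  rw [hB] at h
  rw [← N_inf_B G]
  exact ⟨h, (D.monomialSubgroup F).mul_mem ((D.monomialSubgroup F).inv_mem hn') hn⟩

theorem CC_step [Finite F] (h1 : D.borelSubgroup F ≤ D.group F) (h2 : D.monomialSubgroup F ≤ D.group F)
    (h3 : D.borelSubgroup F ⊔ D.monomialSubgroup F = D.group F) {i : ℕ} (hi : i < D.rank) {L : List ℕ}
    (hL : ∀ j ∈ L, j < D.rank) (hpos : c.half ≤ wim c L.reverse (D.simple i)) :
    Nat.card ↥(CC D F (wp G.good F (i :: L))) = Nat.card F * Nat.card ↥(CC D F (wp G.good F L)) := by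
  set s := nn G.good F i with hs
  set w := wp G.good F L with hw
  have hwN : w ∈ D.monomialSubgroup F := wp_mem_N G L hL
  have hp := (G.good.simple hi).lt
  have e0 : wp G.good F (i :: L) = s * w := by simp [wp, hs, hw]
  have hR : ∀ j ∈ L.reverse, j < D.rank := fun j hj => hL j (List.mem_reverse.1 hj)
  have hβ := wim_lt G L.reverse hR _ hp
  obtain ⟨ε, hε, w1, -⟩ := wact (F := F) G L hL _ hβ
  have hwp : ∀ t : F, w⁻¹ * xG G.good (D.simple i) hp t * w = xG G.good _ hβ (ε * t) := by
    intro t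
    have := w1 (ε * t)
    rw [← mul_assoc ε, hε, one_mul, xG_congr G.good (wim_inv G L hL _ hp).2 _ hp] at this
    rw [← this, hw]; group
  -- the forward inclusion
  have fwd : ∀ (t : F) (y : GL D.Idx F), y ∈ CC D F w → xG G.good (D.simple i) hp t * s * y ∈ CC D F (s * w) := by
    rintro t y ⟨a, ha, b, hb, rfl⟩
    obtain ⟨u, hu, v, h, hh, rfl⟩ := B_form G hi ha
    refine ⟨xG G.good (D.simple i) hp t * (s * u * s⁻¹), mul_mem (xG_mem_B G hp (G.good.simple hi).pos t) (Ui_mem_B G (Ui_nn G hi u hu)),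
      (xG G.good _ hβ (ε * v) * (w⁻¹ * h * w)) * b, mul_mem (mul_mem (xG_mem_B G hβ hpos _) (H_mem_B G (norm_H' G hwN hh))) hb, ?_⟩
    rw [← hwp]; group
  let f : F × ↥(CC D F w) → ↥(CC D F (s * w)) := fun z =>
    ⟨xG G.good (D.simple i) hp z.1 * s * z.2.1, fwd z.1 z.2.1 z.2.2⟩
  have surj : Function.Surjective f := by
    rintro ⟨x, a, ha, b, hb, rfl⟩
    obtain ⟨u, hu, v, h, hh, e⟩ := B_form G hi ((D.borelSubgroup F).inv_mem ha)
    obtain ⟨χ, -, hc⟩ := H_char G.good (inv_mem hh)
    obtain ⟨k, hk, ek⟩ := nn_inv (F := F) G hi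
    have hu' : s⁻¹ * u⁻¹ * s ∈ D.borelSubgroup F := by
      have := Ui_mem_B G (Ui_nn G hi _ (inv_mem hu))
      have h' := mul_mem (mul_mem (H_mem_B G hk) this) (inv_mem (H_mem_B G hk))
      have e2 : s⁻¹ * u⁻¹ * s = k * (s * u⁻¹ * s⁻¹) * k⁻¹ := by
        calc s⁻¹ * u⁻¹ * s = (k * s) * u⁻¹ * (k * s)⁻¹ := by rw [← ek, inv_inv]
          _ = _ := by group
      rw [e2]; exact h'
    have hy : (s⁻¹ * h⁻¹ * s) * (s⁻¹ * u⁻¹ * s) * w * b ∈ CC D F w :=
      ⟨_, mul_mem (H_mem_B G (norm_H' G (nn_mem_N (F := F) G hi) (inv_mem hh))) hu', b, hb, rfl⟩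
    refine ⟨(χ (D.simple i) * -v, ⟨_, hy⟩), Subtype.ext ?_⟩
    show xG G.good (D.simple i) hp (χ (D.simple i) * -v) * s * _ = _
    rw [← (hc _ hp).2, ← xG_inv]
    have ea : a = (u * xG G.good (D.simple i) hp v * h)⁻¹ := by rw [← e, inv_inv]
    subst ea
    group
  have inj : Function.Injective f := by
    rintro ⟨t, y, hy⟩ ⟨t', y', hy'⟩ h
    have h := congrArg Subtype.val h
    simp only [f] at h
    by_cases ht : t = t'
    · subst ht
      simp only [Prod.mk.injEq, Subtype.mk.injEq, true_and]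
      exact mul_left_cancel h
    exfalso
    have e1 : y' = (s⁻¹ * xG G.good (D.simple i) hp (-t' + t) * s) * y := by
      rw [← xG_mul, ← xG_inv]
      calc y' = s⁻¹ * (xG G.good (D.simple i) hp t')⁻¹ * (xG G.good (D.simple i) hp t' * s * y') := by group
        _ = _ := by rw [← h]; group
    obtain ⟨k, hk, ek⟩ := nn_inv (F := F) G hi
    obtain ⟨χ, -, hc⟩ := H_char G.good hk
    have e2 : s⁻¹ * xG G.good (D.simple i) hp (-t' + t) * s = k * (s * xG G.good (D.simple i) hp (-t' + t) * s⁻¹) * k⁻¹ := by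
      calc s⁻¹ * xG G.good (D.simple i) hp (-t' + t) * s = (k * s) * xG G.good (D.simple i) hp (-t' + t) * (k * s)⁻¹ := by
            rw [← ek, inv_inv]
        _ = _ := by group
    rw [e2, nn_conj G hi hp, xG_congr G.good (G.good.simple hi).im_self _ (G.good.neg_lt hp), (hc _ (G.good.neg_lt hp)).2] at e1
    have hδ : χ (D.neg (D.simple i)) * ((c.sgn i (D.simple i) : F) * (-t' + t)) ≠ 0 := by
      refine mul_ne_zero (hc _ (G.good.neg_lt hp)).1 (mul_ne_zero (by simp [(G.good.simple hi).sgn_self]) ?_)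
      intro h0; exact ht (by linear_combination h0)
    obtain ⟨a, ha, ea⟩ := negp_form G hi hδ
    have hmem : y' ∈ CC D F (s * w) := by
      rw [e1, ea, mul_assoc a, mul_assoc a]
      obtain ⟨p, hpB, q, hqB, rfl⟩ := hy
      obtain ⟨u, hu, v, h', hh', e⟩ := B_form G hi (mul_mem (xG_mem_B G hp (G.good.simple hi).pos
        (χ (D.neg (D.simple i)) * ((c.sgn i (D.simple i) : F) * (-t' + t)))⁻¹) hpB)
      have := fwd 0 (xG G.good (D.simple i) hp (χ (D.neg (D.simple i)) * ((c.sgn i (D.simple i) : F) * (-t' + t)))⁻¹ * (p * w * q))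
        (CC_left G (xG_mem_B G hp (G.good.simple hi).pos _) ⟨p, hpB, q, hqB, rfl⟩)
      rw [show xG G.good (D.simple i) hp (0 : F) = 1 from Units.ext (x_zero G.good.datum hp), one_mul] at this
      have := CC_left G ha this
      simpa only [mul_assoc] using this
    have hh := CC_inj G h1 h2 h3 hwN (mul_mem (nn_mem_N (F := F) G hi) hwN) hy' hmem
    have hsH : s ∈ D.diagonalSubgroup F := by
      have := inv_mem (norm_H G hwN hh)
      rwa [show (w * ((s * w)⁻¹ * w) * w⁻¹)⁻¹ = s by group] at this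
    have := mul_mem (mul_mem (H_mem_B G hsH) (xG_mem_B G hp (G.good.simple hi).pos (1 : F))) (inv_mem (H_mem_B G hsH))
    rw [nn_conj G hi hp, xG_congr G.good (G.good.simple hi).im_self _ (G.good.neg_lt hp)] at this
    refine neg_not_mem_B G _ ?_ (by simp [(G.good.simple hi).sgn_self]) this
    have h1' := neg_side G (G.good.neg_lt hp)
    rw [G.good.neg_neg hp] at h1'
    exact h1'.2 (G.good.simple hi).pos
  rw [e0, ← Nat.card_eq_of_bijective f ⟨inj, surj⟩, Nat.card_prod]

theorem CC_card [Finite F] (h1 : D.borelSubgroup F ≤ D.group F) (h2 : D.monomialSubgroup F ≤ D.group F)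
    (h3 : D.borelSubgroup F ⊔ D.monomialSubgroup F = D.group F) : ∀ L : List ℕ, GoodW D c L →
      Nat.card ↥(CC D F (wp G.good F L)) = Nat.card F ^ L.length * Nat.card (D.borelSubgroup F) := by
  have lt : ∀ L : List ℕ, GoodW D c L → ∀ j ∈ L, j < D.rank := by
    intro L
    induction L with
    | nil => intro _ j hj; simp at hj
    | cons i L ih =>
      intro hL j hj
      rcases List.mem_cons.1 hj with rfl | hj
      exacts [hL.1, ih hL.2.2 j hj]
  intro L
  induction L with
  | nil =>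
    intro _
    have : CC D F (wp G.good F []) = (D.borelSubgroup F : Set (GL D.Idx F)) := by
      ext x
      constructor
      · rintro ⟨a, ha, b, hb, rfl⟩; simpa [wp] using mul_mem ha hb
      · intro hx; exact ⟨x, hx, 1, one_mem _, by simp [wp]⟩
    rw [this]; simp
  | cons i L ih =>
    intro hL
    rw [CC_step G h1 h2 h3 hL.1 (lt L hL.2.2) hL.2.1, ih hL.2.2, List.length_cons, pow_succ]
    ring

end Cfsg.Agent.Chev.Tits
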