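import Cfsg.Prelude.Def_ChevStructure
import Cfsg.Prelude.Def_ChevG2
import Cfsg.Prelude.Def_ChevB2
import Cfsg.Prelude.Def_ChevD4
import Cfsg.Prelude.Def_ChevF4
import Cfsg.Prelude.Def_ChevE6
import Cfsg.Prelude.Def_ChevE7
import Cfsg.Prelude.Def_ChevE8

set_option autoImplicit false

namespace Cfsg.Agent.Chev

open Cfsg.Lie

/-- The chain through `s` in a given row of the table. -/
def look (row : List (ℕ × Array (ℕ × ℤ))) (s : ℕ) : List (ℕ × ℤ) :=
  match row.find? (fun e => e.1 = s) with
  | none => []
  | some e => e.2.toList

/-- Keys are strictly increasing. -/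
def incr : List ℕ → Bool
  | [] => true
  | [_] => true
  | a :: b :: l => Nat.blt a b && incr (b :: l)

/-- The two lists, assumed increasing, have no common member (`n` is fuel). -/
def disj : ℕ → List ℕ → List ℕ → Bool
  | _, [], _ => true
  | _, _, [] => true
  | 0, _, _ => false
  | n + 1, a :: as, b :: bs =>
    bif Nat.blt a b then disj n as (b :: bs) else bif Nat.blt b a then disj n (a :: as) bs else false

/-- The targets of the chains of length one in a row. -/
def singles : List (ℕ × Array (ℕ × ℤ)) → List ℕ
  | [] => []
  | e :: l => match e.2.toList with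
    | [(a, _)] => a :: singles l
    | _ => singles l

/-- The pairing of a vector with the heads of some rows. -/
def dot : List ℤ → List (List ℤ) → ℤ
  | c :: cs, r :: rs => c * r.headD 0 + dot cs rs
  | _, _ => 0

/-- Every coroot pairs to two with its root. -/
def pairAll (n : ℕ) : List (Array ℤ) → List (List ℤ) → Bool
  | [], _ => true
  | c :: cs, rows => decide (dot c.toList rows = 2) && Nat.beq c.toList.length n &&
      pairAll n cs (rows.map List.tail)

/-- The exponential law along one chain. -/
def strOK (row : List (ℕ × Array (ℕ × ℤ))) : List (ℕ × ℤ) → Bool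
  | [] => true
  | [(_, _)] => true
  | [(a, A), (b, B)] =>
    (match look row a with
      | [(b', B')] => Nat.beq b' b && decide (A * B' = 2 * B)
      | _ => false) && decide (look row b = [])
  | [(a, A), (b, B), (c, C)] =>
    (match look row a with
      | [(b', B'), (c', C')] => Nat.beq b' b && Nat.beq c' c && decide (A * B' = 2 * B) && decide (A * C' = 3 * C)
      | _ => false) &&
    (match look row b with
      | [(c', C')] => Nat.beq c' c && decide (B * C' = 3 * C)
      | _ => false) && decide (look row c = [])
  | _ => false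

/-- The checks on the row of one root `r`, with `n` roots, of which the first `p` are negative. -/
def rowOK (D : ChevalleyDatum) (p : ℕ) (r : ℕ) : Bool :=
  let row := (D.chain.getD r #[]).toList
  let nr := D.negIdx.getD r 0
  Nat.blt nr D.nroots && Nat.blt r D.nroots && !(Nat.beq nr r) &&
  incr (row.map Prod.fst) && incr (singles row) &&
  disj (2 * D.nroots) (singles row) (row.map Prod.fst) &&
  (bif Nat.blt r p then !(Nat.blt nr p) else Nat.blt nr p) &&
  decide (if r < p then D.IsNegRoot r else D.IsPosRoot r) &&
  row.all fun e =>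
    let L := e.2.toList
    strOK row L && L.all fun q =>
      Nat.blt q.1 D.nroots && !(Nat.beq q.1 r) && !(Nat.beq q.1 nr) &&
      (bif Nat.blt r p then Nat.blt q.1 e.1 else Nat.blt e.1 q.1)

/-- The checks on a datum. -/
def datumOK (D : ChevalleyDatum) (p : ℕ) : Bool :=
  Nat.blt 0 D.nroots && Nat.beq D.nroots (2 * p) && Nat.beq D.coroot.toList.length D.nroots &&
  Nat.beq D.cartanSR.toList.length D.rank &&
  pairAll D.rank D.coroot.toList (D.cartanSR.toList.map Array.toList) &&
  (List.range D.nroots).all fun r => rowOK D p r

set_option maxRecDepth 100000 in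
theorem ok_G2 : datumOK chevG2 6 = true := by decide +kernel
set_option maxRecDepth 100000 in
theorem ok_B2 : datumOK chevB2 4 = true := by decide +kernel
set_option maxRecDepth 100000 in
theorem ok_D4 : datumOK chevD4 12 = true := by decide +kernel
set_option maxRecDepth 100000 in
theorem ok_F4 : datumOK chevF4 24 = true := by decide +kernel
set_option maxRecDepth 100000 in
theorem ok_E6 : datumOK chevE6 36 = true := by decide +kernel
set_option maxRecDepth 100000 in
theorem ok_E7 : datumOK chevE7 63 = true := by decide +kernel
set_option maxRecDepth 100000 in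
theorem ok_E8 : datumOK chevE8 120 = true := by decide +kernel

theorem ok {D : ChevalleyDatum}
    (hD : D ∈ [chevG2, chevB2, chevD4, chevF4, chevE6, chevE7, chevE8]) : ∃ p, datumOK D p = true := by
  simp only [List.mem_cons, List.not_mem_nil, or_false] at hD
  rcases hD with rfl | rfl | rfl | rfl | rfl | rfl | rfl
  · exact ⟨_, ok_G2⟩
  · exact ⟨_, ok_B2⟩
  · exact ⟨_, ok_D4⟩
  · exact ⟨_, ok_F4⟩
  · exact ⟨_, ok_E6⟩
  · exact ⟨_, ok_E7⟩
  · exact ⟨_, ok_E8⟩

end Cfsg.Agent.Chev
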