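import Cfsg.Agent.Chev.Check

set_option autoImplicit false

namespace Cfsg.Agent.Chev

open Cfsg.Lie

/-- Certificate for the fundamental reflections of a datum: the number of negative roots, the packed signed
permutations of the roots, and a word for the longest element. -/
structure Cert where
  half : ℕ
  perms : List ℕ
  longest : List ℕ

/-- Digit `k` of a packed list. -/
def dig (w N k : ℕ) : ℕ := (N >>> (w * k)) % 2 ^ w

/-- The image of a root under a fundamental reflection. -/
def Cert.im (c : Cert) (i s : ℕ) : ℕ := dig 10 (c.perms.getD i 0) s / 2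

/-- The sign attached to a root by a fundamental reflection. -/
def Cert.sgn (c : Cert) (i s : ℕ) : ℤ := if dig 10 (c.perms.getD i 0) s % 2 = 0 then 1 else -1

/-- Packing integers of absolute value below `128`. -/
def packI : List ℤ → ℕ
  | [] => 0
  | z :: l => (z + 128).toNat + (packI l <<< 8)

/-- Reading a packed integer. -/
def getI (N k : ℕ) : ℤ := (dig 8 N k : ℤ) - 128

/-- The bound needed for packing. -/
def smallI : List ℤ → Bool
  | [] => true
  | z :: l => decide (-128 ≤ z) && decide (z < 128) && smallI l

/-- Code of a chain. -/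
def encC : List (ℕ × ℤ) → ℕ
  | [] => 0
  | (u, M) :: l => 1 + 2 * ((M + 8).toNat + 16 * (u + 256 * encC l))

/-- Decoding a chain. -/
def decC : ℕ → ℕ → List (ℕ × ℤ)
  | 0, _ => []
  | f + 1, N => bif Nat.beq N 0 then [] else
      ((N / 32) % 256, ((N / 2 % 16 : ℕ) : ℤ) - 8) :: decC f (N / 8192)

/-- Equality of chains. -/
def eqC : List (ℕ × ℤ) → List (ℕ × ℤ) → Bool
  | [], [] => true
  | (u, M) :: l, (v, M') :: l' => Nat.beq u v && decide (M = M') && eqC l l'
  | _, _ => false

/-- Packing a row of the chain table. -/
def packR : ℕ → List (ℕ × Array (ℕ × ℤ)) → ℕ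
  | _, [] => 0
  | pos, e :: l => (encC e.2.toList + (packR (e.1 + 1) l <<< 40)) <<< (40 * (e.1 - pos))

/-- The hypotheses of packing a row. -/
def goodR : ℕ → List (ℕ × Array (ℕ × ℤ)) → Bool
  | _, [] => true
  | pos, e :: l => Nat.ble pos e.1 && Nat.blt (encC e.2.toList) (2 ^ 40) &&
      eqC (decC 3 (encC e.2.toList)) e.2.toList && goodR (e.1 + 1) l

/-- The chain through `s` read off a packed row. -/
def chainP (N s : ℕ) : List (ℕ × ℤ) := decC 3 (dig 40 N s)

/-- A monomial vector term: coordinate, exponent, coefficient. -/
abbrev Term := ℕ × ℤ × ℤ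

/-- Terms of a chain, multiplied by `coef`, for the parameter `a c^k`. -/
def chainTerms (coef a e k : ℤ) : ℕ → List (ℕ × ℤ) → List Term
  | _, [] => []
  | j, (u, M) :: l => (u, e + ((j : ℤ) + 1) * k, M * a ^ (j + 1) * coef) :: chainTerms coef a e k (j + 1) l

/-- The action of `x_r(a c^k)` on one term. -/
def applyT (D : ChevalleyDatum) (r : ℕ) (a k : ℤ) : Term → List Term
  | (b, e, coef) =>
    bif Nat.ble D.nroots b then [(b, e, coef), (r, e + k, -(D.cartan (b - D.nroots) r * a * coef))]
    else bif Nat.beq b r then [(b, e, coef)]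
    else bif Nat.beq b (D.neg r) then
      (b, e, coef) :: (r, e + 2 * k, -(a * a * coef)) ::
        (List.range D.rank).map fun j => (D.nroots + j, e + k, (D.coroot.getD r #[]).getD j 0 * a * coef)
    else (b, e, coef) :: chainTerms coef a e k 0 (D.chainEntry r b)

/-- The action of a word on one basis vector. -/
def runW (D : ChevalleyDatum) (w : List (ℕ × ℤ × ℤ)) (b : ℕ) : List Term :=
  w.foldr (fun x L => L.flatMap (applyT D x.1 x.2.1 x.2.2)) [(b, 0, 1)]

/-- Whether two terms have the same monomial. -/
def sameKey (x y : Term) : Bool := Nat.beq x.1 y.1 && decide (x.2.1 = y.2.1)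

/-- A list of terms cancels (`n` is fuel). -/
def isZero : ℕ → List Term → Bool
  | _, [] => true
  | 0, _ => false
  | n + 1, x :: l => decide (x.2.2 + ((l.filter (sameKey x)).map fun y => y.2.2).sum = 0) &&
      isZero n (l.filter fun y => !(sameKey x y))

/-- Two lists of terms represent the same vector. -/
def sameVec (L L' : List Term) : Bool :=
  let M := L ++ L'.map fun x => (x.1, x.2.1, -x.2.2)
  isZero M.length M

/-- The word of `n_p(c)`. -/
def nW (D : ChevalleyDatum) (p : ℕ) : List (ℕ × ℤ × ℤ) := [(p, 1, 1), (D.neg p, -1, -1), (p, 1, 1)]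

/-- The checks on the words attached to the `i`-th fundamental root. -/
def simpleOK (D : ChevalleyDatum) (c : Cert) (i : ℕ) : Bool :=
  let p := D.simple i
  decide (c.sgn i p = -1) && Nat.beq (c.im i p) (D.neg p) && Nat.blt p D.nroots && Nat.ble c.half p &&
  (List.range D.nroots).all (fun s =>
    let ws := c.im i s
    sameVec (runW D (nW D p) s) [(ws, D.cartan i ws, c.sgn i s)]) &&
  (List.range D.rank).all fun j =>
    sameVec (runW D (nW D p) (D.nroots + j))
      [(D.nroots + j, 0, 1), (D.nroots + i, 0, -(D.cartan j p))]

/-- The mapped chain: images under the `i`-th reflection. -/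
def mapC (c : Cert) (i : ℕ) (ev es : ℤ) : ℕ → List (ℕ × ℤ) → List (ℕ × ℤ)
  | _, [] => []
  | k, (u, M) :: l => (c.im i u, M * c.sgn i u * ev * es ^ (k + 1)) :: mapC c i ev es (k + 1) l

/-- Cartan numbers are additive along a chain. -/
def addC (A : ℕ) (as av : ℤ) : ℕ → List (ℕ × ℤ) → Bool
  | _, [] => true
  | k, (u, _) :: l => decide (getI A u = av + ((k : ℤ) + 1) * as) && addC A as av (k + 1) l

/-- The packed Cartan rows. -/
def cartanP (D : ChevalleyDatum) : List ℕ := D.cartanSR.toList.map fun row => packI row.toList

/-- The packed chain table. -/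
def chainsP (D : ChevalleyDatum) : List ℕ := D.chain.toList.map fun row => packR 0 row.toList

/-- The packed coroot columns. -/
def corootP (D : ChevalleyDatum) : List ℕ :=
  (List.range D.rank).map fun j => packI (D.coroot.toList.map fun a => a.getD j 0)

/-- The bounds for packing. -/
def packOK (D : ChevalleyDatum) : Bool :=
  D.cartanSR.toList.all (fun row => smallI row.toList && Nat.beq row.toList.length D.nroots) &&
  Nat.beq D.chain.toList.length D.nroots && D.chain.toList.all (fun row => goodR 0 row.toList) &&
  (List.range D.rank).all fun j => smallI (D.coroot.toList.map fun a => a.getD j 0)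

/-- The checks on the action of the `i`-th fundamental reflection on the roots. -/
def reflOK (D : ChevalleyDatum) (c : Cert) (i : ℕ) : Bool :=
  let p := D.simple i
  let A := (cartanP D).getD i 0
  (D.chain.toList.zipIdx).all fun x =>
    let s := x.2
    let ws := c.im i s
    let row := (chainsP D).getD ws 0
    let es := c.sgn i s
    Nat.blt ws D.nroots && Nat.beq (c.im i ws) s && Nat.beq (D.reflectRoot i s) ws &&
    Nat.beq (c.im i (D.neg s)) (D.neg ws) && decide (c.sgn i (D.neg s) = es) &&
    decide (es * c.sgn i ws = (-1) ^ (getI A s).natAbs) &&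
    decide (getI A (D.neg s) = -getI A s) &&
    (List.range D.rank).all (fun j =>
      decide (getI ((cartanP D).getD j 0) s = getI ((cartanP D).getD j 0) ws - getI ((cartanP D).getD j 0) p * getI A ws) &&
      decide (getI ((corootP D).getD j 0) ws = getI ((corootP D).getD j 0) s -
        if j = i then ((List.range D.rank).map fun m => getI ((corootP D).getD m 0) s * getI ((cartanP D).getD m 0) p).sum else 0)) &&
    x.1.toList.all fun e =>
      eqC (chainP row (c.im i e.1)) (mapC c i (c.sgn i e.1) es 0 e.2.toList) &&
      addC A (getI A s) (getI A e.1) 0 e.2.toList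

/-- Every positive root is fundamental or is lowered by a fundamental reflection. -/
def reachOK (D : ChevalleyDatum) (c : Cert) : Bool :=
  (List.range D.nroots).all fun r => Nat.blt r c.half ||
    ((List.range D.rank).any fun i => Nat.beq r (D.simple i)) ||
    ((List.range D.rank).any fun i => Nat.ble c.half (c.im i r) && Nat.blt (c.im i r) r)

/-- The longest word sends positive roots to negative roots. -/
def longestOK (D : ChevalleyDatum) (c : Cert) : Bool :=
  c.longest.all (fun i => Nat.blt i D.rank) &&
  (List.range D.nroots).all fun s =>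
    let v := c.longest.foldr (fun i v => c.im i v) s
    bif Nat.ble c.half s then Nat.blt v c.half else Nat.ble c.half v

/-- No coroot vanishes over any field. -/
def primOK (D : ChevalleyDatum) : Bool :=
  D.coroot.toList.all fun a => a.toList.any fun x => decide (x.natAbs = 1) ||
    a.toList.any fun y => decide ((x - y).natAbs = 1)

end Cfsg.Agent.Chev
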