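import Cfsg.Agent.Chev.CommT
import Cfsg.Agent.Chev.Borel

set_option autoImplicit false
attribute [-simp] Array.getD_eq_getD_getElem?

namespace Cfsg.Agent.Chev.Comm

open Cfsg.Lie Matrix

variable {D : ChevalleyDatum} {c : Cert} {F : Type*} [Field F]

/-- All the checks for the commutator formula. -/
structure CGood (D : ChevalleyDatum) (c : Cert) : Prop where
  base : Good D c
  rep : repOK D c = true
  closed : closedOK D c = true

variable (g : Good D c)
include g

theorem terms_lt {r s : ℕ} (hr : r < D.nroots) (hs : s < D.nroots) : ∀ q ∈ D.commTerms r s, q.1 < D.nroots := by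
  intro q hq
  simp only [ChevalleyDatum.commTerms, List.mem_filterMap, List.mem_cons, List.not_mem_nil, or_false,
    Option.map_eq_some_iff] at hq
  obtain ⟨a, ha, k, hk, rfl⟩ := hq
  rcases ha with rfl | rfl | rfl | rfl | rfl | rfl | rfl
  · exact root_lt g hr hk
  · exact root_lt g hr hk
  · exact root_lt g hs hk
  · exact root_lt g hr hk
  · exact root_lt g hs hk
  · obtain ⟨j, hj, hj'⟩ := Option.bind_eq_some_iff.1 hk
    exact root_lt g (root_lt g hr hj) hj'
  · obtain ⟨j, hj, hj'⟩ := Option.bind_eq_some_iff.1 hk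
    exact root_lt g (root_lt g hs hj) hj'

/-- A word is moved past `n_p`. -/
theorem word_conj {i : ℕ} (hi : i < D.rank) : ∀ L : List (ℕ × F), (∀ q ∈ L, q.1 < D.nroots) →
    D.nMat F (D.simple i) 1 * D.wordMat F L =
      D.wordMat F (L.map fun q => (c.im i q.1, (c.sgn i q.1 : F) * q.2)) * D.nMat F (D.simple i) 1 := by
  intro L
  induction L with
  | nil => simp [ChevalleyDatum.wordMat]
  | cons q L ih =>
    intro hL
    have h := ih (fun x hx => hL x (List.mem_cons_of_mem _ hx))
    simp only [ChevalleyDatum.wordMat, List.map_cons, List.prod_cons] at h ⊢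
    rw [← Matrix.mul_assoc, n_conj g hi (hL q (by simp)), Matrix.mul_assoc, h, ← Matrix.mul_assoc]

omit g in
/-- The formula for a pair. -/
def Holds (D : ChevalleyDatum) (F : Type*) [Field F] (r s : ℕ) : Prop :=
  divA D r s = true ∧ divB D r s = true ∧ ∀ t u : F,
    D.x F s u * D.x F r t = D.x F r t * D.x F s u * D.wordMat F (D.commWord F r s t u)

theorem holds_pair {r s : ℕ} (hr : r < D.nroots) (hs : s < D.nroots) (h : pairOK D r s = true) : Holds D F r s := by
  simp only [pairOK, Bool.and_eq_true, List.all_eq_true, List.mem_range] at h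
  refine ⟨h.1.1, h.1.2, fun t u => ?_⟩
  have key : ∀ b < D.nroots + D.rank, (D.x F s u * D.x F r t) *ᵥ bv D F b =
      (D.x F r t * D.x F s u * D.wordMat F (D.commWord F r s t u)) *ᵥ bv D F b := by
    intro b hb
    have h1 := (runW_sound g.datum (t, u) hb [(s, 1, (0, 1)), (r, 1, (1, 0))] (by simp [hr, hs])).1
    have h2 := (runW_sound g.datum (t, u) hb ((r, 1, (1, 0)) :: (s, 1, (0, 1)) :: commW D r s) (by
      intro q hq
      rcases List.mem_cons.1 hq with rfl | hq
      · exact hr
      rcases List.mem_cons.1 hq with rfl | hq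
      · exact hs
      simp only [commW, List.mem_map] at hq
      obtain ⟨x, hx, rfl⟩ := hq
      exact terms_lt g hr hs x hx)).1
    rw [← sameVec_sound (t, u) (h.2 b hb), ← h1] at h2
    have e : wordVal F (t, u) ((r, 1, (1, 0)) :: (s, 1, (0, 1)) :: commW D r s) =
        (r, t) :: (s, u) :: D.commWord F r s t u := by
      simp only [wordVal, commW, ChevalleyDatum.commWord, List.map_cons, List.map_map, mon]
      simp only [Int.cast_one, pow_one, pow_zero, mul_one, one_mul, List.cons.injEq, true_and]
      apply List.map_congr_left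
      intro x _
      simp only [Function.comp, Prod.mk.injEq, true_and, Int.cast_mul, Int.cast_pow, Int.cast_neg, Int.cast_one, neg_pow t]
      ring
    rw [e] at h2
    simpa [ChevalleyDatum.wordMat, wordVal, mon, Matrix.mul_assoc] using h2.symm
  apply ext_cols
  · intro j hj
    have := key (D.nroots + j) (by omega)
    rwa [bv_eh hj] at this
  · intro v hv
    have := key v (by omega)
    rwa [bv_lt hv] at this

/-- The formula is moved by a fundamental reflection. -/
theorem holds_im {i r s : ℕ} (hi : i < D.rank) (hr : r < D.nroots) (hs : s < D.nroots) (h : Holds D F r s) :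
    Holds D F (c.im i r) (c.im i s) := by
  obtain ⟨hA, hB, hid⟩ := h
  obtain ⟨e, hA', hB'⟩ := terms_im g hi hr hs hA hB
  refine ⟨hA', hB', fun t u => ?_⟩
  have er := sgn_sqF F c i r
  have es := sgn_sqF F c i s
  have h1 := congrArg (D.nMat F (D.simple i) 1 * ·) (hid ((c.sgn i r : F) * t) ((c.sgn i s : F) * u))
  simp only [← Matrix.mul_assoc, n_conj g hi hr, n_conj g hi hs, ← mul_assoc, er, es, one_mul] at h1
  simp only [Matrix.mul_assoc, n_conj g hi hr, n_conj g hi hs, ← mul_assoc (c.sgn i r : F), ← mul_assoc (c.sgn i s : F), er, es, one_mul] at h1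
  rw [word_conj g hi _ (by
    intro q hq
    simp only [ChevalleyDatum.commWord, List.mem_map] at hq
    obtain ⟨x, hx, rfl⟩ := hq
    exact terms_lt g hr hs x hx)] at h1
  simp only [← Matrix.mul_assoc] at h1
  rw [← nG_val g (g.simple hi).lt, Units.mul_left_inj] at h1
  rw [h1]
  congr 1
  simp only [ChevalleyDatum.commWord, e, List.map_map]
  congr 1
  apply List.map_congr_left
  intro x _
  simp only [Function.comp, T, Prod.mk.injEq, true_and, Int.cast_mul, Int.cast_pow]
  rw [neg_pow, neg_pow t, mul_pow, mul_pow]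
  ring

omit g in
theorem holds (G : CGood D c) (n : ℕ) : ∀ r s, r < D.nroots → s < D.nroots → s ≠ r → s ≠ D.neg r →
    (D.nroots - r) * (D.nroots + 1) + (D.nroots - s) = n → Holds D F r s := by
  induction n using Nat.strong_induction_on with
  | _ n ih =>
    intro r s hr hs h1 h2 hn
    have g := G.base
    have h := List.all_eq_true.1 G.rep r (List.mem_range.2 hr)
    simp only [Bool.or_eq_true, List.any_eq_true, List.all_eq_true, List.mem_range, Bool.and_eq_true, Nat.blt_eq] at h
    have back : ∀ i < D.rank, Holds D F (c.im i r) (c.im i s) → Holds D F r s := fun i hi H => by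
      have := holds_im g hi (g.refl hi hr).lt (g.refl hi hs).lt H
      rwa [(g.refl hi hr).invol, (g.refl hi hs).invol] at this
    have n1 : ∀ i < D.rank, c.im i s ≠ c.im i r := fun i hi e => h1 (by
      rw [← (g.refl hi hs).invol, e, (g.refl hi hr).invol])
    have n2 : ∀ i < D.rank, c.im i s ≠ D.neg (c.im i r) := fun i hi e => h2 (by
      rw [← (g.refl hi hs).invol, e, ← (g.refl hi hr).im_neg, (g.refl hi (g.neg_lt hr)).invol])
    rcases h with ⟨i, hi, hlt⟩ | h
    · refine back i hi (ih _ ?_ _ _ (g.refl hi hr).lt (g.refl hi hs).lt (n1 i hi) (n2 i hi) rfl)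
      rw [← hn]
      have h4 := (g.refl hi hr).lt
      have h5 : (D.nroots - c.im i r + 1) * (D.nroots + 1) ≤ (D.nroots - r) * (D.nroots + 1) :=
        Nat.mul_le_mul_right _ (by omega)
      have h6 : (D.nroots - c.im i r + 1) * (D.nroots + 1) = (D.nroots - c.im i r) * (D.nroots + 1) + (D.nroots + 1) := by ring
      omega
    · rcases h s hs with ((h | h) | ⟨i, hi, he, hlt⟩) | h
      · exact absurd (Nat.eq_of_beq_eq_true h) h1
      · exact absurd (Nat.eq_of_beq_eq_true h) h2
      · refine back i hi (ih _ ?_ _ _ (g.refl hi hr).lt (g.refl hi hs).lt (n1 i hi) (n2 i hi) rfl)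
        rw [← hn, Nat.eq_of_beq_eq_true he]
        have := (g.refl hi hs).lt
        omega
      · exact holds_pair g hr hs h

omit g in
/-- Chevalley's commutator formula. -/
theorem comm (G : CGood D c) {r s : ℕ} (hr : r < D.nroots) (hs : s < D.nroots) (h1 : s ≠ r) (h2 : s ≠ D.neg r) (t u : F) :
    D.x F s u * D.x F r t = D.x F r t * D.x F s u * D.wordMat F (D.commWord F r s t u) :=
  (holds G _ r s hr hs h1 h2 rfl).2.2 t u

end Cfsg.Agent.Chev.Comm
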