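import Cfsg.Agent.Chev.CommCheck
import Cfsg.Agent.Chev.CertD4

set_option autoImplicit false
set_option maxRecDepth 100000

namespace Cfsg.Agent.Chev.Comm

open Cfsg.Lie

theorem repD4 : repOK chevD4 certD4 = true := by decide +kernel

theorem closedD4 : closedOK chevD4 certD4 = true := by decide +kernel

end Cfsg.Agent.Chev.Comm
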