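import Cfsg.Agent.Chev.CommCheck
import Cfsg.Agent.Chev.CertE7

set_option autoImplicit false
set_option maxRecDepth 100000

namespace Cfsg.Agent.Chev.Comm

open Cfsg.Lie

theorem repE7 : repOK chevE7 certE7 = true := by decide +kernel

theorem closedE7 : closedOK chevE7 certE7 = true := by decide +kernel

end Cfsg.Agent.Chev.Comm
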