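import Cfsg.Agent.Chev.Comm
import Cfsg.Agent.Chev.All
import Cfsg.Agent.Chev.CommG2
import Cfsg.Agent.Chev.CommB2
import Cfsg.Agent.Chev.CommD4
import Cfsg.Agent.Chev.CommF4
import Cfsg.Agent.Chev.CommE6
import Cfsg.Agent.Chev.CommE7
import Cfsg.Agent.Chev.CommE8

set_option autoImplicit false

namespace Cfsg.Agent.Chev.Comm

open Cfsg.Lie

theorem cgood_of_mem {D : ChevalleyDatum}
    (hD : D ∈ [chevG2, chevB2, chevD4, chevF4, chevE6, chevE7, chevE8]) : ∃ c, CGood D c := by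
  simp only [List.mem_cons, List.not_mem_nil, or_false] at hD
  rcases hD with rfl | rfl | rfl | rfl | rfl | rfl | rfl
  · exact ⟨_, goodG2, repG2, closedG2⟩
  · exact ⟨_, goodB2, repB2, closedB2⟩
  · exact ⟨_, goodD4, repD4, closedD4⟩
  · exact ⟨_, goodF4, repF4, closedF4⟩
  · exact ⟨_, goodE6, repE6, closedE6⟩
  · exact ⟨_, goodE7, repE7, closedE7⟩
  · exact ⟨_, goodE8, repE8, closedE8⟩

end Cfsg.Agent.Chev.Comm
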