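import Cfsg.Agent.Chev.CommSym

set_option autoImplicit false
attribute [-simp] Array.getD_eq_getD_getElem?

namespace Cfsg.Agent.Chev.Comm

open Cfsg.Lie Matrix

/-- The word of the commutator formula. -/
def commW (D : ChevalleyDatum) (r s : ℕ) : List (ℕ × ℤ × (ℕ × ℕ)) :=
  (D.commTerms r s).map fun q => (q.1, q.2.1 * (-1) ^ q.2.2.1, q.2.2)

/-- Divisibility of the constant `C₃₂`. -/
def divA (D : ChevalleyDatum) (r s : ℕ) : Bool :=
  ((D.chainRoot r s 3).bind fun k => D.chainRoot k s 1).isNone ||
    (decide (((D.chainRoot r s 1).map fun k => D.chainM k r 2).getD 0 % 3 = 0) &&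
      decide (((D.chainRoot r s 1).bind fun k => D.chainRoot k r 2) = (D.chainRoot r s 3).bind fun k => D.chainRoot k s 1))

/-- Divisibility of the constant `C₂₃`. -/
def divB (D : ChevalleyDatum) (r s : ℕ) : Bool :=
  ((D.chainRoot s r 3).bind fun k => D.chainRoot k r 1).isNone ||
    (decide ((-2 * ((D.chainRoot r s 1).map fun k => D.chainM k s 2).getD 0) % 3 = 0) &&
      decide (((D.chainRoot r s 1).bind fun k => D.chainRoot k s 2) = (D.chainRoot s r 3).bind fun k => D.chainRoot k r 1))

/-- The commutator formula holds for a pair. -/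
def pairOK (D : ChevalleyDatum) (r s : ℕ) : Bool :=
  divA D r s && divB D r s &&
    (List.range (D.nroots + D.rank)).all fun b =>
      sameVec (runW D [(s, 1, (0, 1)), (r, 1, (1, 0))] b)
        (runW D ((r, 1, (1, 0)) :: (s, 1, (0, 1)) :: commW D r s) b)

/-- The commutator formula holds for the pairs that no reflection raises. -/
def repOK (D : ChevalleyDatum) (c : Cert) : Bool :=
  (List.range D.nroots).all fun r => ((List.range D.rank).any fun i => Nat.blt r (c.im i r)) ||
    (List.range D.nroots).all fun s => Nat.beq s r || Nat.beq s (D.neg r) ||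
      ((List.range D.rank).any fun i => Nat.beq (c.im i r) r && Nat.blt s (c.im i s)) || pairOK D r s

/-- The terms for `±p`, `p` fundamental, and another positive root are positive and differ from `p`. -/
def closedOK (D : ChevalleyDatum) (c : Cert) : Bool :=
  (List.range D.rank).all fun i =>
    let p := D.simple i
    (List.range D.nroots).all fun s => Nat.blt s c.half || Nat.beq s p ||
      ((D.commTerms p s).all (fun q => Nat.ble c.half q.1 && !(Nat.beq q.1 p)) &&
       (D.commTerms (D.neg p) s).all fun q => Nat.ble c.half q.1 && !(Nat.beq q.1 p))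

end Cfsg.Agent.Chev.Comm
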