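import Cfsg.Agent.Chev.Struct

set_option autoImplicit false
attribute [-simp] Array.getD_eq_getD_getElem?

namespace Cfsg.Agent.Chev.Comm

open Cfsg.Lie Matrix

variable {D : ChevalleyDatum} {p : ℕ} {F : Type*} [Field F]

/-- A term with two exponents. -/
abbrev Term := ℕ × (ℕ × ℕ) × ℤ

/-- Terms of a chain. -/
def chainTerms (coef a : ℤ) (e k : ℕ × ℕ) : ℕ → List (ℕ × ℤ) → List Term
  | _, [] => []
  | j, (u, M) :: l => (u, (e.1 + (j + 1) * k.1, e.2 + (j + 1) * k.2), M * a ^ (j + 1) * coef) :: chainTerms coef a e k (j + 1) l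

/-- The action of `x_r(a t^k u^l)` on one term. -/
def applyT (D : ChevalleyDatum) (r : ℕ) (a : ℤ) (k : ℕ × ℕ) : Term → List Term
  | (b, e, coef) =>
    bif Nat.ble D.nroots b then [(b, e, coef), (r, (e.1 + k.1, e.2 + k.2), -(D.cartan (b - D.nroots) r * a * coef))]
    else bif Nat.beq b r then [(b, e, coef)]
    else bif Nat.beq b (D.neg r) then
      (b, e, coef) :: (r, (e.1 + 2 * k.1, e.2 + 2 * k.2), -(a * a * coef)) ::
        (List.range D.rank).map fun j => (D.nroots + j, (e.1 + k.1, e.2 + k.2), (D.coroot.getD r #[]).getD j 0 * a * coef)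
    else (b, e, coef) :: chainTerms coef a e k 0 (D.chainEntry r b)

/-- The action of a word on one basis vector. -/
def runW (D : ChevalleyDatum) (w : List (ℕ × ℤ × (ℕ × ℕ))) (b : ℕ) : List Term :=
  w.foldr (fun x L => L.flatMap (applyT D x.1 x.2.1 x.2.2)) [(b, (0, 0), 1)]

/-- Whether two terms have the same monomial. -/
def sameKey (x y : Term) : Bool := Nat.beq x.1 y.1 && (Nat.beq x.2.1.1 y.2.1.1 && Nat.beq x.2.1.2 y.2.1.2)

/-- A list of terms cancels (`n` is fuel). -/
def isZero : ℕ → List Term → Bool
  | _, [] => true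
  | 0, _ => false
  | n + 1, x :: l => decide (x.2.2 + ((l.filter (sameKey x)).map fun y => y.2.2).sum = 0) &&
      isZero n (l.filter fun y => !(sameKey x y))

/-- Two lists of terms represent the same vector. -/
def sameVec (L L' : List Term) : Bool :=
  let M := L ++ L'.map fun x => (x.1, x.2.1, -x.2.2)
  isZero M.length M

/-- The monomial. -/
def mon (v : F × F) (e : ℕ × ℕ) : F := v.1 ^ e.1 * v.2 ^ e.2

/-- The vector of one term. -/
def tv1 (D : ChevalleyDatum) {F : Type*} [Field F] (c : F × F) (x : Term) : D.Idx → F :=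
  ((x.2.2 : F) * mon c x.2.1) • bv D F x.1

/-- The vector of a list of terms. -/
def sem (D : ChevalleyDatum) {F : Type*} [Field F] (c : F × F) (L : List Term) : D.Idx → F :=
  (L.map (tv1 D c)).sum

theorem sem_append (c : F × F) (L L' : List Term) : sem D c (L ++ L') = sem D c L + sem D c L' := by
  simp [sem]

/-- A term names a coordinate. -/
def Valid (D : ChevalleyDatum) (x : Term) : Prop := x.1 < D.nroots + D.rank

theorem cv_terms {r : ℕ} (c : F × F) (coef a : ℤ) (e k : ℕ × ℕ) : ∀ (L : List (ℕ × ℤ)) (j : ℕ),
    (∀ q ∈ L, q.1 < D.nroots) →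
    ((coef : F) * mon c e) • cv D F ((a : F) * mon c k) j L = sem D c (chainTerms coef a e k j L) ∧
      ∀ y ∈ chainTerms coef a e k j L, Valid D y := by
  intro L
  induction L with
  | nil => intro j _; simp [cv, chainTerms, sem]
  | cons q L ih =>
    intro j hq
    obtain ⟨u, M⟩ := q
    obtain ⟨h1, h2⟩ := ih (j + 1) (fun q hq' => hq q (List.mem_cons_of_mem _ hq'))
    have hu : u < D.nroots := hq (u, M) (by simp)
    constructor
    · rw [cv, smul_add, h1, chainTerms]
      simp only [sem, List.map_cons, List.sum_cons]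
      congr 1
      rw [tv1, smul_smul, bv_lt hu]
      congr 1
      have e1 : mon c (e.1 + (j + 1) * k.1, e.2 + (j + 1) * k.2) = mon c e * (mon c k) ^ (j + 1) := by
        simp only [mon, mul_pow, ← pow_mul, pow_add]
        ring
      simp only [e1]
      push_cast
      ring
    · intro y hy
      rw [chainTerms] at hy
      rcases List.mem_cons.1 hy with rfl | hy
      · simp [Valid]; omega
      · exact h2 y hy

theorem applyT_sound (h : datumOK D p = true) {r : ℕ} (hr : r < D.nroots) (c : F × F) (a : ℤ) (k : ℕ × ℕ)
    (x : Term) (hx : Valid D x) :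
    D.x F r ((a : F) * mon c k) *ᵥ tv1 D c x = sem D c (applyT D r a k x) ∧
      ∀ y ∈ applyT D r a k x, Valid D y := by
  obtain ⟨b, e, coef⟩ := x
  obtain ⟨hn, hne, -, -, -, -, -, -, hrange⟩ := facts h hr
  simp only [Valid] at hx
  simp only [tv1, mulVec_smul, applyT]
  have pw : mon c (e.1 + k.1, e.2 + k.2) = mon c e * mon c k := by simp only [mon, pow_add]; ring
  cases hb : Nat.ble D.nroots b with
  | true =>
    simp only [cond_true]
    have hb' : D.nroots ≤ b := by simpa using hb
    constructor
    · obtain ⟨j, rfl⟩ : ∃ j : Fin D.rank, b = D.nroots + j := ⟨⟨b - D.nroots, by omega⟩, by simp; omega⟩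
      rw [bv_h, x_h hr]
      simp [sem, tv1, bv_h, bv_lt hr, pw]
      module
    · intro y hy
      simp at hy
      rcases hy with rfl | rfl <;> simp [Valid] <;> omega
  | false =>
    have hb' : b < D.nroots := by simpa [← Bool.not_eq_true] using hb
    simp only [cond_false, bv_lt hb']
    cases h1 : Nat.beq b r with
    | true =>
      obtain rfl : b = r := Nat.eq_of_beq_eq_true h1
      simp only [cond_true]
      refine ⟨?_, by simp [Valid]; omega⟩
      rw [x_self h hr]
      simp [sem, tv1, bv_lt hr]
    | false =>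
      have hbr : b ≠ r := Nat.ne_of_beq_eq_false h1
      simp only [cond_false]
      cases h2 : Nat.beq b (D.neg r) with
      | true =>
        obtain rfl : b = D.neg r := Nat.eq_of_beq_eq_true h2
        simp only [cond_true]
        have ehv : hv D F r = ∑ j : Fin D.rank, (((D.coroot.getD r #[]).getD j.val 0 : ℤ) : F) • ee (Sum.inl j) := by
          funext i
          rcases i with i | i <;> simp [hv, ee, Finset.sum_apply, Pi.single_apply]
        have hlist : ∀ f : ℕ → (D.Idx → F), ((List.range D.rank).map f).sum = ∑ j : Fin D.rank, f j := by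
          intro f
          rw [show ((List.range D.rank).map f).sum = ∑ i ∈ Finset.range D.rank, f i from rfl,
            Fin.sum_univ_eq_sum_range]
        constructor
        · rw [x_neg h hr]
          simp only [sem, List.map_cons, List.sum_cons, List.map_map, hlist, Function.comp, tv1, bv_h,
            bv_lt hb', bv_lt hr, pw]
          rw [ehv, show mon c (e.1 + 2 * k.1, e.2 + 2 * k.2) = mon c e * (mon c k) ^ 2 by
            simp only [mon, mul_pow, ← pow_mul, pow_add]; ring]
          simp only [Finset.smul_sum, smul_add, smul_sub, smul_smul]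
          push_cast
          have : ∀ j : Fin D.rank, ((((D.coroot.getD r #[]).getD j.val 0 : ℤ) : F) * a * coef * (mon c e * mon c k)) =
              (coef * mon c e * ((a : F) * mon c k * ((D.coroot.getD r #[]).getD j.val 0 : ℤ))) := fun j => by ring
          simp only [this]
          module
        · intro y hy
          simp at hy
          rcases hy with rfl | rfl | ⟨j, hj, rfl⟩ <;> simp [Valid] <;> omega
      | false =>
        have hbn : b ≠ D.neg r := Nat.ne_of_beq_eq_false h2
        simp only [cond_false]
        obtain ⟨h3, h4⟩ := cv_terms (D := D) (r := r) c coef a e k (D.chainEntry r b) 0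
          (fun q hq => (hrange b q hq).1)
        constructor
        · rw [x_other h hr _ hb' hbr hbn, smul_add, h3]
          simp [sem, tv1, bv_lt hb']
        · intro y hy
          rcases List.mem_cons.1 hy with rfl | hy
          · simp [Valid]; omega
          · exact h4 y hy

theorem step_sound (h : datumOK D p = true) {r : ℕ} (hr : r < D.nroots) (c : F × F) (a : ℤ) (k : ℕ × ℕ) :
    ∀ L : List Term, (∀ x ∈ L, Valid D x) →
      D.x F r ((a : F) * mon c k) *ᵥ sem D c L = sem D c (L.flatMap (applyT D r a k)) ∧
        ∀ y ∈ L.flatMap (applyT D r a k), Valid D y := by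
  intro L
  induction L with
  | nil => intro _; simp [sem]
  | cons x L ih =>
    intro hL
    obtain ⟨h1, h2⟩ := applyT_sound h hr c a k x (hL x (by simp))
    obtain ⟨h3, h4⟩ := ih (fun y hy => hL y (List.mem_cons_of_mem _ hy))
    constructor
    · rw [List.flatMap_cons, sem_append, ← h1, ← h3, ← mulVec_add]
      simp [sem]
    · intro y hy
      rw [List.flatMap_cons, List.mem_append] at hy
      exact hy.elim (h2 y) (h4 y)

/-- The value of a symbolic word. -/
def wordVal (F : Type*) [Field F] (c : F × F) (w : List (ℕ × ℤ × (ℕ × ℕ))) : List (ℕ × F) :=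
  w.map fun x => (x.1, (x.2.1 : F) * mon c x.2.2)

theorem runW_sound (h : datumOK D p = true) (c : F × F) {b : ℕ} (hb : b < D.nroots + D.rank) :
    ∀ w : List (ℕ × ℤ × (ℕ × ℕ)), (∀ x ∈ w, x.1 < D.nroots) →
      D.wordMat F (wordVal F c w) *ᵥ bv D F b = sem D c (runW D w b) ∧ ∀ y ∈ runW D w b, Valid D y := by
  intro w
  induction w with
  | nil =>
    intro _
    simp [ChevalleyDatum.wordMat, wordVal, runW, sem, tv1, Valid, hb, mon]
  | cons x w ih =>
    intro hw
    obtain ⟨h1, h2⟩ := ih (fun y hy => hw y (List.mem_cons_of_mem _ hy))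
    obtain ⟨h3, h4⟩ := step_sound h (hw x (by simp)) c x.2.1 x.2.2 _ h2
    refine ⟨?_, h4⟩
    rw [show runW D (x :: w) b = (runW D w b).flatMap (applyT D x.1 x.2.1 x.2.2) from rfl, ← h3, ← h1,
      mulVec_mulVec]
    rfl

theorem isZero_sound (c : F × F) : ∀ (n : ℕ) (L : List Term), isZero n L = true → sem D c L = 0 := by
  intro n
  induction n with
  | zero => intro L hL; cases L <;> simp [isZero, sem] at hL ⊢
  | succ n ih =>
    intro L hL
    rcases L with _ | ⟨x, L⟩
    · simp [sem]
    simp only [isZero, Bool.and_eq_true, decide_eq_true_eq] at hL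
    obtain ⟨h1, h2⟩ := hL
    have hsplit : ∀ M : List Term, sem D c M =
        sem D c (M.filter (sameKey x)) + sem D c (M.filter fun y => !(sameKey x y)) := by
      intro M
      induction M with
      | nil => simp [sem]
      | cons y M ihM =>
        simp only [sem, List.map_cons, List.sum_cons] at ihM ⊢
        cases hk : sameKey x y <;> simp [List.filter_cons, hk, ihM] <;> abel
    have hsame : ∀ M : List Term, (∀ y ∈ M, sameKey x y = true) →
        sem D c M = (((M.map fun y => y.2.2).sum : ℤ) : F) • (mon c x.2.1 • bv D F x.1) := by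
      intro M
      induction M with
      | nil => simp [sem]
      | cons y M ihM =>
        intro hM
        have hy := hM y (by simp)
        simp only [sameKey, Bool.and_eq_true, decide_eq_true_eq] at hy
        simp only [sem, List.map_cons, List.sum_cons] at ihM ⊢
        rw [ihM (fun z hz => hM z (List.mem_cons_of_mem _ hz)), tv1, ← Nat.eq_of_beq_eq_true hy.1, ← (Prod.ext (Nat.eq_of_beq_eq_true hy.2.1) (Nat.eq_of_beq_eq_true hy.2.2) : x.2.1 = y.2.1),
          Int.cast_add, add_smul, ← smul_smul]
    have : sem D c (x :: L) = tv1 D c x + sem D c L := by simp [sem]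
    rw [this, hsplit L, ih _ h2, add_zero, hsame _ (fun y hy => (List.mem_filter.1 hy).2), tv1, ← smul_smul,
      ← add_smul, ← Int.cast_add, h1, Int.cast_zero, zero_smul]

theorem sameVec_sound (c : F × F) {L L' : List Term} (h : sameVec L L' = true) : sem D c L = sem D c L' := by
  have h1 := isZero_sound (D := D) c _ _ h
  rw [sem_append] at h1
  have h2 : sem D c (L'.map fun x => (x.1, x.2.1, -x.2.2)) = - sem D c L' := by
    clear h1 h
    induction L' with
    | nil => simp [sem]
    | cons y M ihM =>
      simp only [sem, List.map_cons, List.sum_cons] at ihM ⊢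
      rw [ihM, tv1, tv1, Int.cast_neg, neg_mul, neg_smul, neg_add]
  rw [h2, ← sub_eq_add_neg, sub_eq_zero] at h1
  exact h1

end Cfsg.Agent.Chev.Comm
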