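import Cfsg.Agent.Chev.CommCheck

set_option autoImplicit false
attribute [-simp] Array.getD_eq_getD_getElem?

namespace Cfsg.Agent.Chev.Comm

open Cfsg.Lie Matrix

variable {D : ChevalleyDatum} {c : Cert} {F : Type*} [Field F]

theorem mapC_get (c : Cert) (i : ℕ) (ev es : ℤ) : ∀ (L : List (ℕ × ℤ)) (k n : ℕ),
    (mapC c i ev es k L)[n]? = L[n]?.map fun q => (c.im i q.1, q.2 * c.sgn i q.1 * ev * es ^ (k + n + 1)) := by
  intro L
  induction L with
  | nil => intro k n; simp [mapC]
  | cons q L ih =>
    intro k n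
    obtain ⟨u, M⟩ := q
    rcases n with _ | n
    · simp [mapC]
    · simp only [mapC, List.getElem?_cons_succ, ih]
      congr 1
      funext q
      rw [show k + (n + 1) + 1 = k + 1 + n + 1 by ring]

variable (g : Good D c)
include g

theorem chain_get {i r s : ℕ} (hi : i < D.rank) (hr : r < D.nroots) (hs : s < D.nroots) (k : ℕ) :
    (D.chainEntry (c.im i r) (c.im i s))[k]? = (D.chainEntry r s)[k]?.map
      fun q => (c.im i q.1, q.2 * c.sgn i q.1 * c.sgn i s * c.sgn i r ^ (k + 1)) := by
  rw [g.chain_im hi hr hs, mapC_get]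
  simp

theorem root_im {i r s : ℕ} (hi : i < D.rank) (hr : r < D.nroots) (hs : s < D.nroots) (k : ℕ) :
    D.chainRoot (c.im i r) (c.im i s) k = (D.chainRoot r s k).map (c.im i) := by
  simp only [ChevalleyDatum.chainRoot, chain_get g hi hr hs, Option.map_map]
  rfl

theorem root_lt {r s k q : ℕ} (hr : r < D.nroots) (h : D.chainRoot r s k = some q) : q < D.nroots := by
  simp only [ChevalleyDatum.chainRoot, Option.map_eq_some_iff] at h
  obtain ⟨x, hx, rfl⟩ := h
  exact ((facts g.datum hr).range s x (List.mem_of_getElem? hx)).1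

theorem M_im {i r s : ℕ} (hi : i < D.rank) (hr : r < D.nroots) (hs : s < D.nroots) {k q : ℕ}
    (h : D.chainRoot r s (k + 1) = some q) :
    D.chainM (c.im i r) (c.im i s) (k + 1) =
      D.chainM r s (k + 1) * c.sgn i q * c.sgn i s * c.sgn i r ^ (k + 1) := by
  simp only [ChevalleyDatum.chainRoot, Option.map_eq_some_iff, add_tsub_cancel_right] at h
  obtain ⟨x, hx, rfl⟩ := h
  simp only [ChevalleyDatum.chainM, add_tsub_cancel_right, chain_get g hi hr hs, hx, Option.map_some,
    Option.getD_some]

omit g in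
theorem M_none {r s k : ℕ} (h : D.chainRoot r s k = none) : D.chainM r s k = 0 := by
  simp only [ChevalleyDatum.chainRoot, Option.map_eq_none_iff] at h
  simp [ChevalleyDatum.chainM, h]

theorem M_im0 {i r s : ℕ} (hi : i < D.rank) (hr : r < D.nroots) (hs : s < D.nroots) (k : ℕ) :
    D.chainM (c.im i r) (c.im i s) (k + 1) = D.chainM r s (k + 1) *
      (((D.chainRoot r s (k + 1)).map fun q => c.sgn i q * c.sgn i s * c.sgn i r ^ (k + 1)).getD 0) := by
  rcases h : D.chainRoot r s (k + 1) with _ | q
  · rw [M_none (by rw [root_im g hi hr hs, h]; rfl)]; simp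
  · rw [M_im g hi hr hs h]; simp; ring

omit g in
theorem ediv_sign {x : ℤ} (hx : x % 3 = 0) (e : ℤ) : e * x / 3 = e * (x / 3) :=
  Int.mul_ediv_assoc e (Int.dvd_of_emod_eq_zero hx)

omit g in
/-- The image of a term of the formula. -/
def T (c : Cert) (i r s : ℕ) (q : ℕ × ℤ × ℕ × ℕ) : ℕ × ℤ × ℕ × ℕ :=
  (c.im i q.1, q.2.1 * (c.sgn i q.1 * c.sgn i r ^ q.2.2.1 * c.sgn i s ^ q.2.2.2), q.2.2)

theorem terms_im {i r s : ℕ} (hi : i < D.rank) (hr : r < D.nroots) (hs : s < D.nroots)
    (hA : divA D r s = true) (hB : divB D r s = true) :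
    D.commTerms (c.im i r) (c.im i s) = (D.commTerms r s).map (T c i r s) ∧
      divA D (c.im i r) (c.im i s) = true ∧ divB D (c.im i r) (c.im i s) = true := by
  have R := root_im g hi hr hs
  have R' := root_im g hi hs hr
  have e1 : ∀ j, c.sgn i j * c.sgn i j = 1 := fun j => sgn_sq c i j
  have h32 : ∀ q, ((D.chainRoot r s 3).bind fun k => D.chainRoot k s 1) = some q →
      ((D.chainRoot (c.im i r) (c.im i s) 3).bind fun k => D.chainRoot k (c.im i s) 1) = some (c.im i q) := by
    intro q hq
    obtain ⟨k, hk, hk'⟩ := Option.bind_eq_some_iff.1 hq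
    simp [R, hk, root_im g hi (root_lt g hr hk) hs, hk']
  have h32n : ((D.chainRoot r s 3).bind fun k => D.chainRoot k s 1) = none →
      ((D.chainRoot (c.im i r) (c.im i s) 3).bind fun k => D.chainRoot k (c.im i s) 1) = none := by
    intro hq
    rcases hk : D.chainRoot r s 3 with _ | k
    · simp [R, hk]
    · rw [hk] at hq
      simp only [Option.bind_some] at hq
      simp [R, hk, root_im g hi (root_lt g hr hk) hs, hq]
  have h23 : ∀ q, ((D.chainRoot s r 3).bind fun k => D.chainRoot k r 1) = some q →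
      ((D.chainRoot (c.im i s) (c.im i r) 3).bind fun k => D.chainRoot k (c.im i r) 1) = some (c.im i q) := by
    intro q hq
    obtain ⟨k, hk, hk'⟩ := Option.bind_eq_some_iff.1 hq
    simp [R', hk, root_im g hi (root_lt g hs hk) hr, hk']
  have h23n : ((D.chainRoot s r 3).bind fun k => D.chainRoot k r 1) = none →
      ((D.chainRoot (c.im i s) (c.im i r) 3).bind fun k => D.chainRoot k (c.im i r) 1) = none := by
    intro hq
    rcases hk : D.chainRoot s r 3 with _ | k
    · simp [R', hk]
    · rw [hk] at hq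
      simp only [Option.bind_some] at hq
      simp [R', hk, root_im g hi (root_lt g hs hk) hr, hq]
  have v32 : ∀ w, w = r ∨ w = s → ((D.chainRoot (c.im i r) (c.im i s) 1).map fun k => D.chainM k (c.im i w) 2).getD 0
      = ((D.chainRoot r s 1).map fun k => D.chainM k w 2).getD 0 *
        (((D.chainRoot r s 1).bind fun k => (D.chainRoot k w 2).map fun q => c.sgn i q * c.sgn i w).getD 0) := by
    intro w hw
    have hwl : w < D.nroots := by rcases hw with rfl | rfl <;> assumption
    rcases hk : D.chainRoot r s 1 with _ | k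
    · simp [R, hk]
    · have hkl := root_lt g hr hk
      simp only [R, hk, Option.map_some, Option.getD_some, Option.bind_some, M_im0 g hi hkl hwl 1]
      rcases D.chainRoot k w 2 with _ | q
      · simp
      · simp [pow_two, e1]
  have main : ∀ l l' : List (Option ℕ × ℤ × ℕ × ℕ),
      List.Forall₂ (fun a b => (b.1.map fun k => (k, b.2)) = (a.1.map fun k => (k, a.2)).map (T c i r s)) l l' →
      (l'.filterMap fun q => q.1.map fun k => (k, q.2)) = (l.filterMap fun q => q.1.map fun k => (k, q.2)).map (T c i r s) := by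
    intro l l' h
    induction h with
    | nil => rfl
    | @cons x y l₁ l₂ hab _ ih =>
      rw [List.filterMap_cons, List.filterMap_cons, hab, ih]
      cases x.1.map (fun k => (k, x.2)) <;> simp
  have w : ∀ w, w = r ∨ w = s → ((D.chainRoot (c.im i r) (c.im i s) 1).bind fun k => D.chainRoot k (c.im i w) 2)
      = ((D.chainRoot r s 1).bind fun k => D.chainRoot k w 2).map (c.im i) := by
    intro w hw
    have hwl : w < D.nroots := by rcases hw with rfl | rfl <;> assumption
    rcases hk : D.chainRoot r s 1 with _ | k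
    · simp [R, hk]
    · simp [R, hk, root_im g hi (root_lt g hr hk) hwl]
  have dA : divA D (c.im i r) (c.im i s) = true := by
    simp only [divA, Bool.or_eq_true, Bool.and_eq_true, Option.isNone_iff_eq_none, decide_eq_true_eq] at hA ⊢
    rcases hq : (D.chainRoot r s 3).bind (fun k => D.chainRoot k s 1) with _ | q
    · exact Or.inl (h32n hq)
    · rw [hq] at hA
      obtain ⟨h, h'⟩ := hA.resolve_left (by simp)
      exact Or.inr ⟨by rw [v32 r (Or.inl rfl), Int.mul_emod, h]; simp,
        by rw [w r (Or.inl rfl), h', h32 q hq]; rfl⟩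
  have dB : divB D (c.im i r) (c.im i s) = true := by
    simp only [divB, Bool.or_eq_true, Bool.and_eq_true, Option.isNone_iff_eq_none, decide_eq_true_eq] at hB ⊢
    rcases hq : (D.chainRoot s r 3).bind (fun k => D.chainRoot k r 1) with _ | q
    · exact Or.inl (h23n hq)
    · rw [hq] at hB
      obtain ⟨h, h'⟩ := hB.resolve_left (by simp)
      exact Or.inr ⟨by rw [v32 s (Or.inr rfl), ← mul_assoc, Int.mul_emod, h]; simp,
        by rw [w s (Or.inr rfl), h', h23 q hq]; rfl⟩
  refine ⟨main _ _ ?_, dA, dB⟩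
  have simp1 : ∀ k, (D.chainRoot (c.im i r) (c.im i s) (k + 1)).map (fun q => (q, D.chainM (c.im i r) (c.im i s) (k + 1), k + 1, 1))
      = ((D.chainRoot r s (k + 1)).map fun q => (q, D.chainM r s (k + 1), k + 1, 1)).map (T c i r s) := by
    intro k
    rcases h : D.chainRoot r s (k + 1) with _ | q
    · simp [R, h]
    · simp [R, h, T, M_im g hi hr hs h]; ring
  refine .cons (simp1 0) (.cons (simp1 1) (.cons ?_ (.cons (simp1 2) (.cons ?_ (.cons ?_ (.cons ?_ .nil))))))
  · rcases h : D.chainRoot s r 2 with _ | q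
    · simp [R', h]
    · simp [R', h, T, M_im g hi hs hr h]; ring
  · rcases h : D.chainRoot s r 3 with _ | q
    · simp [R', h]
    · simp [R', h, T, M_im g hi hs hr h]; ring
  · rcases h : (D.chainRoot r s 3).bind (fun k => D.chainRoot k s 1) with _ | q
    · simp [h32n h]
    · simp only [divA, h, Option.isNone_some, Bool.false_or, Bool.and_eq_true, decide_eq_true_eq] at hA
      obtain ⟨k, hk, hk'⟩ := Option.bind_eq_some_iff.1 hA.2
      have hM := M_im g hi (root_lt g hr hk) hr (k := 1) hk'
      have hd : D.chainM k r 2 % 3 = 0 := by simpa [hk] using hA.1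
      rw [h32 q h]
      simp only [Option.map_some, T, R, hk, Option.getD_some]
      rw [hM]
      have : c.sgn i q * c.sgn i r * c.sgn i k ^ (1 + 1) = c.sgn i q * c.sgn i r ^ 3 * c.sgn i s ^ 2 := by
        simp [pow_succ, e1, mul_assoc]
      rw [mul_assoc, mul_assoc, ← mul_assoc (c.sgn i q), this, mul_comm (D.chainM k r (1 + 1)), ediv_sign hd, mul_comm]
  · rcases h : (D.chainRoot s r 3).bind (fun k => D.chainRoot k r 1) with _ | q
    · simp [h23n h]
    · simp only [divB, h, Option.isNone_some, Bool.false_or, Bool.and_eq_true, decide_eq_true_eq] at hB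
      obtain ⟨k, hk, hk'⟩ := Option.bind_eq_some_iff.1 hB.2
      have hM := M_im g hi (root_lt g hr hk) hs (k := 1) hk'
      have hd : (-2 * D.chainM k s 2) % 3 = 0 := by simpa [hk] using hB.1
      rw [h23 q h]
      simp only [Option.map_some, T, R, hk, Option.getD_some]
      rw [hM]
      have : c.sgn i q * c.sgn i s * c.sgn i k ^ (1 + 1) = c.sgn i q * c.sgn i r ^ 2 * c.sgn i s ^ 3 := by
        simp [pow_succ, e1, mul_assoc]
      rw [mul_assoc (D.chainM k s (1+1)), mul_assoc (D.chainM k s (1+1)), this, ← mul_assoc (-2 : ℤ), mul_comm (-2 * D.chainM k s (1 + 1)), ediv_sign hd, mul_comm]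

end Cfsg.Agent.Chev.Comm
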