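import Cfsg.Agent.Chev.Simple

set_option autoImplicit false
attribute [-simp] Array.getD_eq_getD_getElem?

namespace Cfsg.Agent.Chev.Tits

open Cfsg.Lie Matrix Cfsg.Agent.Chev.Comm

variable {D : ChevalleyDatum} {c : Cert} {F : Type*} [Field F] (G : TGood D c)
include G

/-- An element of `HU` some power of which differs from `1` by a nilpotent has trivial `H`-part. -/
theorem H_part_one {h u m : GL D.Idx F} (hh : h ∈ D.diagonalSubgroup F) (hu : u ∈ D.posUnipotent F)
    (hm : IsNilpotent ((m : Matrix D.Idx D.Idx F) - 1)) (e : h * u = m) : h = 1 := by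
  obtain ⟨χ, hχ, -⟩ := H_char G.good hh
  obtain ⟨N, hN⟩ := hm
  set A := (m : Matrix D.Idx D.Idx F) - 1 with hA
  have hr : Raise D F c.half 1 ((u : Matrix D.Idx D.Idx F) - 1) := U_le G.good.datum hu
  have hd : ∀ i j, A i j ≠ 0 → i ≠ j → lev D c.half j < lev D c.half i := by
    intro i j hne hij
    have h1 : A i j = (Sum.elim (fun _ => (1 : F)) (fun v : Fin D.nroots => χ v.val)) i * ((u : Matrix D.Idx D.Idx F) - 1) i j := by
      rw [hA, ← e, Units.val_mul, hχ, dg, Matrix.sub_apply, Matrix.one_apply_ne hij, sub_zero, diagonal_mul,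
        Matrix.sub_apply, Matrix.one_apply_ne hij, sub_zero]
    rw [h1] at hne
    exact hr i j (right_ne_zero_of_mul hne)
  have udiag : ∀ i, (u : Matrix D.Idx D.Idx F) i i = 1 := by
    intro i
    by_contra hne
    have := hr i i (by rw [Matrix.sub_apply, Matrix.one_apply_eq]; exact sub_ne_zero.2 hne)
    omega
  have hdiag : ∀ i, A i i = (Sum.elim (fun _ => (1 : F)) (fun v : Fin D.nroots => χ v.val)) i - 1 := by
    intro i
    rw [hA, ← e, Units.val_mul, hχ, dg, Matrix.sub_apply, Matrix.one_apply_eq, diagonal_mul, udiag, mul_one]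
  have pow : ∀ n, (∀ i j, (A ^ n) i j ≠ 0 → i ≠ j → lev D c.half j < lev D c.half i) ∧ ∀ i, (A ^ n) i i = A i i ^ n := by
    intro n
    induction n with
    | zero => exact ⟨fun i j hne hij => absurd (by simp [Matrix.one_apply_ne hij]) hne, fun i => by simp⟩
    | succ n ih =>
      constructor
      · intro i j hne hij
        rw [pow_succ, Matrix.mul_apply] at hne
        obtain ⟨k, -, hk⟩ := Finset.exists_ne_zero_of_sum_ne_zero hne
        have a := left_ne_zero_of_mul hk
        have b := right_ne_zero_of_mul hk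
        by_cases hik : i = k
        · subst hik; exact hd _ _ b hij
        · have := ih.1 i k a hik
          by_cases hkj : k = j
          · subst hkj; exact this
          · exact lt_trans (hd _ _ b hkj) this
      · intro i
        rw [pow_succ, Matrix.mul_apply, Finset.sum_eq_single i, ih.2, pow_succ]
        · intro k _ hk
          by_contra hne
          have := ih.1 i k (left_ne_zero_of_mul hne) (Ne.symm hk)
          have := hd k i (right_ne_zero_of_mul hne) hk
          omega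
        · intro h; exact absurd (Finset.mem_univ i) h
  apply Units.ext
  rw [hχ, Units.val_one, dg, ← diagonal_one]
  congr 1
  funext i
  have h0 := (pow N).2 i
  rw [hN, Matrix.zero_apply, hdiag] at h0
  exact sub_eq_zero.1 (eq_zero_of_pow_eq_zero h0.symm)

theorem conj_in_N (h1 : D.borelSubgroup F ≤ D.group F) (h2 : D.monomialSubgroup F ≤ D.group F)
    (h3 : D.borelSubgroup F ⊔ D.monomialSubgroup F = D.group F) {a b g : GL D.Idx F}
    (ha : a ∈ D.diagonalSubgroup F) (hb : b ∈ D.diagonalSubgroup F) (hg : g ∈ D.group F) (hc : g * a * g⁻¹ = b) :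
    ∃ n ∈ D.monomialSubgroup F, n * a * n⁻¹ = b := by
  obtain ⟨P, hB, hN, -⟩ := exists_pair G h1 h2 h3
  obtain ⟨n, hn, hcell⟩ := Cfsg.Agent.BN.bruhat P ⟨g, hg⟩
  obtain ⟨x, hx, y, hy, e⟩ := (Cfsg.Agent.BN.mem_cell P).1 hcell
  rw [hB, Subgroup.mem_subgroupOf] at hx hy
  rw [hN, Subgroup.mem_subgroupOf] at hn
  obtain ⟨n, hnG⟩ := n
  obtain ⟨u, hu, h, hh, ex⟩ := (mem_B G.good).1 hx
  obtain ⟨v, hv, k, hk, ey⟩ := (mem_B G.good).1 hy
  have e' : g = (u * h) * n * (v * k) := by
    rw [ex, ey]; exact congrArg Subtype.val e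
  have hab : ∀ x ∈ D.diagonalSubgroup F, ∀ y ∈ D.diagonalSubgroup F, x * y = y * x := by
    intro x hx y hy
    obtain ⟨χ, e1, -⟩ := H_char G.good hx
    obtain ⟨ψ, e2, -⟩ := H_char G.good hy
    apply Units.ext
    rw [Units.val_mul, Units.val_mul, e1, e2, dg, dg, diagonal_mul_diagonal, diagonal_mul_diagonal]
    congr 1; funext i; exact mul_comm _ _
  -- move the torus parts to the middle
  have hbH := (Subgroup.mem_normalizer_iff.1 (H_norm_U G.good hb) u).1 hu
  set u1 := b⁻¹ * u⁻¹ * b * u with hu1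
  have hu1U : u1 ∈ D.posUnipotent F := by
    have := (Subgroup.mem_normalizer_iff.1 (H_norm_U G.good (inv_mem hb)) u⁻¹).1 (inv_mem hu)
    rw [inv_inv] at this
    exact mul_mem this hu
  have hv1 : a * v * a⁻¹ * v⁻¹ ∈ D.posUnipotent F :=
    mul_mem ((Subgroup.mem_normalizer_iff.1 (H_norm_U G.good ha) v).1 hv) (inv_mem hv)
  set w := h * n with hw
  have hwN : w ∈ D.monomialSubgroup F :=
    mul_mem (by rw [ChevalleyDatum.monomialSubgroup]; exact Subgroup.mem_sup_left hh) hn
  have eg : w * (v * a * v⁻¹) * w⁻¹ = u⁻¹ * b * u := by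
    rw [← hc, e', hw]
    have := hab k hk a ha
    calc h * n * (v * a * v⁻¹) * (h * n)⁻¹ = h * n * (v * (a * (k * k⁻¹)) * v⁻¹) * (h * n)⁻¹ := by group
      _ = h * n * (v * ((k * a) * k⁻¹) * v⁻¹) * (h * n)⁻¹ := by rw [← mul_assoc a, ← this]
      _ = _ := by group
  have hh2 : w⁻¹ * b⁻¹ * w ∈ D.diagonalSubgroup F := norm_H' G hwN (inv_mem hb)
  refine ⟨w, hwN, ?_⟩
  -- the element `(w⁻¹ b⁻¹ w) a` times a unipotent is conjugate to the unipotent `u1`
  have key : (w⁻¹ * b⁻¹ * w * a) * (a⁻¹ * v * a * v⁻¹) = w⁻¹ * u1 * w := by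
    calc _ = w⁻¹ * b⁻¹ * (w * (v * a * v⁻¹) * w⁻¹) * w := by group
      _ = _ := by rw [eg, hu1]; group
  have hv2 : a⁻¹ * v * a * v⁻¹ ∈ D.posUnipotent F := by
    have := (Subgroup.mem_normalizer_iff.1 (H_norm_U G.good (inv_mem ha)) v).1 hv
    rw [inv_inv] at this
    exact mul_mem this (inv_mem hv)
  have hnil : IsNilpotent (((w⁻¹ * u1 * w : GL D.Idx F) : Matrix D.Idx D.Idx F) - 1) := by
    refine ⟨2 * c.half + 1, ?_⟩
    have hr : Raise D F c.half 1 ((u1 : Matrix D.Idx D.Idx F) - 1) := U_le G.good.datum hu1U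
    have hz : ((u1 : Matrix D.Idx D.Idx F) - 1) ^ (2 * c.half + 1) = 0 :=
      Raise.eq_zero (nroots_eq G.good.datum) (by omega) (hr.pow _)
    have : ((w⁻¹ * u1 * w : GL D.Idx F) : Matrix D.Idx D.Idx F) - 1 =
        ((w⁻¹ : GL D.Idx F) : Matrix D.Idx D.Idx F) * ((u1 : Matrix D.Idx D.Idx F) - 1) * (w : Matrix D.Idx D.Idx F) := by
      rw [Units.val_mul, Units.val_mul, mul_sub, sub_mul, mul_one, ← Units.val_mul w⁻¹ w, inv_mul_cancel, Units.val_one]
    rw [this, Units.conj_pow', hz, mul_zero, zero_mul]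
  have h1' := H_part_one G (mul_mem hh2 ha) hv2 hnil key
  calc w * a * w⁻¹ = b * (w * (w⁻¹ * b⁻¹ * w * a) * w⁻¹) := by group
    _ = b := by rw [h1']; group

end Cfsg.Agent.Chev.Tits
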