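import Cfsg.Agent.Chev.TitsCheck

set_option autoImplicit false

namespace Cfsg.Agent.Chev.Tits

open Cfsg.Lie

/-- Coset representatives on one level, with their marks and multiplication table. -/
structure Lev where
  reps : List (List ℕ)
  marks : List (List ℤ)
  table : List (List (ℕ × ℕ))

/-- A coordinate of a coroot. -/
def cor (D : ChevalleyDatum) (s k : ℕ) : ℤ := (D.coroot.getD s #[]).getD k 0

/-- The image of a root under a word. -/
def wimB (c : Cert) (L : List ℕ) (s : ℕ) : ℕ := L.foldr (fun i v => c.im i v) s

/-- Every letter of a representative raises the length, outside the smaller parabolic. -/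
def goodB (D : ChevalleyDatum) (c : Cert) (k : ℕ) : List ℕ → Bool
  | [] => true
  | i :: t => Nat.ble i k && Nat.ble c.half (wimB c t.reverse (D.simple i)) &&
      decide (cor D (wimB c t.reverse (D.simple i)) k ≠ 0) && goodB D c k t

/-- The marks of a representative. -/
def markOf (D : ChevalleyDatum) (c : Cert) (k : ℕ) (r : List ℕ) : List ℤ :=
  (List.range D.rank).map fun m => cor D (wimB c r.reverse (D.simple m)) k

/-- Lists of marks are pairwise different. -/
def nodupM : List (List ℤ) → Bool
  | [] => true
  | a :: l => l.all (fun b => !decide (a = b)) && nodupM l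

/-- The checks on one level. -/
def levOK (D : ChevalleyDatum) (c : Cert) (k : ℕ) (V : Lev) : Bool :=
  Nat.blt k D.rank && V.reps.all (fun r => goodB D c k r) && decide (V.reps.getD 0 [0] = []) &&
  decide (V.reps.map (markOf D c k) = V.marks) && nodupM V.marks &&
  (List.range V.reps.length).all fun a => (List.range (k + 1)).all fun i =>
    let e := (V.table.getD a []).getD i (V.reps.length, 0)
    Nat.blt e.1 V.reps.length && (List.range D.rank).all fun m =>
      Nat.beq (wimB c (i :: V.reps.getD a []) (D.simple m))
        (wimB c (V.reps.getD e.1 [] ++ (bif Nat.blt e.2 k then [e.2] else [])) (D.simple m))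

/-- The coroots of the fundamental roots are the unit vectors. -/
def corSimpleOK (D : ChevalleyDatum) : Bool :=
  (List.range D.rank).all fun m => (List.range D.rank).all fun j =>
    decide (cor D (D.simple m) j = if m = j then 1 else 0)

/-- All the words built from the first `k` levels. -/
def combos (Ls : ℕ → Lev) : ℕ → List (List ℕ)
  | 0 => [[]]
  | k + 1 => (Ls k).reps.flatMap fun r => (combos Ls k).map fun w => r ++ w

end Cfsg.Agent.Chev.Tits
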