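import Cfsg.Agent.Chev.Cells
import Cfsg.Agent.Chev.RepCheck

set_option autoImplicit false
attribute [-simp] Array.getD_eq_getD_getElem?

namespace Cfsg.Agent.Chev.Tits

open Cfsg.Lie Matrix Cfsg.Agent.Chev.Comm

variable {D : ChevalleyDatum} {c : Cert} {F : Type*} [Field F] (G : TGood D c)
include G

theorem cor_simple (hc : corSimpleOK D = true) :
    ∀ m < D.rank, ∀ j < D.rank, (D.coroot.getD (D.simple m) #[]).getD j 0 = if m = j then 1 else 0 := by
  intro m hm j hj
  simp only [corSimpleOK, List.all_eq_true, List.mem_range, decide_eq_true_eq] at hc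
  exact hc m hm j hj

omit G in
theorem good_letters : ∀ (k : ℕ) (r : List ℕ), goodB D c k r = true → ∀ j ∈ r, j ≤ k := by
  intro k r
  induction r with
  | nil => intro _ j hj; simp at hj
  | cons i t ih =>
    intro h j hj
    simp only [goodB, Bool.and_eq_true, Nat.ble_eq] at h
    rcases List.mem_cons.1 hj with rfl | hj
    exacts [h.1.1.1, ih h.2 j hj]

omit G in
theorem combos_lt (Ls : ℕ → Lev) : ∀ k, (∀ m < k, levOK D c m (Ls m) = true) →
    ∀ w ∈ combos Ls k, ∀ j ∈ w, j < k := by
  intro k
  induction k with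
  | zero => intro _ w hw j hj; simp [combos] at hw; subst hw; simp at hj
  | succ k ih =>
    intro h w hw j hj
    simp only [combos, List.mem_flatMap, List.mem_map] at hw
    obtain ⟨r, hr, w', hw', rfl⟩ := hw
    have hk := h k (by omega)
    simp only [levOK, Bool.and_eq_true, List.all_eq_true] at hk
    rcases List.mem_append.1 hj with hj | hj
    · have := good_letters k r (hk.1.1.1.1.2 r hr) j hj; omega
    · have := ih (fun m hm => h m (by omega)) w' hw' j hj; omega

omit G in
theorem nodupM_sound : ∀ l : List (List ℤ), nodupM l = true → l.Nodup := by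
  intro l
  induction l with
  | nil => intro _; exact List.nodup_nil
  | cons a l ih =>
    intro h
    simp only [nodupM, Bool.and_eq_true, List.all_eq_true, Bool.not_eq_true', decide_eq_false_iff_not] at h
    exact List.nodup_cons.2 ⟨fun hm => h.1 a hm rfl, ih h.2⟩

theorem cor_keep {k : ℕ} (hk : k < D.rank) : ∀ L : List ℕ, (∀ j ∈ L, j < k) → ∀ s < D.nroots,
    cor D (wim c L s) k = cor D s k := by
  intro L
  induction L with
  | nil => intro _ s _; rfl
  | cons i L ih =>
    intro hL s hs
    have hi := hL i (by simp)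
    have hL' : ∀ j ∈ L, j < D.rank := fun j hj => lt_trans (hL j (List.mem_cons_of_mem _ hj)) hk
    show cor D (c.im i (wim c L s)) k = _
    unfold cor
    rw [(G.good.refl (lt_trans hi hk) (wim_lt G L hL' s hs)).coroot_im k hk, if_neg (by omega), sub_zero]
    exact ih (fun j hj => hL j (List.mem_cons_of_mem _ hj)) s hs

theorem pos_keep (hcs : corSimpleOK D = true) {k : ℕ} (hk : k < D.rank) : ∀ L : List ℕ, (∀ j ∈ L, j < k) →
    ∀ s < D.nroots, cor D s k ≠ 0 → c.half ≤ s → c.half ≤ wim c L s := by
  intro L
  induction L with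
  | nil => intro _ s _ _ h; exact h
  | cons i L ih =>
    intro hL s hs hne hp
    have hi := hL i (by simp)
    have hL' : ∀ j ∈ L, j < D.rank := fun j hj => lt_trans (hL j (List.mem_cons_of_mem _ hj)) hk
    have hLk : ∀ j ∈ L, j < k := fun j hj => hL j (List.mem_cons_of_mem _ hj)
    refine G.im_pos (lt_trans hi hk) (wim_lt G L hL' s hs) (ih hLk s hs hne hp) fun e => hne ?_
    have h1 := cor_keep G hk L hLk s hs
    rw [← h1]
    show cor D (wim c L s) k = 0
    rw [show wim c L s = D.simple i from e]
    unfold cor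
    rw [cor_simple G hcs i (lt_trans hi hk) k hk, if_neg (by omega)]

theorem combos_good (hcs : corSimpleOK D = true) (Ls : ℕ → Lev) : ∀ k, k ≤ D.rank →
    (∀ m < k, levOK D c m (Ls m) = true) → ∀ w ∈ combos Ls k, GoodW D c w := by
  intro k
  induction k with
  | zero => intro _ _ w hw; simp [combos] at hw; subst hw; trivial
  | succ k ih =>
    intro hk h w hw
    simp only [combos, List.mem_flatMap, List.mem_map] at hw
    obtain ⟨r, hr, w', hw', rfl⟩ := hw
    have hlev := h k (by omega)
    simp only [levOK, Bool.and_eq_true, List.all_eq_true] at hlev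
    have hgood := hlev.1.1.1.1.2 r hr
    have hW := ih (by omega) (fun m hm => h m (by omega)) w' hw'
    have hlt := combos_lt Ls k (fun m hm => h m (by omega)) w' hw'
    clear hr
    induction r with
    | nil => exact hW
    | cons i t iht =>
      simp only [goodB, Bool.and_eq_true, Nat.ble_eq, decide_eq_true_eq] at hgood
      obtain ⟨⟨⟨h1, h2⟩, h3⟩, h4⟩ := hgood
      have hi : i < D.rank := by omega
      refine ⟨hi, ?_, iht h4⟩
      show c.half ≤ wim c (t ++ w').reverse _
      rw [List.reverse_append, wim_append G]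
      have ht : ∀ j ∈ t.reverse, j < D.rank := fun j hj => by
        have := good_letters k t h4 j (List.mem_reverse.1 hj); omega
      exact pos_keep G hcs (by omega) w'.reverse (fun j hj => hlt j (List.mem_reverse.1 hj)) _
        (wim_lt G t.reverse ht _ (G.good.simple hi).lt) h3 h2

theorem eqv_trans {L1 L2 L3 : List ℕ} (h : Eqv G.good F L1 L2) (h' : Eqv G.good F L2 L3) : Eqv G.good F L1 L3 := by
  have := mul_mem h' h
  rwa [show (wp G.good F L3)⁻¹ * wp G.good F L2 * ((wp G.good F L2)⁻¹ * wp G.good F L1) = (wp G.good F L3)⁻¹ * wp G.good F L1 by group] at this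

theorem eqv_left (P : List ℕ) {L L' : List ℕ} (h : Eqv G.good F L L') : Eqv G.good F (P ++ L) (P ++ L') := by
  show _ ∈ _
  rw [wp_append G, wp_append G]
  rwa [show (wp G.good F P * wp G.good F L')⁻¹ * (wp G.good F P * wp G.good F L) = (wp G.good F L')⁻¹ * wp G.good F L by group]

theorem eqv_right (w : List ℕ) (hw : ∀ j ∈ w, j < D.rank) {L L' : List ℕ} (h : Eqv G.good F L L') :
    Eqv G.good F (L ++ w) (L' ++ w) := by
  show _ ∈ _
  rw [wp_append G, wp_append G]
  rw [show (wp G.good F L' * wp G.good F w)⁻¹ * (wp G.good F L * wp G.good F w) =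
    (wp G.good F w)⁻¹ * ((wp G.good F L')⁻¹ * wp G.good F L) * wp G.good F w by group]
  exact norm_H' G (wp_mem_N G w hw) h

theorem combos_closed (hrev : revOK D = true) (hcs : corSimpleOK D = true) (Ls : ℕ → Lev) : ∀ k, k ≤ D.rank →
    (∀ m < k, levOK D c m (Ls m) = true) → ∀ i < k, ∀ w ∈ combos Ls k,
      ∃ w' ∈ combos Ls k, Eqv G.good F (i :: w) w' := by
  intro k
  induction k with
  | zero => intro _ _ i hi; omega
  | succ k ih =>
    intro hk h i hi w hw
    simp only [combos, List.mem_flatMap, List.mem_map] at hw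
    obtain ⟨r, hr, w', hw', rfl⟩ := hw
    have hlev := h k (by omega)
    simp only [levOK, Bool.and_eq_true, List.all_eq_true, List.mem_range, Nat.blt_eq] at hlev
    have hg := hlev.1.1.1.1.2
    obtain ⟨a, ha, rfl⟩ := List.getElem_of_mem hr
    obtain ⟨hb, hm⟩ := hlev.2 a ha i (by omega)
    set e := (((Ls k).table.getD a []).getD i ((Ls k).reps.length, 0))
    rw [List.getD_eq_getElem _ _ ha, List.getD_eq_getElem _ _ hb] at hm
    have hlt' := combos_lt Ls k (fun m hm => h m (by omega)) w' hw'
    have hRb := hg _ (List.getElem_mem hb)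
    have hopt : ∀ j ∈ (bif Nat.blt e.2 k then [e.2] else []), j < k := by
      intro j hj
      cases hcase : Nat.blt e.2 k with
      | false => rw [hcase] at hj; simp at hj
      | true => rw [hcase] at hj; simp at hj; subst hj; simpa using hcase
    have heq : Eqv G.good F (i :: (Ls k).reps[a]) ((Ls k).reps[e.1] ++ (bif Nat.blt e.2 k then [e.2] else [])) := by
      refine eqv_of_simple G hrev (cor_simple G hcs) ?_ ?_ fun m hm' => Nat.eq_of_beq_eq_true (hm m hm')
      · intro j hj
        rcases List.mem_cons.1 hj with rfl | hj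
        · omega
        · have := good_letters k _ (hg _ (List.getElem_mem ha)) j hj; omega
      · intro j hj
        rcases List.mem_append.1 hj with hj | hj
        · have := good_letters k _ hRb j hj; omega
        · have := hopt j hj; omega
    have e1 := eqv_right G w' (fun j hj => by have := hlt' j hj; omega) heq
    cases hcase : Nat.blt e.2 k with
    | false =>
      rw [hcase] at e1
      refine ⟨(Ls k).reps[e.1] ++ w', ?_, by simpa using e1⟩
      simp only [combos, List.mem_flatMap, List.mem_map]
      exact ⟨_, List.getElem_mem hb, w', hw', rfl⟩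
    | true =>
      rw [hcase] at e1
      obtain ⟨w'', hw'', e2⟩ := ih (by omega) (fun m hm => h m (by omega)) e.2 (by simpa using hcase) w' hw'
      refine ⟨(Ls k).reps[e.1] ++ w'', ?_, ?_⟩
      · simp only [combos, List.mem_flatMap, List.mem_map]
        exact ⟨_, List.getElem_mem hb, w'', hw'', rfl⟩
      · have e3 := eqv_left G (Ls k).reps[e.1] e2
        simp only [cond_true, List.append_assoc, List.singleton_append, List.cons_append] at e1 ⊢
        exact eqv_trans G e1 e3

theorem combos_inj (hrev : revOK D = true) (Ls : ℕ → Lev) : ∀ k, k ≤ D.rank → (∀ m < k, levOK D c m (Ls m) = true) →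
    (combos Ls k).Pairwise (fun w w' => ¬ Eqv G.good F w w') := by
  intro k
  induction k with
  | zero => intro _ _; simp [combos]
  | succ k ih =>
    intro hk h
    have hlev := h k (by omega)
    simp only [levOK, Bool.and_eq_true, List.all_eq_true, decide_eq_true_eq] at hlev
    have hg := hlev.1.1.1.1.2
    have hnd : ((Ls k).reps.map (markOf D c k)).Nodup := by rw [hlev.1.1.2]; exact nodupM_sound _ hlev.1.2
    have hlt := combos_lt Ls k (fun m hm => h m (by omega))
    have hr : ∀ r ∈ (Ls k).reps, ∀ j ∈ r, j < D.rank := fun r hr j hj => by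
      have := good_letters k r (hg r hr) j hj; omega
    rw [combos, List.pairwise_flatMap]
    refine ⟨fun r hrm => ?_, ?_⟩
    · rw [List.pairwise_map]
      refine (ih (by omega) fun m hm => h m (by omega)).imp fun {w w'} hne he => hne ?_
      have := he
      simp only [Eqv, wp_append G] at this
      show _ ∈ _
      rwa [show (wp G.good F r * wp G.good F w')⁻¹ * (wp G.good F r * wp G.good F w) = (wp G.good F w')⁻¹ * wp G.good F w by group] at this
    · rw [List.Nodup, List.pairwise_map] at hnd
      refine hnd.imp_of_mem fun {r r'} hr1 hr2 hne x hx y hy he => hne ?_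
      obtain ⟨w, hw, rfl⟩ := List.mem_map.1 hx
      obtain ⟨w', hw', rfl⟩ := List.mem_map.1 hy
      unfold markOf
      apply List.map_congr_left
      intro m hm
      rw [List.mem_range] at hm
      have hsm := (G.good.simple hm).lt
      have := (eqv_wim G hrev (L := r ++ w) (L' := r' ++ w') (by
          intro j hj; rcases List.mem_append.1 hj with hj | hj
          exacts [hr r hr1 j hj, by have := hlt w hw j hj; omega]) (by
          intro j hj; rcases List.mem_append.1 hj with hj | hj
          exacts [hr r' hr2 j hj, by have := hlt w' hw' j hj; omega]) he hsm).2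
      rw [List.reverse_append, List.reverse_append, wim_append G, wim_append G] at this
      have k1 := cor_keep G (k := k) (by omega) w.reverse (fun j hj => hlt w hw j (List.mem_reverse.1 hj)) _
        (wim_lt G r.reverse (fun j hj => hr r hr1 j (List.mem_reverse.1 hj)) _ hsm)
      have k2 := cor_keep G (k := k) (by omega) w'.reverse (fun j hj => hlt w' hw' j (List.mem_reverse.1 hj)) _
        (wim_lt G r'.reverse (fun j hj => hr r' hr2 j (List.mem_reverse.1 hj)) _ hsm)
      rw [this] at k1
      exact k1.symm.trans k2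

theorem word_in_combos (hrev : revOK D = true) (hcs : corSimpleOK D = true) (Ls : ℕ → Lev)
    (h : ∀ m < D.rank, levOK D c m (Ls m) = true) : ∀ L : List ℕ, (∀ j ∈ L, j < D.rank) →
    ∃ w ∈ combos Ls D.rank, Eqv G.good F L w := by
  have nil : ∀ k, (∀ m < k, levOK D c m (Ls m) = true) → ([] : List ℕ) ∈ combos Ls k := by
    intro k
    induction k with
    | zero => intro _; simp [combos]
    | succ k ih =>
      intro h
      have hlev := h k (by omega)
      simp only [levOK, Bool.and_eq_true, decide_eq_true_eq] at hlev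
      simp only [combos, List.mem_flatMap, List.mem_map]
      have h0 := hlev.1.1.1.2
      refine ⟨[], ?_, [], ih (fun m hm => h m (by omega)), rfl⟩
      cases hl : (Ls k).reps with
      | nil => rw [hl] at h0; simp at h0
      | cons a l => rw [hl] at h0; simp at h0; simp [h0]
  intro L
  induction L with
  | nil => intro _; exact ⟨[], nil _ h, by simp [Eqv]⟩
  | cons i L ih =>
    intro hL
    obtain ⟨w, hw, e⟩ := ih fun j hj => hL j (List.mem_cons_of_mem _ hj)
    obtain ⟨w', hw', e'⟩ := combos_closed (F := F) G hrev hcs Ls D.rank le_rfl h i (hL i (by simp)) w hw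
    exact ⟨w', hw', eqv_trans G (eqv_left G [i] e) e'⟩

omit G in
theorem combos_sum (q : ℕ) (Ls : ℕ → Lev) : ∀ k, ((combos Ls k).map fun w => q ^ w.length).sum =
    ∏ m ∈ Finset.range k, (((Ls m).reps).map fun r => q ^ r.length).sum := by
  intro k
  induction k with
  | zero => simp [combos]
  | succ k ih =>
    rw [Finset.prod_range_succ, ← ih, combos]
    induction (Ls k).reps with
    | nil => simp
    | cons r R ihR =>
      simp only [List.flatMap_cons, List.map_append, List.sum_append, ihR, List.map_cons, List.sum_cons, List.map_map,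
        Function.comp_def, List.length_append, pow_add, List.sum_map_mul_left]
      ring

theorem card_group [Fintype F] (hrev : revOK D = true) (hcs : corSimpleOK D = true) (Ls : ℕ → Lev)
    (h : ∀ m < D.rank, levOK D c m (Ls m) = true) (h1 : D.borelSubgroup F ≤ D.group F)
    (h2 : D.monomialSubgroup F ≤ D.group F) (h3 : D.borelSubgroup F ⊔ D.monomialSubgroup F = D.group F) :
    Nat.card ↥(D.group F) =
      (∏ m ∈ Finset.range D.rank, (((Ls m).reps).map fun r => Fintype.card F ^ r.length).sum) *
        Nat.card ↥(D.borelSubgroup F) := by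
  classical
  set C := combos Ls D.rank
  have hinj := combos_inj (F := F) G hrev Ls D.rank le_rfl h
  have hlt := combos_lt Ls D.rank h
  let f : (Σ i : Fin C.length, ↥(CC D F (wp G.good F C[i]))) → ↥(D.group F) := fun z => ⟨z.2.1, by
    obtain ⟨a, ha, b, hb, e⟩ := z.2.2
    rw [e]
    exact mul_mem (mul_mem (h1 ha) (h2 (wp_mem_N G _ (hlt _ (List.getElem_mem _))))) (h1 hb)⟩
  have hb : Function.Bijective f := by
    constructor
    · rintro ⟨i, x, hx⟩ ⟨j, y, hy⟩ e
      have e' : x = y := congrArg Subtype.val e
      subst e'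
      have hH := CC_inj G h1 h2 h3 (wp_mem_N G _ (hlt _ (List.getElem_mem i.2))) (wp_mem_N G _ (hlt _ (List.getElem_mem j.2))) hx hy
      have hij : i = j := by
        rcases lt_trichotomy i.val j.val with hl | hl | hl
        · exact absurd hH (List.pairwise_iff_getElem.1 hinj i j i.2 j.2 hl)
        · exact Fin.ext hl
        · have h' := inv_mem hH
          rw [_root_.mul_inv_rev, inv_inv] at h'
          exact absurd h' (List.pairwise_iff_getElem.1 hinj j i j.2 i.2 hl)
      subst hij; rfl
    · rintro ⟨x, hx⟩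
      obtain ⟨P, hB, hN, -⟩ := exists_pair G h1 h2 h3
      obtain ⟨n, hn, hc⟩ := Cfsg.Agent.BN.bruhat P ⟨x, hx⟩
      obtain ⟨a, ha, b, hb, e⟩ := (Cfsg.Agent.BN.mem_cell P).1 hc
      rw [hB, Subgroup.mem_subgroupOf] at ha hb
      rw [hN, Subgroup.mem_subgroupOf] at hn
      obtain ⟨k, hk, L, hL, en⟩ := N_word G hn
      obtain ⟨w, hw, ew⟩ := word_in_combos (F := F) G hrev hcs Ls h L hL
      obtain ⟨i, hi, rfl⟩ := List.getElem_of_mem hw
      refine ⟨⟨⟨i, hi⟩, ⟨x, ?_⟩⟩, rfl⟩
      show x ∈ CC D F (wp G.good F C[i])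
      rw [← CC_eqv G ew]
      refine ⟨(a : GL D.Idx F) * k, mul_mem ha (H_mem_B G hk), (b : GL D.Idx F), hb, ?_⟩
      have e' : x = (a : GL D.Idx F) * n * b := congrArg Subtype.val e
      rw [e', en]; group
  rw [← Nat.card_eq_of_bijective f hb, Nat.card_sigma]
  rw [Finset.sum_congr rfl fun i _ => CC_card G h1 h2 h3 _ (combos_good G hcs Ls D.rank le_rfl h _ (List.getElem_mem i.2)),
    ← Finset.sum_mul, Nat.card_eq_fintype_card (α := F), ← combos_sum]
  congr 1
  exact Fin.sum_univ_fun_getElem C (fun w => Fintype.card F ^ w.length)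

theorem card_borel [Fintype F] :
    Nat.card ↥(D.borelSubgroup F) = Nat.card ↥(D.posUnipotent F) * Nat.card ↥(D.diagonalSubgroup F) := by
  let f : ↥(D.posUnipotent F) × ↥(D.diagonalSubgroup F) → ↥(D.borelSubgroup F) := fun z =>
    ⟨z.1.1 * z.2.1, mul_mem (Subgroup.mem_sup_left z.1.2) (Subgroup.mem_sup_right z.2.2)⟩
  have hb : Function.Bijective f := by
    constructor
    · rintro ⟨⟨u, hu⟩, ⟨h, hh⟩⟩ ⟨⟨u', hu'⟩, ⟨h', hh'⟩⟩ e
      have e' : u * h = u' * h' := congrArg Subtype.val e
      have k1 : u'⁻¹ * u = h' * h⁻¹ := by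
        calc u'⁻¹ * u = u'⁻¹ * (u * h) * h⁻¹ := by group
          _ = _ := by rw [e']; group
      have k2 := U_H G.good (mul_mem (inv_mem hu') hu) (k1 ▸ mul_mem hh' (inv_mem hh))
      have : u = u' := (inv_mul_eq_one.1 k2).symm
      subst this
      simp [mul_left_cancel e']
    · rintro ⟨x, hx⟩
      obtain ⟨u, hu, h, hh, e⟩ := (mem_B G.good).1 hx
      exact ⟨⟨⟨u, hu⟩, ⟨h, hh⟩⟩, Subtype.ext e⟩
  rw [← Nat.card_eq_of_bijective f hb, Nat.card_prod]

end Cfsg.Agent.Chev.Tits
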