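import Cfsg.Agent.Chev.CoverCheck
import Cfsg.Agent.Chev.Comm
import Cfsg.Prelude.Def_SteinbergCover

set_option autoImplicit false
attribute [-simp] Array.getD_eq_getD_getElem?

namespace Cfsg.Agent.Chev.Cover

open Cfsg.Lie

variable {D : ChevalleyDatum} {K : Type*} [Field K]

/-- The image of a generator in the largest abelian quotient. -/
noncomputable def T (D : ChevalleyDatum) (K : Type*) [Field K] (r : ℕ) (t : K) :
    Abelianization (D.SteinbergCover K) :=
  Abelianization.of (D.scGen K r t)

theorem T_add {r : ℕ} (hr : r < D.nroots) (t u : K) : T D K r t * T D K r u = T D K r (t + u) := by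
  simp only [T, ChevalleyDatum.scGen, ← map_mul]
  refine congrArg _ ?_
  rw [← mul_inv_eq_one, ← map_inv, ← map_mul]
  exact PresentedGroup.one_of_mem (Or.inl ⟨r, t, u, hr, rfl⟩)

theorem T_word : ∀ L : List (ℕ × K),
    Abelianization.of (PresentedGroup.mk (D.steinbergRelsAB K) (D.stWord L)) = (L.map fun p => T D K p.1 p.2).prod := by
  intro L
  induction L with
  | nil => simp [ChevalleyDatum.stWord]
  | cons p L ih =>
    simp only [ChevalleyDatum.stWord, List.map_cons, List.prod_cons, map_mul] at ih ⊢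
    rw [ih]; rfl

theorem rel {r s : ℕ} (hr : r < D.nroots) (hs : s < D.nroots) (h1 : s ≠ r) (h2 : s ≠ D.neg r) (t u : K) :
    ((D.commWord K r s t u).map fun p => T D K p.1 p.2).prod = 1 := by
  have h := PresentedGroup.one_of_mem (rels := D.steinbergRelsAB K) (Or.inr ⟨r, s, t, u, hr, hs, h1, h2, rfl⟩)
  have h' := congrArg Abelianization.of h
  simp only [map_mul, map_inv, map_one, T_word] at h'
  rw [inv_mul_cancel_comm, inv_mul_cancel, one_mul, inv_eq_one] at h'
  exact h'

theorem of_hit1 {q r : ℕ} (hr : r < D.nroots) (h : hit1 D q r = true) (t : K) : T D K q t = 1 := by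
  simp only [hit1, List.any_eq_true, Bool.and_eq_true, Bool.not_eq_true', Nat.blt_eq] at h
  obtain ⟨e, -, ⟨⟨⟨-, hs⟩, h1⟩, h2⟩, hm⟩ := h
  split at hm
  · next a C heq =>
    simp only [Bool.and_eq_true, decide_eq_true_eq] at hm
    obtain rfl := Nat.eq_of_beq_eq_true hm.1
    have hC : (C : K) * (C : K) = 1 := by
      rcases Int.natAbs_eq C with h | h <;> rw [hm.2] at h <;> subst h <;> simp
    have := rel (K := K) hr hs (Nat.ne_of_beq_eq_false h1) (Nat.ne_of_beq_eq_false h2) (-1) ((C : K) * t)
    simp only [ChevalleyDatum.commWord, heq, List.map_cons, List.map_nil, List.prod_cons, List.prod_nil, mul_one, pow_one,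
      neg_neg] at this
    rwa [← mul_assoc, hC, one_mul] at this
  · exact absurd hm Bool.false_ne_true

theorem of_ok1 (hn : ∀ i < D.rank, D.simple i < D.nroots ∧ D.neg (D.simple i) < D.nroots) {q : ℕ}
    (h : ok1 D q = true) (t : K) : T D K q t = 1 := by
  simp only [ok1, Bool.or_eq_true, List.any_eq_true, List.mem_range] at h
  rcases h with (⟨i, hi, h⟩ | ⟨i, hi, h⟩) | ⟨r, hr, h⟩
  exacts [of_hit1 (hn i hi).1 h t, of_hit1 (hn i hi).2 h t, of_hit1 hr h t]

theorem perfect_of (h : ∀ q < D.nroots, ∀ t : K, T D K q t = 1) : commutator (D.SteinbergCover K) = ⊤ := by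
  have hz : (Abelianization.of : D.SteinbergCover K →* Abelianization (D.SteinbergCover K)) = 1 := by
    refine PresentedGroup.ext fun x => ?_
    obtain ⟨r, t⟩ := x
    have := h r r.2 t
    simp only [T, ChevalleyDatum.scGen, ChevalleyDatum.stX, dif_pos r.2] at this
    exact this
  rw [eq_top_iff]
  intro x _
  rw [← Abelianization.ker_of, MonoidHom.mem_ker, hz, MonoidHom.one_apply]

theorem of_hit2 (hn : ∀ i < D.rank, D.simple i < D.nroots ∧ D.neg (D.simple i) < D.nroots)
    (ha : ∃ x : K, x ≠ 0 ∧ x ≠ 1) {q r : ℕ} (hr : r < D.nroots) (hlt : ∀ r s, r < D.nroots → s < D.nroots → ∀ x ∈ D.commTerms r s, x.1 < D.nroots)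
    (h : hit2 D q r = true) (t : K) : T D K q t = 1 := by
  simp only [hit2, List.any_eq_true, Bool.and_eq_true, Bool.not_eq_true', Nat.blt_eq] at h
  obtain ⟨e, -, ⟨⟨⟨-, hs⟩, h1⟩, h2⟩, hm⟩ := h
  split at hm
  · next a A b B rest heq =>
    simp only [Bool.and_eq_true, Bool.or_eq_true, decide_eq_true_eq, List.all_eq_true] at hm
    obtain ⟨⟨⟨hab, hA⟩, hB⟩, hrest⟩ := hm
    have hA' : (A : K) * (A : K) = 1 := by
      rcases Int.natAbs_eq A with h | h <;> rw [hA] at h <;> subst h <;> simp
    have hB' : (B : K) * (B : K) = 1 := by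
      rcases Int.natAbs_eq B with h | h <;> rw [hB] at h <;> subst h <;> simp
    have hbl : b < D.nroots := hlt r e.1 hr hs (b, B, 2, 1) (by simp [heq])
    have R : ∀ x u : K, T D K a ((A : K) * -x * u) * T D K b ((B : K) * x ^ 2 * u) = 1 := by
      intro x u
      have := rel (K := K) hr hs (Nat.ne_of_beq_eq_false h1) (Nat.ne_of_beq_eq_false h2) x u
      simp only [ChevalleyDatum.commWord, heq, List.map_cons, List.prod_cons, List.map_map, pow_one, neg_sq] at this
      rw [List.prod_eq_one (l := rest.map _) (fun y hy => by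
        obtain ⟨z, hz, rfl⟩ := List.mem_map.1 hy
        exact of_ok1 hn (hrest z hz) _), mul_one] at this
      exact this
    obtain ⟨l, hl0, hl1⟩ := ha
    have hb1 : ∀ v : K, T D K b v = 1 := by
      intro v
      set u := (B : K) * v / (l - 1)
      have e1 := R l (u / l)
      have e2 := R 1 u
      rw [show (A : K) * -l * (u / l) = (A : K) * -1 * u by field_simp] at e1
      have e3 := e1.trans e2.symm
      have e4 := mul_left_cancel e3
      have hl : l - 1 ≠ 0 := sub_ne_zero.2 hl1
      have e5 : T D K b ((B : K) * l ^ 2 * (u / l)) = T D K b v * T D K b ((B : K) * 1 ^ 2 * u) := by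
        rw [T_add hbl]
        congr 1
        rw [show (B : K) * l ^ 2 * (u / l) = ((B : K) * B) * v * (l / (l - 1)) by simp only [u]; field_simp,
          show (B : K) * 1 ^ 2 * u = ((B : K) * B) * v * (1 / (l - 1)) by simp only [u]; field_simp, hB']
        field_simp
        ring
      rw [e5] at e4
      simpa using e4
    rcases hab with hab | hab
    · obtain rfl := Nat.eq_of_beq_eq_true hab
      have := R (-1) ((A : K) * t)
      rw [hb1, mul_one] at this
      rwa [neg_neg, mul_one, ← mul_assoc, hA', one_mul] at this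
    · obtain rfl := Nat.eq_of_beq_eq_true hab
      exact hb1 t
  · exact absurd hm Bool.false_ne_true

end Cfsg.Agent.Chev.Cover
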