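import Cfsg.Agent.Chev.CoverCheck
import Cfsg.Prelude.Def_ChevG2
import Cfsg.Prelude.Def_ChevB2
import Cfsg.Prelude.Def_ChevD4
import Cfsg.Prelude.Def_ChevF4
import Cfsg.Prelude.Def_ChevE6
import Cfsg.Prelude.Def_ChevE7
import Cfsg.Prelude.Def_ChevE8

set_option autoImplicit false
set_option maxRecDepth 100000

namespace Cfsg.Agent.Chev.Cover

open Cfsg.Lie

theorem coverG2 : coverOK2 chevG2 = true := by decide +kernel

theorem coverB2 : coverOK2 chevB2 = true := by decide +kernel

theorem coverD4 : coverOK chevD4 = true := by decide +kernel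

theorem coverF4 : coverOK chevF4 = true := by decide +kernel

theorem coverE6 : coverOK chevE6 = true := by decide +kernel

theorem coverE7 : coverOK chevE7 = true := by decide +kernel

theorem coverE8 : coverOK chevE8 = true := by decide +kernel

end Cfsg.Agent.Chev.Cover
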