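import Cfsg.Agent.Chev.CommCheck

set_option autoImplicit false

namespace Cfsg.Agent.Chev.Cover

open Cfsg.Lie

/-- A pair whose relator shows directly that the generators of `q` are trivial modulo commutators. -/
def hit1 (D : ChevalleyDatum) (q r : ℕ) : Bool :=
  (D.chain.getD r #[]).toList.any fun e =>
    (e.2.toList.map Prod.fst).contains q && Nat.blt e.1 D.nroots && !(Nat.beq e.1 r) && !(Nat.beq e.1 (D.neg r)) &&
      match D.commTerms r e.1 with
      | [(a, C, 1, 1)] => Nat.beq a q && decide (C.natAbs = 1)
      | _ => false

/-- The roots dealt with directly. -/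
def ok1 (D : ChevalleyDatum) (q : ℕ) : Bool :=
  ((List.range D.rank).any fun i => hit1 D q (D.simple i)) || ((List.range D.rank).any fun i => hit1 D q (D.neg (D.simple i))) ||
    (List.range D.nroots).any fun r => hit1 D q r

/-- A pair with two terms besides those dealt with. -/
def hit2 (D : ChevalleyDatum) (q r : ℕ) : Bool :=
  (D.chain.getD r #[]).toList.any fun e =>
    (e.2.toList.map Prod.fst).contains q && Nat.blt e.1 D.nroots && !(Nat.beq e.1 r) && !(Nat.beq e.1 (D.neg r)) &&
      match D.commTerms r e.1 with
      | (a, A, 1, 1) :: (b, B, 2, 1) :: rest => (Nat.beq a q || Nat.beq b q) && decide (A.natAbs = 1) &&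
          decide (B.natAbs = 1) && rest.all fun x => ok1 D x.1
      | _ => false

/-- Every root is dealt with by one pair of the first kind. -/
def coverOK (D : ChevalleyDatum) : Bool := (List.range D.nroots).all fun q => ok1 D q

/-- Every root is dealt with. -/
def coverOK2 (D : ChevalleyDatum) : Bool :=
  (List.range D.nroots).all fun q => ok1 D q || (List.range D.nroots).any fun r => hit2 D q r

end Cfsg.Agent.Chev.Cover
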