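import Cfsg.Agent.Chev.GraphCheck
import Cfsg.Agent.Chev.Good

/-!
Graph automorphisms from signed permutations of the basis.
-/

set_option autoImplicit false
attribute [-simp] Array.getD_eq_getD_getElem?

namespace Cfsg.Agent.Chev.Graph

open Cfsg.Lie Matrix Cfsg.Agent.Chev.Tits

variable {D : ChevalleyDatum} {p : ℕ} {F : Type*} [Field F]

theorem eta_sq (η : List Bool) (r : ℕ) : (eta η r : F) * (eta η r : F) = 1 := by
  unfold eta
  cases η.getD r true <;> simp

theorem exists_aut (h : datumOK D p = true) {ρ σ : List ℕ} {η : List Bool}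
    (hok : graphOK D ρ σ η = true) :
    ∃ α : ↥(D.group F) ≃* ↥(D.group F), ∀ (g : ↥(D.group F)) (r : ℕ) (t : F), r < D.nroots →
      ((g : GL D.Idx F) : Matrix D.Idx D.Idx F) = D.x F r t →
        ((α g : GL D.Idx F) : Matrix D.Idx D.Idx F) = D.x F (pim σ r) ((eta η r : F) * t) := by
  classical
  simp only [graphOK, Bool.and_eq_true, List.all_eq_true, List.any_eq_true, List.mem_range, Nat.blt_eq,
    decide_eq_true_eq] at hok
  obtain ⟨⟨⟨⟨hρ, hσ⟩, -⟩, hr⟩, hch⟩ := hok
  let rρ : Fin D.rank → Fin D.rank := fun i => ⟨pim ρ i, (hρ i i.2).1⟩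
  let rσ : Fin D.nroots → Fin D.nroots := fun i => ⟨pim σ i, (hσ i i.2).1⟩
  have sρ : Function.Surjective rρ := fun i => by
    obtain ⟨j, hj, e⟩ := (hρ i i.2).2
    exact ⟨⟨j, hj⟩, Fin.ext (Nat.eq_of_beq_eq_true e)⟩
  have sσ : Function.Surjective rσ := fun i => by
    obtain ⟨j, hj, e⟩ := (hσ i i.2).2
    exact ⟨⟨j, hj⟩, Fin.ext (Nat.eq_of_beq_eq_true e)⟩
  let f : D.Idx → D.Idx := Sum.map rρ rσ
  have hf : Function.Injective f := Finite.injective_iff_surjective.2 (Sum.map_surjective.2 ⟨sρ, sσ⟩)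
  let ε : D.Idx → F := Sum.elim (fun _ => 1) (fun s => (eta η s.val : F))
  have hε : ∀ i, ε i * ε i = 1 := by
    rintro (i | i)
    · simp [ε]
    · exact eta_sq η _
  let P : Matrix D.Idx D.Idx F := Matrix.of fun a b => if a = f b then ε b else 0
  let Q : Matrix D.Idx D.Idx F := Matrix.of fun b a => if a = f b then ε b else 0
  have hQP : Q * P = 1 := by
    ext a b
    rw [Matrix.mul_apply, Finset.sum_eq_single (f a)]
    · by_cases e : a = b
      · subst e; simp [P, Q, hε]
      · simp [P, Q, e, hf.ne e]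
    · intro l _ hl; simp [Q, hl]
    · simp
  let u : GL D.Idx F := ⟨P, Q, mul_eq_one_comm.1 hQP, hQP⟩
  have hPv : ∀ i, P *ᵥ (ee i : D.Idx → F) = ε i • ee (f i) := by
    intro i
    rw [ee, ee, mulVec_single_one]
    funext a
    simp [P, Pi.single_apply]
  have hPh : ∀ j : Fin D.rank, P *ᵥ (ee (Sum.inl j) : D.Idx → F) = ee (Sum.inl (rρ j)) := fun j => by
    rw [hPv]; simp [ε, f]
  have hPr : ∀ s < D.nroots, P *ᵥ rv D F s = (eta η s : F) • rv D F (pim σ s) := by
    intro s hs
    rw [rv, dif_pos hs, hPv, rv, dif_pos (hσ s hs).1]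
    rfl
  have hPhv : ∀ r < D.nroots, P *ᵥ hv D F r = hv D F (pim σ r) := by
    intro r hr'
    have hv_eq : ∀ r, hv D F r = ∑ i : Fin D.rank, (((D.coroot.getD r #[]).getD i.val 0 : ℤ) : F) • ee (Sum.inl i) := by
      intro r
      funext j
      rcases j with j | j <;> simp [hv, ee, Finset.sum_apply, Pi.single_apply]
    rw [hv_eq, hv_eq, mulVec_sum]
    simp only [mulVec_smul, hPh]
    refine Fintype.sum_bijective rρ (Finite.surjective_iff_bijective.1 sρ) _ _ fun j => ?_
    have := ((hr r hr').2 j j.2).2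
    unfold cor at this
    show _ = ((((D.coroot.getD (pim σ r) #[]).getD (pim ρ j) 0 : ℤ) : F)) • _
    rw [this]
  have key : ∀ r < D.nroots, ∀ t : F, P * D.x F r t = D.x F (pim σ r) ((eta η r : F) * t) * P := by
    intro r hr' t
    have hsr := (hσ r hr').1
    obtain ⟨⟨hneg, hηn⟩, hrow⟩ := hr r hr'
    have hneg' : pim σ (D.neg r) = D.neg (pim σ r) := Nat.eq_of_beq_eq_true hneg
    have hn : D.neg r < D.nroots := (facts h hr').neg_lt
    refine Matrix.ext_of_mulVec_single fun i => ?_
    show (P * D.x F r t) *ᵥ ee i = (D.x F (pim σ r) ((eta η r : F) * t) * P) *ᵥ ee i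
    rw [← mulVec_mulVec, ← mulVec_mulVec]
    rcases i with j | s
    · rw [hPh, x_h hr', x_h hsr, mulVec_sub, mulVec_smul, hPh, hPr r hr', smul_smul]
      congr 2
      show _ = (D.cartan (pim ρ j) (pim σ r) : F) * _
      rw [(hrow j j.2).1]
      ring
    · have hs : s.val < D.nroots := s.2
      have e : (ee (Sum.inr s) : D.Idx → F) = rv D F s.val := by rw [rv, dif_pos hs]
      rw [e, hPr _ hs, mulVec_smul]
      by_cases h1 : s.val = r
      · rw [h1, x_self h hr', x_self h hsr, hPr r hr']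
      by_cases h2 : s.val = D.neg r
      · rw [h2, x_neg h hr', hneg', x_neg h hsr, mulVec_sub, mulVec_add, mulVec_smul, mulVec_smul,
          hPr _ hn, hPr r hr', hPhv r hr', hneg', hηn, smul_sub, smul_add, smul_smul, smul_smul,
          smul_smul]
        congr 2
        · rw [← mul_assoc, eta_sq, one_mul]
        · have := eta_sq (F := F) η r
          linear_combination (-(eta η r : F) * t ^ 2) * this
      have h1' : pim σ s.val ≠ pim σ r := fun e =>
        h1 (congrArg Fin.val ((Finite.injective_iff_surjective.2 sσ) (show rσ s = rσ ⟨r, hr'⟩ from Fin.ext e)))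
      have h2' : pim σ s.val ≠ D.neg (pim σ r) := fun e => by
        rw [← hneg'] at e
        exact h2 (congrArg Fin.val ((Finite.injective_iff_surjective.2 sσ) (show rσ s = rσ ⟨D.neg r, hn⟩ from Fin.ext e)))
      rw [x_other h hr' _ hs h1 h2, x_other h hsr _ (hσ _ hs).1 h1' h2', mulVec_add, hPr _ hs, smul_add]
      congr 1
      have hc := hch r hr' s.val hs
      simp only [chainB, Bool.or_eq_true] at hc
      rcases hc with (hc | hc) | hc
      · exact absurd (Nat.eq_of_beq_eq_true hc) h1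
      · exact absurd (Nat.eq_of_beq_eq_true hc) h2
      have hrange := (facts h hr').range s.val
      split at hc
      · next h3 h4 => simp [h3, h4, cv]
      · next q M q' M' h3 h4 =>
        simp only [Bool.and_eq_true, decide_eq_true_eq] at hc
        obtain ⟨hq, hM⟩ := hc
        have hql : q < D.nroots := (hrange (q, M) (by rw [h3]; simp)).1
        rw [h3, h4, Nat.eq_of_beq_eq_true hq]
        simp only [cv, add_zero, mulVec_smul, hPr q hql, smul_smul]
        congr 1
        have hM' := congrArg (fun z : ℤ => (z : F)) hM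
        push_cast at hM'
        linear_combination t * hM'
      · exact absurd hc (by simp)
  have hconj : ∀ (g : GL D.Idx F) (r : ℕ), r < D.nroots → ∀ t : F, (g : Matrix D.Idx D.Idx F) = D.x F r t →
      ((u * g * u⁻¹ : GL D.Idx F) : Matrix D.Idx D.Idx F) = D.x F (pim σ r) ((eta η r : F) * t) := by
    intro g r hr' t hg
    show P * (g : Matrix D.Idx D.Idx F) * Q = _
    rw [hg, key r hr', mul_assoc, mul_eq_one_comm.1 hQP, mul_one]
  have hmap : (D.group F).map (MulAut.conj u).toMonoidHom = D.group F := by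
    rw [ChevalleyDatum.group, MonoidHom.map_closure]
    congr 1
    ext g
    constructor
    · rintro ⟨g', ⟨r, t, hg⟩, rfl⟩
      refine ⟨rσ r, (eta η r.val : F) * t, ?_⟩
      rw [← x_eq (rσ r).2, ← x_eq r.2] at *
      exact hconj g' r r.2 t hg
    · rintro ⟨r, t, hg⟩
      obtain ⟨s, rfl⟩ := sσ r
      refine ⟨u⁻¹ * g * u, ⟨s, (eta η s.val : F) * t, ?_⟩, by simp [mul_assoc]⟩
      show Q * (g : Matrix D.Idx D.Idx F) * P = _
      rw [hg, ← x_eq (rσ s).2, ← x_eq s.2, mul_assoc]
      have := key s s.2 ((eta η s.val : F) * t)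
      rw [← mul_assoc (eta η s.val : F), eta_sq, one_mul] at this
      show Q * (D.x F (pim σ s) t * P) = _
      rw [← this, ← mul_assoc, hQP, one_mul]
  refine ⟨((MulAut.conj u).subgroupMap (D.group F)).trans (MulEquiv.subgroupCongr hmap), fun g r t hr' hg => ?_⟩
  exact hconj g r hr' t hg

theorem graphOK_simple {ρ σ : List ℕ} {η : List Bool} (hok : graphOK D ρ σ η = true) {i : ℕ}
    (hi : i < D.rank) :
    pim σ (D.simple i) = D.simple (pim ρ i) ∧ pim σ (D.neg (D.simple i)) = D.neg (pim σ (D.simple i)) ∨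
      D.nroots ≤ D.simple i := by
  simp only [graphOK, Bool.and_eq_true, List.all_eq_true, List.mem_range] at hok
  obtain ⟨⟨⟨-, h3⟩, hr⟩, -⟩ := hok
  by_cases hs : D.simple i < D.nroots
  · exact Or.inl ⟨Nat.eq_of_beq_eq_true (h3 i hi).1.1, Nat.eq_of_beq_eq_true (hr _ hs).1.1⟩
  · exact Or.inr (not_lt.1 hs)

theorem eta_simple {ρ σ : List ℕ} {η : List Bool} (hok : graphOK D ρ σ η = true) {i : ℕ}
    (hi : i < D.rank) : eta η (D.simple i) = 1 ∧ eta η (D.neg (D.simple i)) = 1 := by
  simp only [graphOK, Bool.and_eq_true, List.all_eq_true, List.mem_range] at hok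
  obtain ⟨⟨⟨-, h3⟩, -⟩, -⟩ := hok
  obtain ⟨⟨-, h4⟩, h5⟩ := h3 i hi
  unfold eta
  rw [h4, h5]
  exact ⟨rfl, rfl⟩

end Cfsg.Agent.Chev.Graph
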