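import Cfsg.Agent.Chev.BNP
import Cfsg.Agent.BN.Basic

set_option autoImplicit false
attribute [-simp] Array.getD_eq_getD_getElem?

namespace Cfsg.Agent.Chev.Tits

open Cfsg.Lie Matrix Cfsg.Agent.Chev.Comm

variable {D : ChevalleyDatum} {c : Cert} {F : Type*} [Field F] (G : TGood D c)
include G

theorem xG_mem_group {r : ℕ} (hr : r < D.nroots) (t : F) : xG G.good r hr t ∈ D.group F :=
  Subgroup.subset_closure ⟨⟨r, hr⟩, t, x_eq hr t⟩

theorem nn_mem_group {i : ℕ} (hi : i < D.rank) : nn G.good F i ∈ D.group F := by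
  rw [nn_eq G hi]
  exact mul_mem (mul_mem (xG_mem_group G _ _) (xG_mem_group G (G.good.neg_lt (G.good.simple hi).lt) _)) (xG_mem_group G _ _)

theorem exists_pair (h1 : D.borelSubgroup F ≤ D.group F) (h2 : D.monomialSubgroup F ≤ D.group F)
    (h3 : D.borelSubgroup F ⊔ D.monomialSubgroup F = D.group F) :
    ∃ P : Cfsg.BNPair ↥(D.group F),
      P.B = (D.borelSubgroup F).subgroupOf (D.group F) ∧ P.N = (D.monomialSubgroup F).subgroupOf (D.group F) ∧
      P.S = {n : ↥(D.group F) | ∃ i < D.rank, ((n : GL D.Idx F) : Matrix D.Idx D.Idx F) = D.nMat F (D.simple i) 1} := by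
  have val : ∀ {x : ↥(D.group F)} {i : ℕ}, i < D.rank →
      ((x : GL D.Idx F) : Matrix D.Idx D.Idx F) = D.nMat F (D.simple i) 1 → (x : GL D.Idx F) = nn G.good F i := by
    intro x i hi h
    rw [nn_eq G hi]; exact Units.ext (by rw [h, nG_val])
  refine ⟨{
    B := (D.borelSubgroup F).subgroupOf (D.group F)
    N := (D.monomialSubgroup F).subgroupOf (D.group F),
    S := {n : ↥(D.group F) | ∃ i < D.rank, ((n : GL D.Idx F) : Matrix D.Idx D.Idx F) = D.nMat F (D.simple i) 1},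
    sup_eq_top := ?_, conj_mem := ?_, subset := ?_, sq_mem := ?_, inj := ?_, closure_sup := ?_,
    mul_mem_union := ?_, conj_ne := ?_ }, rfl, rfl, rfl⟩
  · rw [← Subgroup.subgroupOf_sup h1 h2, h3, Subgroup.subgroupOf_self]
  · intro n hn t ht
    have : (t : GL D.Idx F) ∈ D.diagonalSubgroup F := by rw [← N_inf_B G]; exact ⟨ht.1, ht.2⟩
    exact H_mem_B G (norm_H G hn this)
  · rintro n ⟨i, hi, hn⟩
    show (n : GL D.Idx F) ∈ D.monomialSubgroup F
    rw [val hi hn]; exact nn_mem_N G hi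
  · rintro n ⟨i, hi, hn⟩
    show ((n * n : ↥(D.group F)) : GL D.Idx F) ∈ D.borelSubgroup F
    rw [Subgroup.coe_mul, val hi hn]; exact H_mem_B G (nn_sq G hi)
  · rintro n ⟨i, hi, hn⟩ m ⟨j, hj, hm⟩ h
    have h' : ((n⁻¹ * m : ↥(D.group F)) : GL D.Idx F) ∈ D.borelSubgroup F := h
    rw [Subgroup.coe_mul, Subgroup.coe_inv, val hi hn, val hj hm] at h'
    exact Subtype.ext (Units.ext (by rw [hn, hm, simple_ne G hi hj h']))
  · refine le_antisymm (sup_le ?_ inf_le_right) ?_
    · rw [Subgroup.closure_le]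
      rintro n ⟨i, hi, hn⟩
      show (n : GL D.Idx F) ∈ D.monomialSubgroup F
      rw [val hi hn]; exact nn_mem_N G hi
    · intro n hn
      obtain ⟨h, hh, L, hL, e⟩ := N_word G (show (n : GL D.Idx F) ∈ D.monomialSubgroup F from hn)
      have key : ∀ L : List ℕ, (∀ i ∈ L, i < D.rank) → ∃ y ∈ Subgroup.closure
          {n : ↥(D.group F) | ∃ i < D.rank, ((n : GL D.Idx F) : Matrix D.Idx D.Idx F) = D.nMat F (D.simple i) 1},
          (y : GL D.Idx F) = wp G.good F L := by
        intro L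
        induction L with
        | nil => intro _; exact ⟨1, one_mem _, by simp [wp]⟩
        | cons i L ih =>
          intro hL
          obtain ⟨y, hy, ey⟩ := ih fun j hj => hL j (List.mem_cons_of_mem _ hj)
          refine ⟨⟨nn G.good F i, nn_mem_group G (hL i (by simp))⟩ * y, mul_mem (Subgroup.subset_closure
            ⟨i, hL i (by simp), (by show ((nn G.good F i : GL D.Idx F) : Matrix D.Idx D.Idx F) = _; rw [nn_eq G (hL i (by simp)), nG_val])⟩) hy, ?_⟩
          rw [Subgroup.coe_mul, ey]; simp [wp]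
      obtain ⟨y, hy, ey⟩ := key L hL
      have hNh : h ∈ D.borelSubgroup F ⊓ D.monomialSubgroup F := by rw [N_inf_B G]; exact hh
      have : n = ⟨h, h1 hNh.1⟩ * y := Subtype.ext (by rw [Subgroup.coe_mul, ey]; exact e)
      rw [this]
      exact mul_mem (Subgroup.mem_sup_right ⟨hNh.1, hNh.2⟩) (Subgroup.mem_sup_left hy)
  · rintro s ⟨i, hi, hs⟩ n hn b hb
    obtain ⟨a, ha, a', ha', e⟩ := union_step G hi (show (n : GL D.Idx F) ∈ D.monomialSubgroup F from hn)
      (show (b : GL D.Idx F) ∈ D.borelSubgroup F from hb)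
    rw [Set.mem_union, DoubleCoset.mem_doubleCoset, DoubleCoset.mem_doubleCoset]
    rcases e with e | e
    · exact Or.inl ⟨⟨a, h1 ha⟩, ha, ⟨a', h1 ha'⟩, ha', Subtype.ext (by simp only [Subgroup.coe_mul, val hi hs]; exact e)⟩
    · exact Or.inr ⟨⟨a, h1 ha⟩, ha, ⟨a', h1 ha'⟩, ha', Subtype.ext (by simp only [Subgroup.coe_mul, val hi hs]; exact e)⟩
  · rintro s ⟨i, hi, hs⟩ he
    have hp := (G.good.simple hi).lt
    have hb := xG_mem_B G hp (G.good.simple hi).pos (1 : F)
    have : s * ⟨_, h1 hb⟩ * s ∈ ((D.borelSubgroup F).subgroupOf (D.group F) : Set ↥(D.group F)) := by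
      rw [← he]; exact ⟨⟨_, h1 hb⟩, hb, rfl⟩
    have h' : (s : GL D.Idx F) * xG G.good (D.simple i) hp 1 * (s : GL D.Idx F) ∈ D.borelSubgroup F := this
    rw [val hi hs] at h'
    have h'' := mul_mem h' (inv_mem (H_mem_B G (nn_sq (F := F) G hi)))
    rw [show nn G.good F i * xG G.good (D.simple i) hp 1 * nn G.good F i * (nn G.good F i * nn G.good F i)⁻¹ =
      nn G.good F i * xG G.good (D.simple i) hp 1 * (nn G.good F i)⁻¹ by group, nn_conj G hi hp,
      xG_congr G.good (G.good.simple hi).im_self _ (G.good.neg_lt hp)] at h''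
    refine neg_not_mem_B G _ ?_ ?_ h''
    · have h1' := neg_side G (G.good.neg_lt hp)
      rw [G.good.neg_neg hp] at h1'
      exact h1'.2 (G.good.simple hi).pos
    · simp [(G.good.simple hi).sgn_self]

theorem irreducible (P : Cfsg.BNPair ↥(D.group F)) (hB : P.B = (D.borelSubgroup F).subgroupOf (D.group F))
    (hS : P.S = {n : ↥(D.group F) | ∃ i < D.rank, ((n : GL D.Idx F) : Matrix D.Idx D.Idx F) = D.nMat F (D.simple i) 1}) :
    P.Irreducible := by
  classical
  intro J hJ ⟨a, ha⟩ ⟨b, hb, hbJ⟩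
  have val : ∀ {x : ↥(D.group F)} {i : ℕ}, i < D.rank →
      ((x : GL D.Idx F) : Matrix D.Idx D.Idx F) = D.nMat F (D.simple i) 1 → (x : GL D.Idx F) = nn G.good F i := by
    intro x i hi h
    rw [nn_eq G hi]; exact Units.ext (by rw [h, nG_val])
  let inJ : ℕ → Prop := fun i => ∃ x ∈ J, ((x : GL D.Idx F) : Matrix D.Idx D.Idx F) = D.nMat F (D.simple i) 1
  set L := (List.range D.rank).filter fun i => decide (inJ i)
  have hmem : ∀ i, i ∈ L ↔ i < D.rank ∧ inJ i := fun i => by simp [L]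
  have ha' := hJ ha
  rw [hS] at ha' hb
  obtain ⟨i0, hi0, hai⟩ := ha'
  obtain ⟨j0, hj0, hbj⟩ := hb
  have hne : L ≠ [] := List.ne_nil_of_mem ((hmem i0).2 ⟨hi0, a, ha, hai⟩)
  have hfull : L.length ≠ D.rank := by
    intro h
    have hsub : L = List.range D.rank := (List.filter_sublist).eq_of_length (by simpa using h)
    have : inJ j0 := ((hmem j0).1 (by rw [hsub]; exact List.mem_range.2 hj0)).2
    obtain ⟨x, hx, ex⟩ := this
    exact hbJ (by rwa [show b = x from Subtype.ext (Units.ext (by rw [hbj, ex]))])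
  have h := G.conn
  simp only [connOK, List.all_eq_true] at h
  have := h L (List.mem_sublists.2 List.filter_sublist)
  simp only [Bool.or_eq_true, List.isEmpty_iff, List.any_eq_true, Bool.and_eq_true, List.mem_range, adjB,
    Bool.not_eq_true', List.contains_eq_mem, decide_eq_false_iff_not] at this
  rcases this with (h | h) | ⟨i, hiL, j, hj, hjL, ⟨-, hij⟩, hadj⟩
  · exact absurd h hne
  · exact absurd (Nat.eq_of_beq_eq_true h) hfull
  obtain ⟨hi, x, hxJ, hx⟩ := (hmem i).1 hiL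
  refine ⟨x, hxJ, ⟨nn G.good F j, nn_mem_group G hj⟩, ⟨by rw [hS]; exact ⟨j, hj, (by show ((nn G.good F j : GL D.Idx F) : Matrix D.Idx D.Idx F) = _; rw [nn_eq G hj, nG_val])⟩,
    fun h' => hjL ((hmem j).2 ⟨hj, _, h', (by show ((nn G.good F j : GL D.Idx F) : Matrix D.Idx D.Idx F) = _; rw [nn_eq G hj, nG_val])⟩)⟩, fun hc => ?_⟩
  rw [hB, Subgroup.mem_subgroupOf] at hc
  simp only [Subgroup.coe_mul, Subgroup.coe_inv, val hi hx] at hc
  have hH : nn G.good F i * nn G.good F j * (nn G.good F i)⁻¹ * (nn G.good F j)⁻¹ ∈ D.diagonalSubgroup F := by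
    rw [← N_inf_B G]
    exact ⟨hc, (D.monomialSubgroup F).mul_mem ((D.monomialSubgroup F).mul_mem ((D.monomialSubgroup F).mul_mem
      (nn_mem_N G hi) (nn_mem_N G hj)) ((D.monomialSubgroup F).inv_mem (nn_mem_N G hi))) ((D.monomialSubgroup F).inv_mem (nn_mem_N G hj))⟩
  obtain ⟨χ, -, hχ⟩ := H_char G.good hH
  have hp := (G.good.simple hj).lt
  have hpp := (G.good.simple hj).pos
  have hq := (G.good.refl hi hp).lt
  have hqp : c.half ≤ c.im i (D.simple j) := G.im_pos hi hp hpp (fun e => (Nat.ne_of_beq_eq_false hij) e.symm)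
  have hqn : c.half ≤ c.im j (c.im i (D.simple j)) := G.im_pos hj hq hqp (Nat.ne_of_beq_eq_false hadj)
  set n := nn G.good F i
  set m := nn G.good F j
  have e : n * m * xG G.good (D.simple j) hp (1 : F) * (n * m)⁻¹ =
      (n * m * n⁻¹ * m⁻¹) * (m * (n * xG G.good (D.simple j) hp 1 * n⁻¹) * m⁻¹) * (n * m * n⁻¹ * m⁻¹)⁻¹ := by group
  rw [nn_conj G hi hp, nn_conj G hj hq, (hχ _ (G.good.refl hj hq).lt).2,
    show n * m * xG G.good (D.simple j) hp (1 : F) * (n * m)⁻¹ = n * (m * xG G.good (D.simple j) hp 1 * m⁻¹) * n⁻¹ by group,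
    nn_conj G hj hp, xG_congr G.good (G.good.simple hj).im_self _ (G.good.neg_lt hp), nn_conj G hi (G.good.neg_lt hp)] at e
  refine neg_not_mem_B G (G.good.refl hi (G.good.neg_lt hp)).lt ?_ ?_ (e ▸ xG_mem_B G _ hqn _)
  · rw [(G.good.refl hi hp).im_neg]
    have h1' := neg_side G (G.good.neg_lt hq)
    rw [G.good.neg_neg hq] at h1'
    exact h1'.2 hqp
  · rcases sgn_cases c i (D.neg (D.simple j)) with h | h <;> simp [h, (G.good.simple hj).sgn_self]

end Cfsg.Agent.Chev.Tits
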