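import Cfsg.Agent.Chev.TitsCheck
import Cfsg.Agent.Chev.CertG2
import Cfsg.Agent.Chev.CertB2
import Cfsg.Agent.Chev.CertD4
import Cfsg.Agent.Chev.CertF4
import Cfsg.Agent.Chev.CertE6
import Cfsg.Agent.Chev.CertE7
import Cfsg.Agent.Chev.CertE8

set_option autoImplicit false
set_option maxRecDepth 100000

namespace Cfsg.Agent.Chev.Tits

open Cfsg.Lie

theorem posG2 : posOK chevG2 certG2 = true := by decide +kernel

theorem connG2 : connOK chevG2 certG2 = true := by decide +kernel

theorem selfG2 : selfOK chevG2 = true := by decide +kernel

theorem posB2 : posOK chevB2 certB2 = true := by decide +kernel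

theorem connB2 : connOK chevB2 certB2 = true := by decide +kernel

theorem selfB2 : selfOK chevB2 = true := by decide +kernel

theorem posD4 : posOK chevD4 certD4 = true := by decide +kernel

theorem connD4 : connOK chevD4 certD4 = true := by decide +kernel

theorem selfD4 : selfOK chevD4 = true := by decide +kernel

theorem posF4 : posOK chevF4 certF4 = true := by decide +kernel

theorem connF4 : connOK chevF4 certF4 = true := by decide +kernel

theorem selfF4 : selfOK chevF4 = true := by decide +kernel

theorem posE6 : posOK chevE6 certE6 = true := by decide +kernel

theorem connE6 : connOK chevE6 certE6 = true := by decide +kernel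

theorem selfE6 : selfOK chevE6 = true := by decide +kernel

theorem posE7 : posOK chevE7 certE7 = true := by decide +kernel

theorem connE7 : connOK chevE7 certE7 = true := by decide +kernel

theorem selfE7 : selfOK chevE7 = true := by decide +kernel

theorem posE8 : posOK chevE8 certE8 = true := by decide +kernel

theorem connE8 : connOK chevE8 certE8 = true := by decide +kernel

theorem selfE8 : selfOK chevE8 = true := by decide +kernel

theorem perfD4 : perfOK chevD4 = true := by decide +kernel

theorem perfF4 : perfOK chevF4 = true := by decide +kernel

theorem perfE6 : perfOK chevE6 = true := by decide +kernel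

theorem perfE7 : perfOK chevE7 = true := by decide +kernel

theorem perfE8 : perfOK chevE8 = true := by decide +kernel

theorem perfThreeG2 : perf3OK chevG2 = true := by decide +kernel

theorem perfThreeB2 : perf3OK chevB2 = true := by decide +kernel

end Cfsg.Agent.Chev.Tits
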