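import Cfsg.Agent.Chev.Tits
import Cfsg.Agent.Chev.TitsCerts
import Cfsg.Agent.Chev.CommAll

set_option autoImplicit false

namespace Cfsg.Agent.Chev.Tits

open Cfsg.Lie Cfsg.Agent.Chev.Comm

theorem tgood_of_mem {D : ChevalleyDatum}
    (hD : D ∈ [chevG2, chevB2, chevD4, chevF4, chevE6, chevE7, chevE8]) : ∃ c, TGood D c := by
  simp only [List.mem_cons, List.not_mem_nil, or_false] at hD
  rcases hD with rfl | rfl | rfl | rfl | rfl | rfl | rfl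
  · exact ⟨_, ⟨goodG2, repG2, closedG2⟩, posG2, connG2, selfG2⟩
  · exact ⟨_, ⟨goodB2, repB2, closedB2⟩, posB2, connB2, selfB2⟩
  · exact ⟨_, ⟨goodD4, repD4, closedD4⟩, posD4, connD4, selfD4⟩
  · exact ⟨_, ⟨goodF4, repF4, closedF4⟩, posF4, connF4, selfF4⟩
  · exact ⟨_, ⟨goodE6, repE6, closedE6⟩, posE6, connE6, selfE6⟩
  · exact ⟨_, ⟨goodE7, repE7, closedE7⟩, posE7, connE7, selfE7⟩
  · exact ⟨_, ⟨goodE8, repE8, closedE8⟩, posE8, connE8, selfE8⟩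

end Cfsg.Agent.Chev.Tits
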