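import Cfsg.Agent.Chev.Graph
import Cfsg.Agent.Chev.GraphData
import Cfsg.Agent.Chev.TitsAll
import Cfsg.Agent.Chev.Simple

set_option autoImplicit false
attribute [-simp] Array.getD_eq_getD_getElem?

namespace Cfsg.Agent.Chev.Graph

open Cfsg.Lie Cfsg.Agent.Chev.Tits Cfsg.Agent.Chev.Comm

variable {D : ChevalleyDatum} {c : Cert} {F : Type*} [Field F]

theorem exists_nodes (G : Good D c) {ρ σ : List ℕ} {η : List Bool} (hok : graphOK D ρ σ η = true) :
    ∃ α : ↥(D.group F) ≃* ↥(D.group F), ∀ (g : ↥(D.group F)) (i : ℕ) (t : F), i < D.rank →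
      (((g : GL D.Idx F) : Matrix D.Idx D.Idx F) = D.x F (D.simple i) t →
        ((α g : GL D.Idx F) : Matrix D.Idx D.Idx F) = D.x F (D.simple (pim ρ i)) t) ∧
      (((g : GL D.Idx F) : Matrix D.Idx D.Idx F) = D.x F (D.neg (D.simple i)) t →
        ((α g : GL D.Idx F) : Matrix D.Idx D.Idx F) = D.x F (D.neg (D.simple (pim ρ i))) t) := by
  obtain ⟨α, hα⟩ := exists_aut (F := F) G.datum hok
  refine ⟨α, fun g i t hi => ?_⟩
  have hp := (G.simple hi).lt
  obtain ⟨h1, h2⟩ := (graphOK_simple hok hi).resolve_right (by omega)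
  obtain ⟨e1, e2⟩ := eta_simple hok hi
  refine ⟨fun hg => ?_, fun hg => ?_⟩
  · rw [hα g _ t hp hg, h1, e1, Int.cast_one, one_mul]
  · rw [hα g _ t (G.neg_lt hp) hg, h2, h1, e2, Int.cast_one, one_mul]

/-- A homomorphism is determined on the fundamental root elements. -/
theorem hom_ext (G : TGood D c) {H : Type*} [Group H] (f₁ f₂ : ↥(D.group F) →* H)
    (h : ∀ (g : ↥(D.group F)) (i : ℕ) (t : F), i < D.rank →
      (((g : GL D.Idx F) : Matrix D.Idx D.Idx F) = D.x F (D.simple i) t ∨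
        ((g : GL D.Idx F) : Matrix D.Idx D.Idx F) = D.x F (D.neg (D.simple i)) t) → f₁ g = f₂ g) :
    f₁ = f₂ := by
  have hK : ∀ g ∈ D.group F, g ∈ (f₁.eqLocus f₂).map (D.group F).subtype := by
    set K := (f₁.eqLocus f₂).map (D.group F).subtype
    have hgen : ∀ i, ∀ hi : i < D.rank, ∀ t : F, xG G.good (D.simple i) (G.good.simple hi).lt t ∈ K ∧
        xG G.good (D.neg (D.simple i)) (G.good.neg_lt (G.good.simple hi).lt) t ∈ K := by
      intro i hi t
      exact ⟨⟨⟨_, xG_mem_group G (G.good.simple hi).lt t⟩, h _ i t hi (Or.inl rfl), rfl⟩,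
        ⟨⟨_, xG_mem_group G (G.good.neg_lt (G.good.simple hi).lt) t⟩, h _ i t hi (Or.inr rfl), rfl⟩⟩
    have hW : W0 G.good F ≤ K := by
      rw [W0, Subgroup.closure_le]
      rintro x ⟨i, hi, rfl⟩
      rw [nG]
      exact mul_mem (mul_mem (hgen i hi _).1 (hgen i hi _).2) (hgen i hi _).1
    have hle : D.group F ≤ K := by
      rw [ChevalleyDatum.group, Subgroup.closure_le]
      rintro x ⟨r, t, hx⟩
      obtain ⟨w, hw, i, hi, ε, hε, w1, -⟩ := reach (F := F) G.good r.2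
      have e : x = w * xG G.good (D.simple i) (G.good.simple hi).lt (ε * t) * w⁻¹ := by
        rw [w1, ← mul_assoc, hε, one_mul]
        exact Units.ext (by rw [hx]; exact (x_eq r.2 t).symm)
      rw [e]
      exact mul_mem (mul_mem (hW hw) (hgen i hi _).1) (inv_mem (hW hw))
    exact hle
  refine MonoidHom.ext fun g => ?_
  obtain ⟨g', hg', e⟩ := hK g g.2
  rw [← Subtype.ext (show (g' : GL D.Idx F) = g from e)]
  exact hg'

theorem signs_of_aut (G : TGood D c) {L : List (List ℕ × List ℕ × List Bool)}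
    (hL : (L.all fun d => graphOK D d.1 d.2.1 d.2.2) = true) (π : Equiv.Perm (Fin D.rank))
    (hπ : (L.any fun d => permB D π d.1 d.2.1) = true) (φ : ↥(D.group F) ≃* ↥(D.group F))
    (hφ : ∀ (g : ↥(D.group F)) (i : Fin D.rank) (t : F),
      (((g : GL D.Idx F) : Matrix D.Idx D.Idx F) = D.x F (D.simple i) t →
        ((φ g : GL D.Idx F) : Matrix D.Idx D.Idx F) = D.x F (D.simple (π i)) t) ∧
      (((g : GL D.Idx F) : Matrix D.Idx D.Idx F) = D.x F (D.neg (D.simple i)) t →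
        ((φ g : GL D.Idx F) : Matrix D.Idx D.Idx F) = D.x F (D.neg (D.simple (π i))) t))
    (r : ℕ) (hr : r < D.nroots) :
    ∃ ε : F, (ε = 1 ∨ ε = -1) ∧ ∀ (g : ↥(D.group F)) (t : F),
      ((g : GL D.Idx F) : Matrix D.Idx D.Idx F) = D.x F r t →
        ((φ g : GL D.Idx F) : Matrix D.Idx D.Idx F) = D.x F (D.permRoot π r) (ε * t) := by
  simp only [List.any_eq_true, permB, Bool.and_eq_true, List.all_eq_true, List.mem_range,
    List.mem_finRange, forall_const] at hπ hL
  obtain ⟨d, hd, hρ, hσ⟩ := hπ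
  obtain ⟨α, hα⟩ := exists_aut (F := F) G.good.datum (hL d hd)
  have heq : φ.toMonoidHom = α.toMonoidHom := by
    refine hom_ext G _ _ fun g i t hi hg => Subtype.ext (Units.ext ?_)
    obtain ⟨h1, h2⟩ := (graphOK_simple (hL d hd) hi).resolve_right (by have := (G.good.simple hi).lt; omega)
    obtain ⟨e1, e2⟩ := eta_simple (hL d hd) hi
    have hpi : pim d.1 i = (π ⟨i, hi⟩).val := (Nat.eq_of_beq_eq_true (hρ ⟨i, hi⟩)).symm
    have hp := (G.good.simple hi).lt
    show ((φ g : GL D.Idx F) : Matrix D.Idx D.Idx F) = ((α g : GL D.Idx F) : Matrix D.Idx D.Idx F)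
    rcases hg with hg | hg
    · rw [(hφ g ⟨i, hi⟩ t).1 hg, hα g _ t hp hg, h1, hpi, e1, Int.cast_one, one_mul]
    · rw [(hφ g ⟨i, hi⟩ t).2 hg, hα g _ t (G.good.neg_lt hp) hg, h2, h1, hpi, e2, Int.cast_one, one_mul]
  refine ⟨(eta d.2.2 r : F), ?_, fun g t hg => ?_⟩
  · unfold eta
    cases d.2.2.getD r true <;> simp
  · have := DFunLike.congr_fun heq g
    rw [Nat.eq_of_beq_eq_true (hσ r hr), show φ g = α g from this]
    exact hα g r t hr hg

end Cfsg.Agent.Chev.Graph
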