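import Cfsg.Agent.Chev.RepCheck
import Cfsg.Prelude.Def_ChevAutomorphisms

set_option autoImplicit false

namespace Cfsg.Agent.Chev.Graph

open Cfsg.Lie Cfsg.Agent.Chev.Tits

/-- The sign of a root. -/
def eta (η : List Bool) (r : ℕ) : ℤ := bif η.getD r true then 1 else -1

/-- The image of a number. -/
def pim (σ : List ℕ) (r : ℕ) : ℕ := σ.getD r r

/-- One structure constant is transported. -/
def chainB (D : ChevalleyDatum) (σ : List ℕ) (η : List Bool) (r s : ℕ) : Bool :=
  Nat.beq s r || Nat.beq s (D.neg r) ||
    match D.chainEntry r s, D.chainEntry (pim σ r) (pim σ s) with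
    | [], [] => true
    | [(q, M)], [(q', M')] => Nat.beq q' (pim σ q) && decide (M * eta η q = eta η s * eta η r * M')
    | _, _ => false

/-- The signed permutation of the basis respects all the tables. -/
def graphOK (D : ChevalleyDatum) (ρ σ : List ℕ) (η : List Bool) : Bool :=
  ((List.range D.rank).all fun i => Nat.blt (pim ρ i) D.rank && (List.range D.rank).any fun j => Nat.beq (pim ρ j) i) &&
  ((List.range D.nroots).all fun r => Nat.blt (pim σ r) D.nroots && (List.range D.nroots).any fun s => Nat.beq (pim σ s) r) &&
  ((List.range D.rank).all fun i => Nat.beq (pim σ (D.simple i)) (D.simple (pim ρ i)) &&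
    η.getD (D.simple i) true && η.getD (D.neg (D.simple i)) true) &&
  ((List.range D.nroots).all fun r => Nat.beq (pim σ (D.neg r)) (D.neg (pim σ r)) &&
    decide (eta η (D.neg r) = eta η r) &&
    (List.range D.rank).all fun j => decide (D.cartan (pim ρ j) (pim σ r) = D.cartan j r) &&
      decide (cor D (pim σ r) (pim ρ j) = cor D r j)) &&
  (List.range D.nroots).all fun r => (List.range D.nroots).all fun s => chainB D σ η r s

/-- The root permutation is the one of a permutation of the nodes. -/
def permB (D : ChevalleyDatum) (π : Equiv.Perm (Fin D.rank)) (ρ σ : List ℕ) : Bool :=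
  ((List.finRange D.rank).all fun i => Nat.beq (π i).val (pim ρ i.val)) &&
    (List.range D.nroots).all fun r => Nat.beq (D.permRoot π r) (pim σ r)

/-- The bond number preserving injective lists of a given length. -/
def symL (D : ChevalleyDatum) : ℕ → List (List ℕ)
  | 0 => [[]]
  | k + 1 => (symL D k).flatMap fun l => (List.range D.rank).filterMap fun a =>
      bif !l.contains a && (List.range k).all (fun j => D.bonds (l.getD j 0) a == D.bonds j k)
      then some (l ++ [a]) else none

/-- The root permutation of a list of nodes. -/
def permRootL (D : ChevalleyDatum) (l : List ℕ) (r : ℕ) : ℕ :=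
  ((List.range D.nroots).find? fun s => (List.finRange D.rank).all fun i =>
      (D.coroot.getD s #[]).getD (pim l i.val) 0 == (D.coroot.getD r #[]).getD i.val 0).getD r

/-- The data lists every symmetry with its root permutation. -/
def symB (D : ChevalleyDatum) (L : List (List ℕ × List ℕ × List Bool)) : Bool :=
  ((symL D D.rank).all fun l => L.any fun d => d.1 == l) &&
    L.all fun d => (List.range D.nroots).all fun r => Nat.beq (permRootL D d.1 r) (pim d.2.1 r)

theorem symL_mem (D : ChevalleyDatum) (π : Equiv.Perm (Fin D.rank)) (hπ : D.IsDiagramSymmetry π) :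
    ∀ k, k ≤ D.rank → (((List.finRange D.rank).map fun i => (π i).val).take k) ∈ symL D k := by
  intro k
  induction k with
  | zero => intro _; simp [symL]
  | succ k ih =>
    intro hk
    simp only [symL, List.mem_flatMap, List.mem_filterMap, List.mem_range]
    refine ⟨_, ih (by omega), (π ⟨k, hk⟩).val, (π ⟨k, hk⟩).2, ?_⟩
    have hget : ∀ j, j < D.rank → ((List.finRange D.rank).map fun i => (π i).val)[j]? = if h : j < D.rank then some (π ⟨j, h⟩).val else none := by
      intro j hj
      simp [hj]
    have hcond : (!(((List.finRange D.rank).map fun i => (π i).val).take k).contains (π ⟨k, hk⟩).val &&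
        (List.range k).all (fun j => D.bonds ((((List.finRange D.rank).map fun i => (π i).val).take k).getD j 0)
          (π ⟨k, hk⟩).val == D.bonds j k)) = true := by
      simp only [Bool.and_eq_true, Bool.not_eq_true', List.contains_eq_mem, decide_eq_false_iff_not,
        List.all_eq_true, List.mem_range, beq_iff_eq]
      refine ⟨fun hm => ?_, fun j hj => ?_⟩
      · obtain ⟨j, hj, e⟩ := List.getElem_of_mem hm
        simp only [List.length_take, List.length_map, List.length_finRange, lt_min_iff] at hj
        simp at e
        have := π.injective (Fin.ext e)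
        have := congrArg Fin.val this
        simp at this
        omega
      · rw [List.getD_eq_getElem?_getD, List.getElem?_take_of_lt hj, hget j (by omega), dif_pos (by omega),
          Option.getD_some]
        exact hπ ⟨j, by omega⟩ ⟨k, hk⟩ (fun e => by simp at e; omega)
    rw [hcond, cond_true, List.take_succ, hget k hk, dif_pos (show k < D.rank from hk)]
    rfl

theorem permB_of_symB {D : ChevalleyDatum} {L : List (List ℕ × List ℕ × List Bool)}
    (h : symB D L = true) (π : Equiv.Perm (Fin D.rank)) (hπ : D.IsDiagramSymmetry π) :
    (L.any fun d => permB D π d.1 d.2.1) = true := by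
  simp only [symB, Bool.and_eq_true, List.all_eq_true, List.any_eq_true, List.mem_range, beq_iff_eq] at h
  obtain ⟨h1, h2⟩ := h
  have hm := symL_mem D π hπ D.rank le_rfl
  rw [List.take_of_length_le (by simp)] at hm
  obtain ⟨d, hd, he⟩ := h1 _ hm
  have hp : ∀ i : Fin D.rank, pim d.1 i.val = (π i).val := by
    intro i
    rw [he, pim, List.getD_eq_getElem _ _ (by simp)]
    simp
  simp only [List.any_eq_true, permB, Bool.and_eq_true, List.all_eq_true, List.mem_range]
  refine ⟨d, hd, fun i _ => by rw [hp]; exact Nat.beq_refl _, fun r hr => ?_⟩
  have := Nat.eq_of_beq_eq_true (h2 d hd r hr)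
  rw [← this]
  simp only [permRootL, hp]
  exact Nat.beq_refl _

end Cfsg.Agent.Chev.Graph
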