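import Cfsg.Agent.Chev.RepCheck
import Cfsg.Agent.Chev.CertG2
import Cfsg.Agent.Chev.CertB2
import Cfsg.Agent.Chev.CertD4
import Cfsg.Agent.Chev.CertF4
import Cfsg.Agent.Chev.CertE6
import Cfsg.Agent.Chev.CertE7
import Cfsg.Agent.Chev.CertE8

set_option autoImplicit false
set_option maxRecDepth 100000

namespace Cfsg.Agent.Chev.Tits

open Cfsg.Lie

/-- The checks for standard parabolic subgroups. -/
def parOK (D : ChevalleyDatum) (c : Cert) : Bool :=
  corSimpleOK D &&
  (List.range D.nroots).all fun s =>
    ((List.range D.rank).all fun j => decide (cor D (D.neg s) j = -cor D s j)) &&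
    (Nat.blt s c.half || ((List.range D.rank).any fun i => Nat.beq s (D.simple i)) ||
      (List.range D.rank).any fun i => Nat.ble c.half (c.im i s) && Nat.blt (c.im i s) s && decide (cor D s i ≠ 0))

theorem parG2 : parOK chevG2 certG2 = true := by decide +kernel

theorem parB2 : parOK chevB2 certB2 = true := by decide +kernel

theorem parD4 : parOK chevD4 certD4 = true := by decide +kernel

theorem parF4 : parOK chevF4 certF4 = true := by decide +kernel

theorem parE6 : parOK chevE6 certE6 = true := by decide +kernel

theorem parE7 : parOK chevE7 certE7 = true := by decide +kernel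

theorem parE8 : parOK chevE8 certE8 = true := by decide +kernel

end Cfsg.Agent.Chev.Tits
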