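import Cfsg.Agent.Chev.Pair
import Cfsg.Agent.Chev.ParCerts

set_option autoImplicit false
attribute [-simp] Array.getD_eq_getD_getElem?

namespace Cfsg.Agent.Chev.Tits

open Cfsg.Lie Matrix Cfsg.Agent.Chev.Comm

variable {D : ChevalleyDatum} {c : Cert} {F : Type*} [Field F] (G : TGood D c)
include G

theorem parabolic_eq (hpar : parOK D c = true) (J : Set ℕ) :
    D.parabolicSubgroup F J = D.diagonalSubgroup F ⊔
      Subgroup.closure {g : GL D.Idx F | ∃ (r : ℕ) (t : F), (D.IsPosRoot r ∨ D.InRootSub J r) ∧
        (g : Matrix D.Idx D.Idx F) = D.x F r t} := by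
  simp only [parOK, corSimpleOK, Bool.and_eq_true, List.all_eq_true, List.mem_range, decide_eq_true_eq,
    Bool.or_eq_true, List.any_eq_true, Nat.blt_eq, Nat.ble_eq] at hpar
  obtain ⟨hsimp, hall⟩ := hpar
  have negSub : ∀ r < D.nroots, D.InRootSub J r → D.InRootSub J (D.neg r) := by
    intro r hr h
    refine ⟨G.good.neg_lt hr, fun i hi hiJ => ?_⟩
    have e1 := (hall r hr).1 i hi
    have e2 := h.2 i hi hiJ
    unfold cor at e1
    rw [e1, e2, neg_zero]
  have simpSub : ∀ j < D.rank, j ∈ J → D.InRootSub J (D.simple j) := by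
    intro j hj hjJ
    refine ⟨(G.good.simple hj).lt, fun i hi hiJ => ?_⟩
    have := hsimp j hj i hi
    unfold cor at this
    rw [this, if_neg (fun e => hiJ (by rw [← e]; exact hjJ))]
  apply le_antisymm
  · rw [ChevalleyDatum.parabolicSubgroup]
    refine sup_le (sup_le ?_ le_sup_left) ?_
    · refine le_trans ?_ le_sup_right
      rw [ChevalleyDatum.posUnipotent, Subgroup.closure_le]
      rintro x ⟨r, t, hr, hx⟩
      exact Subgroup.subset_closure ⟨r, t, Or.inl hr, hx⟩
    · rw [Subgroup.closure_le]
      rintro x ⟨j, hjJ, hj, hx⟩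
      have hp := (G.good.simple hj).lt
      rw [show x = nG G.good (D.simple j) hp 1 from Units.ext (by rw [hx, nG_val])]
      have mem : ∀ r, ∀ hr : r < D.nroots, D.InRootSub J r → ∀ t : F, xG G.good r hr t ∈
          Subgroup.closure {g : GL D.Idx F | ∃ (r : ℕ) (t : F), (D.IsPosRoot r ∨ D.InRootSub J r) ∧
            (g : Matrix D.Idx D.Idx F) = D.x F r t} :=
        fun r hr h t => Subgroup.subset_closure ⟨r, t, Or.inr h, rfl⟩
      exact Subgroup.mem_sup_right (mul_mem (mul_mem (mem _ hp (simpSub j hj hjJ) _)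
        (mem _ (G.good.neg_lt hp) (negSub _ hp (simpSub j hj hjJ)) _)) (mem _ hp (simpSub j hj hjJ) _))
  · set P := D.parabolicSubgroup F J
    have hB : D.borelSubgroup F ≤ P := le_sup_left
    have hn : ∀ j, j < D.rank → j ∈ J → nn G.good F j ∈ P := fun j hj hjJ =>
      Subgroup.mem_sup_right (Subgroup.subset_closure ⟨j, hjJ, hj, by rw [nn_eq G hj, nG_val]⟩)
    have main : ∀ s, ∀ hs : s < D.nroots, c.half ≤ s → D.InRootSub J s →
        ∀ t : F, xG G.good (D.neg s) (G.good.neg_lt hs) t ∈ P := by
      intro s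
      induction s using Nat.strong_induction_on with
      | _ s ih =>
        intro hs hp hsub t
        rcases (hall s hs).2 with (h | ⟨i, hi, e⟩) | ⟨i, hi, ⟨h1, h2⟩, h3⟩
        · omega
        · obtain rfl := Nat.eq_of_beq_eq_true e
          have hiJ : i ∈ J := by
            by_contra hiJ
            have e2 := hsub.2 i hi hiJ
            have e1 := hsimp i hi i hi
            unfold cor at e1
            rw [e2, if_pos rfl] at e1
            exact zero_ne_one e1
          have := mul_mem (mul_mem (hn i hi hiJ) (hB (xG_mem_B G hs (G.good.simple hi).pos ((c.sgn i (D.simple i) : F) * t))))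
            (inv_mem (hn i hi hiJ))
          rwa [nn_conj G hi hs, xG_congr G.good (G.good.simple hi).im_self _ (G.good.neg_lt hs), ← mul_assoc,
            sgn_sqF, one_mul] at this
        · have hiJ : i ∈ J := by
            by_contra hiJ
            exact h3 (hsub.2 i hi hiJ)
          have R := G.good.refl hi hs
          have hsub' : D.InRootSub J (c.im i s) := by
            refine ⟨R.lt, fun j hj hjJ => ?_⟩
            rw [R.coroot_im j hj, if_neg (fun e : j = i => hjJ (by rw [e]; exact hiJ)), sub_zero]
            exact hsub.2 j hj hjJ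
          have := mul_mem (mul_mem (hn i hi hiJ) (ih _ h2 R.lt h1 hsub' ((c.sgn i (D.neg (c.im i s)) : F) * t)))
            (inv_mem (hn i hi hiJ))
          have e : c.im i (D.neg (c.im i s)) = D.neg s := by
            rw [(G.good.refl hi R.lt).im_neg, R.invol]
          rwa [nn_conj G hi (G.good.neg_lt R.lt), xG_congr G.good e _ (G.good.neg_lt hs), ← mul_assoc, sgn_sqF, one_mul] at this
    refine sup_le (le_trans le_sup_right hB) ?_
    rw [Subgroup.closure_le]
    rintro x ⟨r, t, hr, hx⟩
    rcases hr with hr | hr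
    · exact hB (Subgroup.mem_sup_left (Subgroup.subset_closure ⟨r, t, hr, hx⟩))
    · have hlt := hr.1
      rw [show x = xG G.good r hlt t from Units.ext hx]
      by_cases hp : c.half ≤ r
      · exact hB (xG_mem_B G hlt hp t)
      · have := main (D.neg r) (G.good.neg_lt hlt) ((neg_side G hlt).1 (not_le.1 hp)) (negSub r hlt hr) t
        rwa [xG_congr G.good (G.good.neg_neg hlt) _ hlt] at this

end Cfsg.Agent.Chev.Tits
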