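import Cfsg.Agent.Chev.LeviCheck
import Cfsg.Agent.Chev.Par

/-!
The Levi decomposition of the standard parabolic subgroups.
-/

set_option autoImplicit false
attribute [-simp] Array.getD_eq_getD_getElem?

namespace Cfsg.Agent.Chev.Levi

open Cfsg.Lie Matrix Cfsg.Agent.Chev.Tits Cfsg.Agent.Chev.Comm

variable {D : ChevalleyDatum} {c : Cert} {F : Type*} [Field F] {Ls : List ℤ} {d : ℤ} {V : List (List ℤ)}
  (G : TGood D c) (hlin : linOK D Ls d V = true)

open Classical in
/-- The degree of a root outside `J`. -/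
noncomputable def deg (D : ChevalleyDatum) (Ls : List ℤ) (J : Set ℕ) (r : ℕ) : ℤ :=
  ∑ k ∈ (Finset.range D.rank).filter (fun k => k ∉ J), wgt D Ls r k

/-- The degree of a coordinate. -/
noncomputable def dI (D : ChevalleyDatum) (Ls : List ℤ) (J : Set ℕ) : D.Idx → ℤ :=
  Sum.elim (fun _ => 0) (fun s => deg D Ls J s.val)

include G hlin

theorem lin_sum {r : ℕ} (hr : r < D.nroots) {k : ℕ} (hk : k < D.rank) :
    0 < d ∧ d * wgt D Ls r k = ∑ i ∈ Finset.range D.rank, (V.getD k []).getD i 0 * D.cartan i r := by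
  have hp := G.good.pack
  simp only [packOK, Bool.and_eq_true, List.all_eq_true] at hp
  simp only [linOK, List.all_eq_true, List.mem_range, Bool.and_eq_true, decide_eq_true_eq] at hlin
  obtain ⟨⟨-, hd⟩, h⟩ := hlin
  obtain ⟨hlen, hv⟩ := h k hk
  have h1 := hv r hr
  rw [G.good.corootP_get hk hr] at h1
  refine ⟨hd, h1.trans ?_⟩
  have main : ∀ (v : List ℤ) (A : List ℕ), v.length = A.length →
      dotP v A r = ∑ i ∈ Finset.range v.length, v.getD i 0 * getI (A.getD i 0) r := by
    intro v
    induction v with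
    | nil => intro A _; cases A <;> simp [dotP]
    | cons x v ih =>
      intro A hA
      cases A with
      | nil => simp at hA
      | cons a A =>
        rw [dotP, ih A (by simpa using hA), List.length_cons, Finset.sum_range_succ']
        simp [add_comm]
  have hlA : (cartanP D).length = D.rank := by
    have h0 := G.good.datum
    simp only [datumOK, Bool.and_eq_true] at h0
    simpa [cartanP] using Nat.eq_of_beq_eq_true h0.1.1.2
  rw [main _ _ ((Nat.eq_of_beq_eq_true hlen).trans hlA.symm), Nat.eq_of_beq_eq_true hlen]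
  exact Finset.sum_congr rfl fun i hi => by rw [G.good.cartanP_get (Finset.mem_range.1 hi) hr]

theorem lin_neg {r : ℕ} (hr : r < D.nroots) {k : ℕ} (hk : k < D.rank) :
    wgt D Ls (D.neg r) k = -wgt D Ls r k := by
  obtain ⟨hd, h1⟩ := lin_sum G hlin hr hk
  obtain ⟨-, h2⟩ := lin_sum G hlin (G.good.neg_lt hr) hk
  refine mul_left_cancel₀ hd.ne' ?_
  rw [mul_neg, h1, h2, ← Finset.sum_neg_distrib]
  exact Finset.sum_congr rfl fun i hi => by
    rw [(G.good.refl (Finset.mem_range.1 hi) hr).cartan_neg, mul_neg]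

theorem deg_neg (J : Set ℕ) {r : ℕ} (hr : r < D.nroots) :
    deg D Ls J (D.neg r) = -deg D Ls J r := by
  unfold deg
  rw [← Finset.sum_neg_distrib]
  exact Finset.sum_congr rfl fun k hk => lin_neg G hlin hr (by simp at hk; exact hk.1)

theorem deg_chain (J : Set ℕ) {r s j : ℕ} (hr : r < D.nroots) (hs : s < D.nroots) {q : ℕ × ℤ}
    (hq : (D.chainEntry r s)[j]? = some q) :
    deg D Ls J q.1 = deg D Ls J s + ((j : ℤ) + 1) * deg D Ls J r := by
  have hql := ((facts G.good.datum hr).range s q (List.mem_of_getElem? hq)).1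
  unfold deg
  rw [Finset.mul_sum, ← Finset.sum_add_distrib]
  refine Finset.sum_congr rfl fun k hk => ?_
  have hkr : k < D.rank := by simp at hk; exact hk.1
  obtain ⟨hd, h1⟩ := lin_sum G hlin hr hkr
  obtain ⟨-, h2⟩ := lin_sum G hlin hs hkr
  obtain ⟨-, h3⟩ := lin_sum G hlin hql hkr
  refine mul_left_cancel₀ hd.ne' ?_
  rw [mul_add, mul_left_comm, h1, h2, h3, Finset.mul_sum, ← Finset.sum_add_distrib]
  exact Finset.sum_congr rfl fun i hi => by
    rw [G.good.cartan_chain (Finset.mem_range.1 hi) hr hs hq]; ring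

theorem deg_pos {J : Set ℕ} {r : ℕ} (hr : D.IsPosRoot r) :
    0 ≤ deg D Ls J r ∧ (¬ D.InRootSub J r → 0 < deg D Ls J r) := by
  classical
  simp only [linOK, List.all_eq_true, Bool.and_eq_true, decide_eq_true_eq] at hlin
  have hc : ∀ k, 0 ≤ cor D r k := by
    intro k
    unfold cor
    rw [array_getD (D.coroot.getD r #[]) k 0]
    by_cases hk : k < (D.coroot.getD r #[]).toList.length
    · rw [List.getD_eq_getElem _ _ hk]; exact hr.2 _ (List.getElem_mem _)
    · rw [List.getD_eq_default _ _ (not_lt.1 hk)]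
  have hL : 0 < Ls.getD r 1 := by
    rcases Nat.lt_or_ge r Ls.length with h | h
    · rw [List.getD_eq_getElem _ _ h]; exact hlin.1.1 _ (List.getElem_mem _)
    · rw [List.getD_eq_default _ _ h]; exact one_pos
  have hw : ∀ k, 0 ≤ wgt D Ls r k := fun k => mul_nonneg (hc k) hL.le
  refine ⟨Finset.sum_nonneg fun k _ => hw k, fun hn => ?_⟩
  simp only [ChevalleyDatum.InRootSub, hr.1, true_and, not_forall] at hn
  obtain ⟨k, hk, hkJ, hne⟩ := hn
  refine lt_of_lt_of_le ?_ (Finset.single_le_sum (fun k _ => hw k) (Finset.mem_filter.2 ⟨Finset.mem_range.2 hk, hkJ⟩))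
  exact mul_pos (lt_of_le_of_ne (hc k) (Ne.symm hne)) hL

omit G hlin in
theorem deg_sub {J : Set ℕ} {r : ℕ} (hr : D.InRootSub J r) : deg D Ls J r = 0 := by
  refine Finset.sum_eq_zero fun k hk => ?_
  simp only [Finset.mem_filter, Finset.mem_range] at hk
  unfold wgt cor
  rw [hr.2 k hk.1 hk.2, zero_mul]

theorem of_deg_pos {J : Set ℕ} {q : ℕ} (hq : q < D.nroots) (h : 0 < deg D Ls J q) :
    D.IsPosRoot q ∧ ¬ D.InRootSub J q := by
  refine ⟨(pos_iff G.good).2 ⟨hq, ?_⟩, fun hs => by rw [deg_sub hs] at h; exact lt_irrefl _ h⟩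
  by_contra hp
  have hn := (pos_iff G.good).2 ⟨G.good.neg_lt hq, (neg_side G hq).1 (not_le.1 hp)⟩
  have := (deg_pos G hlin (J := J) hn).1
  rw [deg_neg G hlin J hq] at this
  omega

theorem deg_terms (J : Set ℕ) {r s : ℕ} (hr : r < D.nroots) (hs : s < D.nroots) :
    ∀ q ∈ D.commTerms r s, ∃ a b : ℤ, 0 < a ∧ 0 < b ∧ deg D Ls J q.1 = a * deg D Ls J r + b * deg D Ls J s := by
  have root : ∀ {r s i k : ℕ}, r < D.nroots → s < D.nroots → 0 < i → D.chainRoot r s i = some k →
      deg D Ls J k = deg D Ls J s + (i : ℤ) * deg D Ls J r := by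
    intro r s i k hr hs hi h
    simp only [ChevalleyDatum.chainRoot, Option.map_eq_some_iff] at h
    obtain ⟨q, hq, rfl⟩ := h
    rw [deg_chain G hlin J hr hs hq]
    have : ((i - 1 : ℕ) : ℤ) + 1 = i := by omega
    rw [this]
  intro q hq
  simp only [ChevalleyDatum.commTerms, List.mem_filterMap, List.mem_cons, List.not_mem_nil, or_false,
    Option.map_eq_some_iff] at hq
  obtain ⟨a, ha, k, hk, rfl⟩ := hq
  rcases ha with rfl | rfl | rfl | rfl | rfl | rfl | rfl
  · exact ⟨1, 1, one_pos, one_pos, by rw [root hr hs (by norm_num) hk]; push_cast; ring⟩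
  · exact ⟨2, 1, by norm_num, one_pos, by rw [root hr hs (by norm_num) hk]; push_cast; ring⟩
  · exact ⟨1, 2, one_pos, by norm_num, by rw [root hs hr (by norm_num) hk]; push_cast; ring⟩
  · exact ⟨3, 1, by norm_num, one_pos, by rw [root hr hs (by norm_num) hk]; push_cast; ring⟩
  · exact ⟨1, 3, one_pos, by norm_num, by rw [root hs hr (by norm_num) hk]; push_cast; ring⟩
  · obtain ⟨j, hj, hj'⟩ := Option.bind_eq_some_iff.1 hk
    exact ⟨3, 2, by norm_num, by norm_num, by
      rw [root (root_lt G.good hr hj) hs (by norm_num) hj', root hr hs (by norm_num) hj]; push_cast; ring⟩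
  · obtain ⟨j, hj, hj'⟩ := Option.bind_eq_some_iff.1 hk
    exact ⟨2, 3, by norm_num, by norm_num, by
      rw [root (root_lt G.good hs hj) hr (by norm_num) hj', root hs hr (by norm_num) hj]; push_cast; ring⟩

theorem x_deg (J : Set ℕ) {r : ℕ} (hr : r < D.nroots) (t : F) (i j : D.Idx)
    (h : (D.x F r t - 1) i j ≠ 0) :
    ∃ k : ℤ, 0 < k ∧ dI D Ls J i = dI D Ls J j + k * deg D Ls J r := by
  have hcol : (D.x F r t - 1) i j = (D.x F r t *ᵥ (ee j : D.Idx → F) - (ee j : D.Idx → F)) i := by
    simp [ee, mulVec_single_one, Matrix.one_apply, Pi.single_apply]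
  rw [hcol] at h
  rcases j with j | ⟨s, hs⟩
  · rw [x_h hr] at h
    rcases i with i | i
    · simp [rv_inl] at h
    · simp [rv_apply] at h
      exact ⟨1, one_pos, by simp [dI, h.1]⟩
  · have e : (ee (Sum.inr ⟨s, hs⟩) : D.Idx → F) = rv D F s := by rw [rv, dif_pos hs]
    rw [e] at h
    by_cases h1 : s = r
    · subst h1; simp [x_self G.good.datum hr] at h
    by_cases h2 : s = D.neg r
    · subst h2
      rw [x_neg G.good.datum hr] at h
      rcases i with i | i
      · exact ⟨1, one_pos, by simp [dI, deg_neg G hlin J hr]⟩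
      · refine ⟨2, by norm_num, ?_⟩
        have : (i : ℕ) = r := by
          by_contra hne
          simp [hv, rv_apply, hne] at h
        simp [dI, this, deg_neg G hlin J hr]
        ring
    rw [x_other G.good.datum hr _ hs h1 h2, add_sub_cancel_left] at h
    rcases i with i | i
    · exact absurd ((cv_apply t _ _).1 i) h
    · rw [(cv_apply t _ _).2] at h
      have main : ∀ (L : List (ℕ × ℤ)) (n : ℕ), cs F t n L i.val ≠ 0 → ∃ (j : ℕ) (q : ℕ × ℤ), L[j]? = some q ∧ q.1 = i.val := by
        intro L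
        induction L with
        | nil => intro n h; simp [cs] at h
        | cons a L ih =>
          obtain ⟨a1, a2⟩ := a
          intro n h
          by_cases e : a1 = i.val
          · exact ⟨0, (a1, a2), rfl, e⟩
          · rw [cs, if_neg e, zero_add] at h
            obtain ⟨j, q, h1, h2⟩ := ih _ h
            exact ⟨j + 1, q, by simpa using h1, h2⟩
      obtain ⟨j, q, hj, hqi⟩ := main _ _ h
      exact ⟨(j : ℤ) + 1, by omega, by simp [dI, ← hqi, deg_chain G hlin J hr hs hj]⟩

omit G hlin in
/-- Matrices preserving the degree, with their inverses. -/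
def Pres0 (d : D.Idx → ℤ) : Subgroup (GL D.Idx F) where
  carrier := {g | (∀ i j, (g : Matrix D.Idx D.Idx F) i j ≠ 0 → d i = d j) ∧
    ∀ i j, ((g⁻¹ : GL D.Idx F) : Matrix D.Idx D.Idx F) i j ≠ 0 → d i = d j}
  mul_mem' := fun {a b} ha hb => by
    have hmul : ∀ A B : Matrix D.Idx D.Idx F, (∀ i j, A i j ≠ 0 → d i = d j) →
        (∀ i j, B i j ≠ 0 → d i = d j) → ∀ i j, (A * B) i j ≠ 0 → d i = d j := by
      intro A B hA hB i j h
      rw [Matrix.mul_apply] at h
      obtain ⟨l, -, hl⟩ := Finset.exists_ne_zero_of_sum_ne_zero h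
      exact (hA i l (left_ne_zero_of_mul hl)).trans (hB l j (right_ne_zero_of_mul hl))
    refine ⟨?_, ?_⟩
    · rw [Units.val_mul]; exact hmul _ _ ha.1 hb.1
    · rw [_root_.mul_inv_rev, Units.val_mul]; exact hmul _ _ hb.2 ha.2
  one_mem' := by
    constructor <;> intro i j h <;> (by_cases e : i = j; · rw [e]) <;> simp [Matrix.one_apply_ne e] at h
  inv_mem' := fun {a} ha => ⟨ha.2, by rw [inv_inv]; exact ha.1⟩

omit G hlin in
/-- Matrices raising the degree, with their inverses. -/
def Up (d : D.Idx → ℤ) : Subgroup (GL D.Idx F) where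
  carrier := {g | (∀ i j, ((g : Matrix D.Idx D.Idx F) - 1) i j ≠ 0 → d j < d i) ∧
    ∀ i j, (((g⁻¹ : GL D.Idx F) : Matrix D.Idx D.Idx F) - 1) i j ≠ 0 → d j < d i}
  mul_mem' := fun {a b} ha hb => by
    have hmul : ∀ A B : Matrix D.Idx D.Idx F, (∀ i j, (A - 1) i j ≠ 0 → d j < d i) →
        (∀ i j, (B - 1) i j ≠ 0 → d j < d i) → ∀ i j, (A * B - 1) i j ≠ 0 → d j < d i := by
      intro A B hA hB i j h
      have e : A * B - 1 = (A - 1) * (B - 1) + (A - 1) + (B - 1) := by noncomm_ring
      rw [e, Matrix.add_apply, Matrix.add_apply] at h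
      by_cases h1 : (B - 1) i j = 0
      · by_cases h2 : (A - 1) i j = 0
        · rw [h1, h2, add_zero, add_zero, Matrix.mul_apply] at h
          obtain ⟨l, -, hl⟩ := Finset.exists_ne_zero_of_sum_ne_zero h
          exact (hB l j (right_ne_zero_of_mul hl)).trans (hA i l (left_ne_zero_of_mul hl))
        · exact hA i j h2
      · exact hB i j h1
    refine ⟨?_, ?_⟩
    · rw [Units.val_mul]; exact hmul _ _ ha.1 hb.1
    · rw [_root_.mul_inv_rev, Units.val_mul]; exact hmul _ _ hb.2 ha.2
  one_mem' := by constructor <;> intro i j h <;> simp at h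
  inv_mem' := fun {a} ha => ⟨ha.2, by rw [inv_inv]; exact ha.1⟩

omit G hlin in
theorem inter_trivial (d : D.Idx → ℤ) {g : GL D.Idx F} (h1 : g ∈ Pres0 d) (h2 : g ∈ Up d) : g = 1 := by
  refine Units.ext ?_
  rw [Units.val_one]
  ext i j
  by_contra hne
  have hd := h2.1 i j (by simpa [Matrix.sub_apply, sub_ne_zero] using hne)
  by_cases e : i = j
  · subst e; exact lt_irrefl _ hd
  · rw [Matrix.one_apply_ne e] at hne
    have := h1.1 i j hne
    omega

theorem levi (hpar : parOK D c = true) (J : Set ℕ) :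
    D.parabolicSubgroup F J ≤ Subgroup.normalizer (D.unipotentRadical F J : Set (GL D.Idx F)) ∧
      D.unipotentRadical F J ⊔ D.leviSubgroup F J = D.parabolicSubgroup F J ∧
      D.unipotentRadical F J ⊓ D.leviSubgroup F J = ⊥ := by
  have hUJ : ∀ q, ∀ hq : q < D.nroots, 0 < deg D Ls J q → ∀ t : F,
      xG G.good q hq t ∈ D.unipotentRadical F J := fun q hq h t =>
    Subgroup.subset_closure ⟨q, t, (of_deg_pos G hlin hq h).1, (of_deg_pos G hlin hq h).2, rfl⟩
  rw [parabolic_eq G hpar J]
  refine ⟨sup_le ?_ ?_, ?_, ?_⟩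
  · intro h hh
    obtain ⟨χ, -, hc⟩ := H_char G.good hh
    rw [Subgroup.mem_normalizer_iff]
    have key : ∀ h ∈ D.diagonalSubgroup F, ∀ x ∈ D.unipotentRadical F J, h * x * h⁻¹ ∈ D.unipotentRadical F J := by
      intro h hh x hx
      obtain ⟨χ, -, hc⟩ := H_char G.good hh
      induction hx using Subgroup.closure_induction with
      | mem x hx =>
        obtain ⟨r, t, hr, hns, hx⟩ := hx
        rw [show x = xG G.good r hr.1 t from Units.ext hx, (hc r hr.1).2]
        exact Subgroup.subset_closure ⟨r, χ r * t, hr, hns, rfl⟩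
      | one => simp
      | mul a b _ _ ha hb => have := mul_mem ha hb; simpa [mul_assoc] using this
      | inv a _ ha => have := inv_mem ha; simpa [mul_assoc] using this
    refine fun x => ⟨key h hh x, fun hx => ?_⟩
    have := key h⁻¹ (inv_mem hh) _ hx
    rwa [inv_inv, show h⁻¹ * (h * x * h⁻¹) * h = x by group] at this
  · rw [Subgroup.closure_le]
    rintro g ⟨r, t, hr, hg⟩
    have hlt : r < D.nroots := by rcases hr with h | h <;> exact h.1
    have h0 : 0 ≤ deg D Ls J r := by
      rcases hr with h | h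
      · exact (deg_pos G hlin h).1
      · rw [deg_sub h]
    rw [show g = xG G.good r hlt t from Units.ext hg, SetLike.mem_coe, Subgroup.mem_normalizer_iff]
    have key : ∀ t : F, ∀ x ∈ D.unipotentRadical F J,
        xG G.good r hlt t * x * (xG G.good r hlt t)⁻¹ ∈ D.unipotentRadical F J := by
      intro t x hx
      induction hx using Subgroup.closure_induction with
      | mem x hx =>
        obtain ⟨s, v, hs, hns, hx⟩ := hx
        have hd : 0 < deg D Ls J s := (deg_pos G hlin hs).2 hns
        rw [show x = xG G.good s hs.1 v from Units.ext hx]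
        by_cases e : s = r
        · subst e
          rw [xG_mul, xG_inv, xG_mul, show t + v + -t = v by ring]
          exact hUJ _ _ hd v
        have hne : s ≠ D.neg r := fun e' => by
          rw [e', deg_neg G hlin J hlt] at hd; omega
        refine comm_conj G hlt hs.1 e hne t v (hUJ _ _ hd v) fun q hq hql w => hUJ _ hql ?_ w
        obtain ⟨a, b, ha, hb, e⟩ := deg_terms G hlin J hlt hs.1 q hq
        rw [e]
        have := mul_nonneg ha.le h0
        have := mul_pos hb hd
        omega
      | one => simp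
      | mul a b _ _ ha hb => have := mul_mem ha hb; simpa [mul_assoc] using this
      | inv a _ ha => have := inv_mem ha; simpa [mul_assoc] using this
    refine fun x => ⟨key t x, fun hx => ?_⟩
    have := key (-t) _ hx
    rwa [← xG_inv, show (xG G.good r hlt t)⁻¹ * (xG G.good r hlt t * x * (xG G.good r hlt t)⁻¹) *
      ((xG G.good r hlt t)⁻¹)⁻¹ = x by group] at this
  · refine le_antisymm (sup_le (le_trans ?_ le_sup_right) (sup_le le_sup_left (le_trans ?_ le_sup_right)))
      (sup_le (le_trans le_sup_left le_sup_right) ?_)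
    · rw [ChevalleyDatum.unipotentRadical, Subgroup.closure_le]
      rintro x ⟨r, t, hr, -, hx⟩
      exact Subgroup.subset_closure ⟨r, t, Or.inl hr, hx⟩
    · rw [Subgroup.closure_le]
      rintro x ⟨r, t, hr, hx⟩
      exact Subgroup.subset_closure ⟨r, t, Or.inr hr, hx⟩
    · rw [Subgroup.closure_le]
      rintro x ⟨r, t, hr, hx⟩
      by_cases hs : D.InRootSub J r
      · exact Subgroup.mem_sup_right (Subgroup.mem_sup_right (Subgroup.subset_closure ⟨r, t, hs, hx⟩))
      · exact Subgroup.mem_sup_left (Subgroup.subset_closure ⟨r, t, hr.resolve_right hs, hs, hx⟩)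
  · rw [Subgroup.eq_bot_iff_forall]
    rintro g ⟨hgU, hgL⟩
    refine inter_trivial (dI D Ls J) ?_ ?_
    · refine (sup_le ?_ ?_ : D.leviSubgroup F J ≤ Pres0 (dI D Ls J)) hgL
      · intro h hh
        constructor
        · obtain ⟨χ, e, -⟩ := H_char G.good hh
          intro i j hij
          rw [e, dg] at hij
          by_cases e' : i = j
          · rw [e']
          · rw [Matrix.diagonal_apply_ne _ e'] at hij; exact absurd rfl hij
        · obtain ⟨χ, e, -⟩ := H_char G.good (inv_mem hh)
          intro i j hij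
          rw [e, dg] at hij
          by_cases e' : i = j
          · rw [e']
          · rw [Matrix.diagonal_apply_ne _ e'] at hij; exact absurd rfl hij
      · rw [Subgroup.closure_le]
        rintro x ⟨r, t, hr, hx⟩
        have hlt := hr.1
        have key : ∀ u : F, ∀ i j, D.x F r u i j ≠ 0 → dI D Ls J i = dI D Ls J j := by
          intro u i j hij
          by_cases e : i = j
          · rw [e]
          · obtain ⟨k, -, hk⟩ := x_deg G hlin J hlt u i j (by simpa [Matrix.sub_apply, Matrix.one_apply_ne e] using hij)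
            rw [hk, deg_sub hr]; simp
        rw [show x = xG G.good r hlt t from Units.ext hx]
        refine ⟨key t, ?_⟩
        rw [xG_inv]
        exact key (-t)
    · refine ((Subgroup.closure_le _).2 ?_ : D.unipotentRadical F J ≤ Up (dI D Ls J)) hgU
      rintro x ⟨r, t, hr, hns, hx⟩
      have hd := (deg_pos G hlin hr).2 hns
      have key : ∀ u : F, ∀ i j, (D.x F r u - 1) i j ≠ 0 → dI D Ls J j < dI D Ls J i := by
        intro u i j hij
        obtain ⟨k, hk0, hk⟩ := x_deg G hlin J hr.1 u i j hij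
        have := mul_pos hk0 hd
        omega
      rw [show x = xG G.good r hr.1 t from Units.ext hx]
      refine ⟨key t, ?_⟩
      rw [xG_inv]
      exact key (-t)

end Cfsg.Agent.Chev.Levi
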