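import Cfsg.Agent.Chev.Par
import Cfsg.Agent.Chev.TitsAll

set_option autoImplicit false

namespace Cfsg.Agent.Chev.Tits

open Cfsg.Lie Cfsg.Agent.Chev.Comm

theorem tgood_par_of_mem {D : ChevalleyDatum}
    (hD : D ∈ [chevG2, chevB2, chevD4, chevF4, chevE6, chevE7, chevE8]) : ∃ c, TGood D c ∧ parOK D c = true := by
  simp only [List.mem_cons, List.not_mem_nil, or_false] at hD
  rcases hD with rfl | rfl | rfl | rfl | rfl | rfl | rfl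
  · exact ⟨_, ⟨⟨goodG2, repG2, closedG2⟩, posG2, connG2, selfG2⟩, parG2⟩
  · exact ⟨_, ⟨⟨goodB2, repB2, closedB2⟩, posB2, connB2, selfB2⟩, parB2⟩
  · exact ⟨_, ⟨⟨goodD4, repD4, closedD4⟩, posD4, connD4, selfD4⟩, parD4⟩
  · exact ⟨_, ⟨⟨goodF4, repF4, closedF4⟩, posF4, connF4, selfF4⟩, parF4⟩
  · exact ⟨_, ⟨⟨goodE6, repE6, closedE6⟩, posE6, connE6, selfE6⟩, parE6⟩
  · exact ⟨_, ⟨⟨goodE7, repE7, closedE7⟩, posE7, connE7, selfE7⟩, parE7⟩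
  · exact ⟨_, ⟨⟨goodE8, repE8, closedE8⟩, posE8, connE8, selfE8⟩, parE8⟩

end Cfsg.Agent.Chev.Tits
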