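import Cfsg.Agent.Chev.Levi
import Cfsg.Agent.Chev.ParAll

set_option autoImplicit false
set_option maxRecDepth 100000

namespace Cfsg.Agent.Chev.Levi

open Cfsg.Lie Cfsg.Agent.Chev.Tits Cfsg.Agent.Chev.Comm

theorem linG2 : linOK chevG2 [3, 3, 1, 1, 1, 3, 3, 1, 1, 1, 3, 3] 1
    [[2, 3], [3, 6]] = true := by decide +kernel
theorem linB2 : linOK chevB2 [2, 1, 1, 2, 2, 1, 1, 2] 1
    [[1, 1], [1, 2]] = true := by decide +kernel
theorem linD4 : linOK chevD4 [] 2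
    [[2, 2, 1, 1], [2, 4, 2, 2], [1, 2, 2, 1], [1, 2, 1, 2]] = true := by decide +kernel
theorem linF4 : linOK chevF4 [2, 2, 2, 1, 2, 2, 2, 1, 1, 1, 1, 1, 1, 1, 1, 2, 2, 2, 1, 1, 1, 2, 2, 2, 2, 2, 2, 1, 1, 1, 2, 2, 2, 1, 1, 1, 1, 1, 1, 1, 1, 2, 2, 2, 1, 2, 2, 2] 1
    [[2, 3, 4, 2], [3, 6, 8, 4], [4, 8, 12, 6], [2, 4, 6, 4]] = true := by decide +kernel
theorem linE6 : linOK chevE6 [] 3
    [[4, 3, 5, 6, 4, 2], [3, 6, 6, 9, 6, 3], [5, 6, 10, 12, 8, 4], [6, 9, 12, 18, 12, 6], [4, 6, 8, 12, 10, 5], [2, 3, 4, 6, 5, 4]] = true := by decide +kernel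
theorem linE7 : linOK chevE7 [] 2
    [[4, 4, 6, 8, 6, 4, 2], [4, 7, 8, 12, 9, 6, 3], [6, 8, 12, 16, 12, 8, 4], [8, 12, 16, 24, 18, 12, 6], [6, 9, 12, 18, 15, 10, 5], [4, 6, 8, 12, 10, 8, 4], [2, 3, 4, 6, 5, 4, 3]] = true := by decide +kernel
theorem linE8 : linOK chevE8 [] 1
    [[4, 5, 7, 10, 8, 6, 4, 2], [5, 8, 10, 15, 12, 9, 6, 3], [7, 10, 14, 20, 16, 12, 8, 4], [10, 15, 20, 30, 24, 18, 12, 6], [8, 12, 16, 24, 20, 15, 10, 5], [6, 9, 12, 18, 15, 12, 8, 4], [4, 6, 8, 12, 10, 8, 6, 3], [2, 3, 4, 6, 5, 4, 3, 2]] = true := by decide +kernel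

theorem levi_of_mem {F : Type*} [Field F] {D : ChevalleyDatum}
    (hD : D ∈ [chevG2, chevB2, chevD4, chevF4, chevE6, chevE7, chevE8]) (J : Set ℕ) :
    D.parabolicSubgroup F J ≤ Subgroup.normalizer (D.unipotentRadical F J : Set (GL D.Idx F)) ∧
      D.unipotentRadical F J ⊔ D.leviSubgroup F J = D.parabolicSubgroup F J ∧
      D.unipotentRadical F J ⊓ D.leviSubgroup F J = ⊥ := by
  obtain ⟨k, G, hpar⟩ := tgood_par_of_mem hD
  simp only [List.mem_cons, List.not_mem_nil, or_false] at hD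
  rcases hD with rfl | rfl | rfl | rfl | rfl | rfl | rfl
  · exact levi G linG2 hpar J
  · exact levi G linB2 hpar J
  · exact levi G linD4 hpar J
  · exact levi G linF4 hpar J
  · exact levi G linE6 hpar J
  · exact levi G linE7 hpar J
  · exact levi G linE8 hpar J

end Cfsg.Agent.Chev.Levi
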