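import Cfsg.Agent.Chev.RepCheck
import Cfsg.Agent.Chev.Check2
import Cfsg.Prelude.Def_ChevStructure

set_option autoImplicit false

namespace Cfsg.Agent.Chev.Levi

open Cfsg.Lie Cfsg.Agent.Chev.Tits

/-- A scaled root coordinate: the coroot coordinate times the squared length. -/
def wgt (D : ChevalleyDatum) (Ls : List ℤ) (r k : ℕ) : ℤ := cor D r k * Ls.getD r 1

/-- The packed dot product of a row of coefficients with the Cartan numbers of `r`. -/
def dotP : List ℤ → List ℕ → ℕ → ℤ
  | v :: vs, A :: As, r => v * getI A r + dotP vs As r
  | _, _, _ => 0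

/-- The weights are fixed combinations of the Cartan numbers. -/
def linOK (D : ChevalleyDatum) (Ls : List ℤ) (d : ℤ) (V : List (List ℤ)) : Bool :=
  (Ls.all fun x => decide (0 < x)) && decide (0 < d) &&
  (List.range D.rank).all fun k =>
    let P := (corootP D).getD k 0
    let A := cartanP D
    let v := V.getD k []
    Nat.beq v.length D.rank &&
    (List.range D.nroots).all fun r => decide (d * (getI P r * Ls.getD r 1) = dotP v A r)

end Cfsg.Agent.Chev.Levi
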