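import Cfsg.Agent.Chev.LeviAll
import Cfsg.Agent.Chev.ParAll
import Cfsg.Agent.Chev.Count
import Cfsg.Agent.Chev.Simple
import Cfsg.Agent.S1043

set_option autoImplicit false
attribute [-simp] Array.getD_eq_getD_getElem?

namespace Cfsg.Agent.Chev.Levi

open Cfsg.Lie Cfsg.Agent.Chev.Tits Cfsg.Agent.Chev.Comm

theorem normalizer_eq {F : Type*} [Field F] {D : ChevalleyDatum}
    (hD : D ∈ [chevG2, chevB2, chevD4, chevF4, chevE6, chevE7, chevE8]) (J : Set ℕ)
    (hJ : ∀ j ∈ J, j < D.rank) :
    Subgroup.normalizer (D.unipotentRadical F J : Set (GL D.Idx F)) ⊓ D.group F =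
      D.parabolicSubgroup F J := by
  obtain ⟨h1, h2, h3⟩ := Cfsg.Agent.S1043.result (F := F) D hD
  obtain ⟨c, G, hpar⟩ := tgood_par_of_mem hD
  have hle := (levi_of_mem (F := F) hD J).1
  have hcs : corSimpleOK D = true := by
    simp only [parOK, Bool.and_eq_true] at hpar
    exact hpar.1
  have hPG : D.parabolicSubgroup F J ≤ D.group F := by
    refine sup_le h1 ((Subgroup.closure_le _).2 ?_)
    rintro g ⟨j, -, hj, hg⟩
    rw [show g = nn G.good F j from Units.ext (by rw [hg, nn_eq G hj, nG_val])]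
    exact nn_mem_group G hj
  refine le_antisymm ?_ (le_inf hle hPG)
  obtain ⟨P, hB, hN, hS⟩ := exists_pair G h1 h2 h3
  set M := (Subgroup.normalizer (D.unipotentRadical F J : Set (GL D.Idx F))).subgroupOf (D.group F)
  have hBM : P.B ≤ M := by
    rw [hB]
    intro x hx
    exact hle (Subgroup.mem_sup_left hx)
  have hM := Cfsg.Agent.BN.exists_eq_parabolic P M hBM
  have hMP : M ≤ (D.parabolicSubgroup F J).subgroupOf (D.group F) := by
    rw [hM, BNPair.parabolic]
    refine sup_le (fun x hx => by rw [hB] at hx; exact Subgroup.mem_sup_left hx) ((Subgroup.closure_le _).2 ?_)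
    rintro s ⟨hs, hsM⟩
    rw [hS] at hs
    obtain ⟨i, hi, hsi⟩ := hs
    have hsv : (s : GL D.Idx F) = nn G.good F i := Units.ext (by rw [hsi, nn_eq G hi, nG_val])
    refine Subgroup.mem_sup_right (Subgroup.subset_closure ⟨i, ?_, hi, hsi⟩)
    by_contra hiJ
    have hp := (G.good.simple hi).lt
    have hns : ¬ D.InRootSub J (D.simple i) := fun h => by
      have e := h.2 i hi hiJ
      rw [cor_simple G hcs i hi i hi, if_pos rfl] at e
      exact one_ne_zero e
    have hx : xG G.good (D.simple i) hp (1 : F) ∈ D.unipotentRadical F J :=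
      Subgroup.subset_closure ⟨_, 1, (pos_iff G.good).2 ⟨hp, (G.good.simple hi).pos⟩, hns, rfl⟩
    have hsM' : (s : GL D.Idx F) ∈ Subgroup.normalizer (D.unipotentRadical F J : Set (GL D.Idx F)) := hsM
    have hc := (Subgroup.mem_normalizer_iff.1 hsM' _).1 hx
    rw [hsv, nn_conj G hi hp, xG_congr G.good (G.good.simple hi).im_self _ (G.good.neg_lt hp)] at hc
    have hUle : D.unipotentRadical F J ≤ D.borelSubgroup F := by
      rw [ChevalleyDatum.unipotentRadical, Subgroup.closure_le]
      rintro x ⟨r, t, hr, -, hx⟩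
      exact Subgroup.mem_sup_left (Subgroup.subset_closure ⟨r, t, hr, hx⟩)
    refine neg_not_mem_B G (G.good.neg_lt hp) ?_ ?_ (hUle hc)
    · have h1' := neg_side G (G.good.neg_lt hp)
      rw [G.good.neg_neg hp] at h1'
      exact h1'.2 (G.good.simple hi).pos
    · simp [(G.good.simple hi).sgn_self]
  intro g hg
  exact hMP (show (⟨g, hg.2⟩ : D.group F) ∈ M from hg.1)

end Cfsg.Agent.Chev.Levi
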