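import Cfsg.Agent.Chev.Good

set_option autoImplicit false
attribute [-simp] Array.getD_eq_getD_getElem?

namespace Cfsg.Agent.Chev

open Cfsg.Lie Matrix

variable {D : ChevalleyDatum} {c : Cert} {F : Type*} [Field F]

/-- A coordinate vector for a fundamental coroot. -/
def eh (D : ChevalleyDatum) (F : Type*) [Field F] (j : ℕ) : D.Idx → F :=
  if h : j < D.rank then ee (Sum.inl ⟨j, h⟩) else 0

theorem eh_fin (j : Fin D.rank) : eh D F j = ee (Sum.inl j) := by simp [eh, j.isLt]

/-- Matrices agreeing on the coordinate vectors are equal. -/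
theorem ext_cols {A B : Matrix D.Idx D.Idx F} (h1 : ∀ j < D.rank, A *ᵥ eh D F j = B *ᵥ eh D F j)
    (h2 : ∀ s < D.nroots, A *ᵥ rv D F s = B *ᵥ rv D F s) : A = B := by
  apply Matrix.ext_of_mulVec_single
  intro i
  rcases i with ⟨j, hj⟩ | ⟨s, hs⟩
  · have := h1 j hj
    rw [eh, dif_pos hj] at this
    exact this
  · have := h2 s hs
    rw [rv, dif_pos hs] at this
    exact this

theorem x_eh {r : ℕ} (hr : r < D.nroots) (t : F) {j : ℕ} (hj : j < D.rank) :
    D.x F r t *ᵥ eh D F j = eh D F j - ((D.cartan j r : F) * t) • rv D F r := by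
  rw [eh, dif_pos hj, x_h hr]

theorem bv_eh {j : ℕ} (hj : j < D.rank) : bv D F (D.nroots + j) = eh D F j := by
  rw [eh, dif_pos hj]
  exact bv_h ⟨j, hj⟩

theorem hv_eq (s : ℕ) :
    hv D F s = ∑ j ∈ Finset.range D.rank, (((D.coroot.getD s #[]).getD j 0 : ℤ) : F) • eh D F j := by
  rw [← Fin.sum_univ_eq_sum_range (fun j => (((D.coroot.getD s #[]).getD j 0 : ℤ) : F) • eh D F j)]
  funext i
  rcases i with i | i <;> simp [hv, eh_fin, ee, Finset.sum_apply, Pi.single_apply]

theorem nMat_word (r : ℕ) (t : F) (ht : t ≠ 0) :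
    D.nMat F r t = D.wordMat F (wordVal F t (nW D r)) := by
  simp [ChevalleyDatum.nMat, ChevalleyDatum.nWord, wordVal, nW]

variable (g : Good D c)
include g

theorem n_root {i s : ℕ} (hi : i < D.rank) (hs : s < D.nroots) (t : F) (ht : t ≠ 0) :
    D.nMat F (D.simple i) t *ᵥ rv D F s =
      ((c.sgn i s : F) * t ^ D.cartan i (c.im i s)) • rv D F (c.im i s) := by
  have hw : ∀ x ∈ nW D (D.simple i), x.1 < D.nroots := by
    intro x hx
    simp [nW] at hx
    rcases hx with rfl | rfl | rfl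
    · exact (g.simple hi).lt
    · exact g.neg_lt (g.simple hi).lt
    · exact (g.simple hi).lt
  rw [nMat_word _ _ ht, ← bv_lt hs, (runW_sound g.datum t ht (by omega) _ hw).1,
    sameVec_sound t ((g.simple hi).col s hs)]
  simp [sem, tv1, bv_lt (g.refl hi hs).lt]

theorem n_h {i j : ℕ} (hi : i < D.rank) (hj : j < D.rank) (t : F) (ht : t ≠ 0) :
    D.nMat F (D.simple i) t *ᵥ eh D F j = eh D F j - (D.cartan j (D.simple i) : F) • eh D F i := by
  have hw : ∀ x ∈ nW D (D.simple i), x.1 < D.nroots := by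
    intro x hx
    simp [nW] at hx
    rcases hx with rfl | rfl | rfl
    · exact (g.simple hi).lt
    · exact g.neg_lt (g.simple hi).lt
    · exact (g.simple hi).lt
  rw [nMat_word _ _ ht, ← bv_eh hj, (runW_sound g.datum t ht (by omega) _ hw).1,
    sameVec_sound t ((g.simple hi).colh j hj)]
  simp [sem, tv1, bv_eh hj, bv_eh hi]
  module

omit g in
/-- A root element as an element of the general linear group. -/
noncomputable def xG (g : Good D c) (r : ℕ) (hr : r < D.nroots) (t : F) : GL D.Idx F :=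
  ⟨D.x F r t, D.x F r (-t), by rw [x_add g.datum hr, add_neg_cancel, x_zero g.datum hr],
    by rw [x_add g.datum hr, neg_add_cancel, x_zero g.datum hr]⟩

theorem xG_mul {r : ℕ} (hr : r < D.nroots) (t u : F) : xG g r hr t * xG g r hr u = xG g r hr (t + u) :=
  Units.ext (x_add g.datum hr t u)

theorem xG_inv {r : ℕ} (hr : r < D.nroots) (t : F) : (xG g r hr t)⁻¹ = xG g r hr (-t) :=
  Units.ext rfl

omit g in
/-- The element `n_r(t)`. -/
noncomputable def nG (g : Good D c) (r : ℕ) (hr : r < D.nroots) (t : F) : GL D.Idx F :=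
  xG g r hr t * xG g (D.neg r) (g.neg_lt hr) (-t⁻¹) * xG g r hr t

theorem nG_val {r : ℕ} (hr : r < D.nroots) (t : F) :
    ((nG g r hr t : GL D.Idx F) : Matrix D.Idx D.Idx F) = D.nMat F r t := by
  simp [nG, xG, ChevalleyDatum.nMat, ChevalleyDatum.nWord, ChevalleyDatum.wordMat, mul_assoc]

theorem nG_inv {r : ℕ} (hr : r < D.nroots) (t : F) : (nG g r hr t)⁻¹ = nG g r hr (-t) := by
  simp [nG, xG_inv, mul_assoc, inv_neg]

omit g in
/-- The element `h_r(t)`. -/
noncomputable def hG (g : Good D c) (r : ℕ) (hr : r < D.nroots) (t : F) : GL D.Idx F :=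
  nG g r hr t * nG g r hr (-1)

theorem hG_val {r : ℕ} (hr : r < D.nroots) (t : F) :
    ((hG g r hr t : GL D.Idx F) : Matrix D.Idx D.Idx F) = D.hMat F r t := by
  rw [hG, Units.val_mul, nG_val, nG_val]
  simp [ChevalleyDatum.nMat, ChevalleyDatum.hMat, ChevalleyDatum.hWord, ChevalleyDatum.wordMat]

theorem h_root {i s : ℕ} (hi : i < D.rank) (hs : s < D.nroots) (t : F) (ht : t ≠ 0) :
    (hG g (D.simple i) (g.simple hi).lt t : Matrix D.Idx D.Idx F) *ᵥ rv D F s = t ^ D.cartan i s • rv D F s := by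
  have hr := g.refl hi hs
  have h1 : D.nMat F (D.simple i) (1 : F) *ᵥ ((c.sgn i (c.im i s) : F) • rv D F (c.im i s)) = rv D F s := by
    rw [mulVec_smul, n_root g hi hr.lt 1 one_ne_zero, hr.invol, _root_.one_zpow, mul_one, smul_smul, sgn_sqF, one_smul]
  rw [hG, Units.val_mul, ← mulVec_mulVec, ← nG_inv g (g.simple hi).lt]
  conv_lhs => arg 2; rw [← h1, ← nG_val g (g.simple hi).lt, mulVec_mulVec, ← Units.val_mul, inv_mul_cancel,
    Units.val_one, one_mulVec]
  rw [nG_val, mulVec_smul, n_root g hi hr.lt t ht, hr.invol, smul_smul, ← mul_assoc, sgn_sqF, one_mul]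

theorem h_h {i j : ℕ} (hi : i < D.rank) (hj : j < D.rank) (t : F) (ht : t ≠ 0) :
    (hG g (D.simple i) (g.simple hi).lt t : Matrix D.Idx D.Idx F) *ᵥ eh D F j = eh D F j := by
  have key : ∀ u : F, u ≠ 0 → (hG g (D.simple i) (g.simple hi).lt u : Matrix D.Idx D.Idx F) *ᵥ eh D F j
      = eh D F j - (D.cartan j (D.simple i) : F) • eh D F i
        - (D.cartan j (D.simple i) : F) • (eh D F i - (D.cartan i (D.simple i) : F) • eh D F i) := by
    intro u hu
    rw [hG, Units.val_mul, ← mulVec_mulVec, nG_val, nG_val, n_h g hi hj _ (neg_ne_zero.2 one_ne_zero), mulVec_sub,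
      mulVec_smul, n_h g hi hj u hu, n_h g hi hi u hu]
  rw [key t ht, ← key 1 one_ne_zero, hG, ← nG_inv g (g.simple hi).lt, mul_inv_cancel, Units.val_one, one_mulVec]

omit g in
/-- The diagonal matrix with trivial coroot part. -/
def dg (D : ChevalleyDatum) (χ : ℕ → F) : Matrix D.Idx D.Idx F :=
  Matrix.diagonal (Sum.elim (fun _ => 1) fun s : Fin D.nroots => χ s)

omit g in
theorem dg_rv (χ : ℕ → F) {s : ℕ} (hs : s < D.nroots) : dg D χ *ᵥ rv D F s = χ s • rv D F s := by
  rw [rv, dif_pos hs]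
  funext i
  rcases i with i | i <;> simp [dg, mulVec_diagonal, ee, Pi.single_apply]
  split <;> simp_all

omit g in
theorem dg_eh (χ : ℕ → F) {j : ℕ} (hj : j < D.rank) : dg D χ *ᵥ eh D F j = eh D F j := by
  rw [eh, dif_pos hj]
  funext i
  rcases i with i | i <;> simp [dg, mulVec_diagonal, ee, Pi.single_apply]

theorem hp_eq {i : ℕ} (hi : i < D.rank) (t : F) (ht : t ≠ 0) :
    (hG g (D.simple i) (g.simple hi).lt t : Matrix D.Idx D.Idx F) = dg D (fun s => t ^ D.cartan i s) :=
  ext_cols (fun j hj => by rw [h_h g hi hj t ht, dg_eh _ hj])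
    (fun s hs => by rw [h_root g hi hs t ht, dg_rv _ hs])

theorem hp_mul {i : ℕ} (hi : i < D.rank) (t u : F) (ht : t ≠ 0) (hu : u ≠ 0) :
    hG g (D.simple i) (g.simple hi).lt t * hG g (D.simple i) (g.simple hi).lt u =
      hG g (D.simple i) (g.simple hi).lt (t * u) := by
  apply Units.ext
  rw [Units.val_mul, hp_eq g hi t ht, hp_eq g hi u hu, hp_eq g hi _ (mul_ne_zero ht hu), dg, dg, dg,
    diagonal_mul_diagonal]
  congr 1
  funext x
  rcases x with x | x <;> simp [mul_zpow]

omit g in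
theorem smul_cv (ε : F) (n : GL D.Idx F) (w : ℕ → ℕ) (η : ℕ → F) (ev : F) (hev : ev * ev = 1) (hε : ε * ε = 1)
    (t : F) (M' : ℕ → ℤ → ℕ → ℤ) (mp : ℕ → List (ℕ × ℤ) → List (ℕ × ℤ))
    (h0 : ∀ k, mp k [] = []) (h1 : ∀ k u M l, mp k ((u, M) :: l) = (w u, M' u M k) :: mp (k + 1) l)
    (hM : ∀ u M k, (M' u M k : F) = M * η u * ev * ε ^ (k + 1)) :
    ∀ (L : List (ℕ × ℤ)) (k : ℕ), (∀ q ∈ L, (n : Matrix D.Idx D.Idx F) *ᵥ rv D F q.1 = η q.1 • rv D F (w q.1)) →
      (n : Matrix D.Idx D.Idx F) *ᵥ cv D F t k L = ev • cv D F (ε * t) k (mp k L) := by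
  intro L
  induction L with
  | nil => intro k _; simp [cv, h0]
  | cons q L ih =>
    intro k hq
    obtain ⟨u, M⟩ := q
    rw [cv, h1, cv, mulVec_add, mulVec_smul, hq (u, M) (by simp), ih (k + 1) (fun q hq' => hq q (List.mem_cons_of_mem _ hq')),
      smul_add, smul_smul, smul_smul, hM]
    congr 2
    have : (ε * ε) ^ (k + 1) = 1 := by rw [hε, one_pow]
    rw [mul_pow] at this
    rw [mul_pow]
    linear_combination (-((M : F) * t ^ (k + 1) * η u)) * ((ε ^ (k + 1) * ε ^ (k + 1)) * hev + this)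

/-- Conjugating a root element by `n_p`. -/
theorem n_conj {i s : ℕ} (hi : i < D.rank) (hs : s < D.nroots) (t : F) :
    D.nMat F (D.simple i) 1 * D.x F s t = D.x F (c.im i s) ((c.sgn i s : F) * t) * D.nMat F (D.simple i) 1 := by
  have hr := g.refl hi hs
  have hn : ∀ v < D.nroots, D.nMat F (D.simple i) 1 *ᵥ rv D F v = (c.sgn i v : F) • rv D F (c.im i v) := by
    intro v hvlt
    rw [n_root g hi hvlt 1 one_ne_zero, _root_.one_zpow, mul_one]
  apply ext_cols
  · intro j hj
    rw [← mulVec_mulVec, ← mulVec_mulVec, x_eh hs t hj, mulVec_sub, mulVec_smul, hn s hs,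
      n_h g hi hj 1 one_ne_zero, mulVec_sub, mulVec_smul, x_eh hr.lt _ hj, x_eh hr.lt _ hi]
    have e := congrArg (fun z : ℤ => (z : F)) (hr.cartan_im j hj)
    simp only [Int.cast_sub, Int.cast_mul] at e
    rw [e]
    module
  · intro v hvlt
    rw [← mulVec_mulVec, ← mulVec_mulVec, hn v hvlt, mulVec_smul]
    by_cases h1 : v = s
    · subst h1
      rw [x_self g.datum hvlt, hn v hvlt, x_self g.datum hr.lt]
    by_cases h2 : v = D.neg s
    · subst h2
      have hns := g.neg_lt hs
      rw [x_neg g.datum hs, mulVec_sub, mulVec_add, mulVec_smul, mulVec_smul, hn _ hns, hn _ hs, hr.im_neg,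
        hr.sgn_neg, x_neg g.datum hr.lt]
      have hh : D.nMat F (D.simple i) 1 *ᵥ hv D F s = hv D F (c.im i s) := by
        rw [hv_eq, hv_eq, mulVec_sum]
        have : ∀ j ∈ Finset.range D.rank, D.nMat F (D.simple i) 1 *ᵥ ((((D.coroot.getD s #[]).getD j 0 : ℤ) : F) • eh D F j)
            = (((D.coroot.getD s #[]).getD j 0 : ℤ) : F) • eh D F j -
              ((((D.coroot.getD s #[]).getD j 0 * D.cartan j (D.simple i) : ℤ)) : F) • eh D F i := by
          intro j hj
          rw [mulVec_smul, n_h g hi (Finset.mem_range.1 hj) 1 one_ne_zero, smul_sub, smul_smul, Int.cast_mul]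
        rw [Finset.sum_congr rfl this, Finset.sum_sub_distrib, ← Finset.sum_smul, ← Int.cast_sum]
        have h3 : ∀ j ∈ Finset.range D.rank, (((D.coroot.getD (c.im i s) #[]).getD j 0 : ℤ) : F) • eh D F j =
            (((D.coroot.getD s #[]).getD j 0 : ℤ) : F) • eh D F j - (if j = i then
              (((∑ m ∈ Finset.range D.rank, (D.coroot.getD s #[]).getD m 0 * D.cartan m (D.simple i) : ℤ)) : F) • eh D F i else 0) := by
          intro j hj
          rw [hr.coroot_im j (Finset.mem_range.1 hj)]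
          split
          · next e => subst e; rw [Int.cast_sub, sub_smul]; rfl
          · simp
        rw [Finset.sum_congr rfl h3, Finset.sum_sub_distrib, Finset.sum_ite_eq' , if_pos (Finset.mem_range.2 hi)]
      rw [hh]
      have e := sgn_sqF F c i s
      simp only [smul_sub, smul_add, smul_smul]
      match_scalars <;> try ring
      · linear_combination (-t) * e
      · linear_combination (c.sgn i s : F) * t ^ 2 * e
    have h1' : c.im i v ≠ c.im i s := fun e => h1 (by rw [← (g.refl hi hvlt).invol, e, hr.invol])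
    have h2' : c.im i v ≠ D.neg (c.im i s) := by
      rw [← hr.im_neg]
      intro e
      exact h2 (by rw [← (g.refl hi hvlt).invol, e, (g.refl hi (g.neg_lt hs)).invol])
    rw [x_other g.datum hs t hvlt h1 h2, x_other g.datum hr.lt _ (g.refl hi hvlt).lt h1' h2', mulVec_add, hn v hvlt,
      smul_add, g.chain_im hi hs hvlt, ← nG_val g (g.simple hi).lt]
    congr 1
    refine smul_cv _ _ (c.im i) (fun u => (c.sgn i u : F)) _ (sgn_sqF F c i v) (sgn_sqF F c i s) t
      (fun u M k => M * c.sgn i u * c.sgn i v * c.sgn i s ^ (k + 1)) _ (fun k => rfl) (fun k u M l => rfl)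
      (fun u M k => by simp) _ 0 (fun q hq => ?_)
    rw [nG_val]
    exact hn _ ((facts g.datum hs).range v q hq).1

/-- Conjugating a root element by a fundamental torus element. -/
theorem h_conj {i s : ℕ} (hi : i < D.rank) (hs : s < D.nroots) (u : F) (hu : u ≠ 0) (t : F) :
    dg D (fun v => u ^ D.cartan i v) * D.x F s t =
      D.x F s (u ^ D.cartan i s * t) * dg D (fun v => u ^ D.cartan i v) := by
  apply ext_cols
  · intro j hj
    rw [← mulVec_mulVec, ← mulVec_mulVec, dg_eh _ hj, x_eh hs _ hj, x_eh hs _ hj, mulVec_sub, mulVec_smul, dg_eh _ hj,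
      dg_rv _ hs]
    module
  · intro v hvlt
    rw [← mulVec_mulVec, ← mulVec_mulVec, dg_rv _ hvlt, mulVec_smul]
    by_cases h1 : v = s
    · subst h1; rw [x_self g.datum hvlt, dg_rv _ hvlt, x_self g.datum hvlt]
    by_cases h2 : v = D.neg s
    · subst h2
      have hh : dg D (fun v => u ^ D.cartan i v) *ᵥ hv D F s = hv D F s := by
        rw [hv_eq, mulVec_sum]
        exact Finset.sum_congr rfl fun j hj => by rw [mulVec_smul, dg_eh _ (Finset.mem_range.1 hj)]
      rw [x_neg g.datum hs, x_neg g.datum hs, mulVec_sub, mulVec_add, mulVec_smul, mulVec_smul, dg_rv _ hvlt,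
        dg_rv _ hs, hh, (g.refl hi hs).cartan_neg, _root_.zpow_neg]
      have : (u ^ D.cartan i s)⁻¹ * u ^ D.cartan i s = 1 := inv_mul_cancel₀ (zpow_ne_zero _ hu)
      simp only [smul_sub, smul_add, smul_smul]
      match_scalars <;> try ring
      · linear_combination (-t) * this
      · linear_combination (u ^ D.cartan i s * t ^ 2) * this
    rw [x_other g.datum hs _ hvlt h1 h2, x_other g.datum hs _ hvlt h1 h2, mulVec_add, dg_rv _ hvlt, smul_add]
    congr 1
    have key : ∀ (L : List (ℕ × ℤ)) (k : ℕ),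
        (∀ n q, L[n]? = some q → q.1 < D.nroots ∧ D.cartan i q.1 = D.cartan i v + (((k + n : ℕ) : ℤ) + 1) * D.cartan i s) →
        dg D (fun v => u ^ D.cartan i v) *ᵥ cv D F t k L =
          (u ^ D.cartan i v) • cv D F (u ^ D.cartan i s * t) k L := by
      intro L
      induction L with
      | nil => intro k _; simp [cv]
      | cons q L ih =>
        intro k hk
        obtain ⟨w, M⟩ := q
        obtain ⟨hw, hA⟩ := hk 0 (w, M) rfl
        rw [cv, cv, mulVec_add, mulVec_smul, dg_rv _ hw, ih (k + 1) (fun n q hn => by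
          have := hk (n + 1) q (by simpa using hn)
          exact ⟨this.1, by rw [this.2]; push_cast; ring⟩), smul_add, smul_smul, smul_smul]
        congr 2
        simp only at hA ⊢
        rw [hA, zpow_add₀ hu, mul_comm ((((k + 0 : ℕ) : ℤ) + 1)), _root_.zpow_mul,
          show ((k + 0 : ℕ) : ℤ) + 1 = ((k + 1 : ℕ) : ℤ) by simp, zpow_natCast, mul_pow]
        ring
    refine key _ 0 (fun n q hn => ⟨((facts g.datum hs).range v q (List.mem_of_getElem? hn)).1, ?_⟩)
    rw [g.cartan_chain hi hs hvlt hn, zero_add]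

end Cfsg.Agent.Chev
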