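import Cfsg.Agent.Chev.Simple
import Cfsg.Prelude.Def_ChevAutomorphisms

set_option autoImplicit false
attribute [-simp] Array.getD_eq_getD_getElem?

namespace Cfsg.Agent.Chev.Tits

open Cfsg.Lie Matrix Cfsg.Agent.Chev.Comm

variable {D : ChevalleyDatum} {c : Cert} {F : Type*} [Field F] (G : TGood D c)
include G

theorem mem_B_of_conj (h1 : D.borelSubgroup F ≤ D.group F) (h2 : D.monomialSubgroup F ≤ D.group F)
    (h3 : D.borelSubgroup F ⊔ D.monomialSubgroup F = D.group F) {g : GL D.Idx F} (hg : g ∈ D.group F)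
    (h : ∀ u ∈ D.posUnipotent F, g * u * g⁻¹ ∈ D.borelSubgroup F) : g ∈ D.borelSubgroup F := by
  obtain ⟨P, hB, hN, -⟩ := exists_pair G h1 h2 h3
  obtain ⟨n, hn, hc⟩ := Cfsg.Agent.BN.bruhat P ⟨g, hg⟩
  obtain ⟨a, ha, b, hb, e⟩ := (Cfsg.Agent.BN.mem_cell P).1 hc
  rw [hB, Subgroup.mem_subgroupOf] at ha hb
  rw [hN, Subgroup.mem_subgroupOf] at hn
  have e' : g = (a : GL D.Idx F) * n * b := congrArg Subtype.val e
  subst e'
  have hU : D.borelSubgroup F ≤ Subgroup.normalizer (D.posUnipotent F : Set (GL D.Idx F)) :=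
    sup_le Subgroup.le_normalizer (H_norm_U G.good)
  have hpres : Pres G.good F (n : GL D.Idx F) := by
    intro s hs hp
    have hu := (Subgroup.mem_normalizer_iff''.1 (hU hb) _).1 (xG_mem_U G hs hp (1 : F))
    have := mul_mem (mul_mem (inv_mem ha) (h _ hu)) ha
    convert this using 1
    group
  obtain ⟨k, hk, L, hL, e⟩ := N_word G hn
  rw [e] at hpres
  have hn' : (n : GL D.Idx F) ∈ D.diagonalSubgroup F := e ▸ mul_mem hk (pres_word G _ L rfl hL (pres_left G hk hpres))
  exact mul_mem (mul_mem ha (H_mem_B G hn')) hb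

theorem U_pgroup (p : ℕ) [Fact p.Prime] [CharP F p] : IsPGroup p ↥(D.posUnipotent F) := by
  intro u
  have hN := nroots_eq G.good.datum
  set A := ((u : GL D.Idx F) : Matrix D.Idx D.Idx F) - 1
  have hA : Raise D F c.half 1 A := U_le G.good.datum u.2
  haveI : Nonempty D.Idx := ⟨Sum.inr ⟨0, size_pos G.good.datum⟩⟩
  refine ⟨2 * c.half + 1, Subtype.ext (Units.ext ?_)⟩
  have hlt : 2 * c.half + 1 ≤ p ^ (2 * c.half + 1) := (Nat.lt_pow_self (Fact.out (p := p.Prime)).one_lt).le
  simp only [SubmonoidClass.coe_pow, Units.val_pow_eq_pow_val, OneMemClass.coe_one, Units.val_one]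
  rw [show ((u : GL D.Idx F) : Matrix D.Idx D.Idx F) = A + 1 by simp [A],
    add_pow_char_pow_of_commute _ _ (Commute.one_right A), one_pow,
    Raise.eq_zero hN (by omega) (hA.pow _), zero_add]

theorem diag_mem_H (h1 : D.borelSubgroup F ≤ D.group F) (h2 : D.monomialSubgroup F ≤ D.group F)
    (h3 : D.borelSubgroup F ⊔ D.monomialSubgroup F = D.group F) {χ : ℕ → Fˣ} {g : GL D.Idx F} (hg : g ∈ D.group F)
    (hgχ : (g : Matrix D.Idx D.Idx F) = D.charDiag F χ)
    (hconj : ∀ r < D.nroots, ∀ t : F, D.charDiag F χ * D.x F r t * D.charDiag F (fun s => (χ s)⁻¹) = D.x F r ((χ r : F) * t)) :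
    g ∈ D.diagonalSubgroup F := by
  have hinv : ((g⁻¹ : GL D.Idx F) : Matrix D.Idx D.Idx F) = D.charDiag F (fun s => (χ s)⁻¹) := by
    refine (Units.eq_inv_of_mul_eq_one_left (u := g) ?_).symm
    rw [hgχ, ChevalleyDatum.charDiag, ChevalleyDatum.charDiag, diagonal_mul_diagonal, ← diagonal_one]
    congr 1
    funext i
    rcases i with i | i <;> simp
  have hgB : g ∈ D.borelSubgroup F := by
    refine mem_B_of_conj G h1 h2 h3 hg fun u hu => ?_
    induction hu using Subgroup.closure_induction with
    | mem x hx =>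
      obtain ⟨r, t, hr, hx⟩ := hx
      exact Subgroup.mem_sup_left (Subgroup.subset_closure ⟨r, (χ r : F) * t, hr, by
        rw [Units.val_mul, Units.val_mul, hgχ, hinv, hx, hconj r hr.1]⟩)
    | one => simp
    | mul a b _ _ ha hb => have := mul_mem ha hb; simpa [mul_assoc] using this
    | inv a _ ha => have := inv_mem ha; simpa [mul_assoc] using this
  obtain ⟨u, hu, h, hh, e⟩ := (mem_B G.good).1 hgB
  obtain ⟨ψ, hψ, hc⟩ := H_char G.good hh
  have hu1 : u = 1 := by
    have hr : Raise D F c.half 1 ((u : Matrix D.Idx D.Idx F) - 1) := U_le G.good.datum hu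
    have hval : (u : Matrix D.Idx D.Idx F) * dg D ψ = D.charDiag F χ := by rw [← hψ, ← Units.val_mul, e, hgχ]
    apply Units.ext
    rw [Units.val_one, ← sub_eq_zero]
    ext i j
    by_contra hne
    have hij : i ≠ j := fun h => by have := hr i j hne; subst h; omega
    apply hne
    have hψne : (Sum.elim (fun _ => (1 : F)) (fun v : Fin D.nroots => ψ v.val)) j ≠ 0 := by
      rcases j with j | j
      · simp
      · exact (hc j j.2).1
    have := congrFun (congrFun hval i) j
    rw [dg, mul_diagonal, ChevalleyDatum.charDiag, diagonal_apply_ne _ hij] at this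
    rw [Matrix.sub_apply, Matrix.one_apply_ne hij, sub_zero, Matrix.zero_apply]
    exact (mul_eq_zero.1 this).resolve_right hψne
  rw [← e, hu1, one_mul]
  exact hh

/-- A character is multiplicative along a chain. -/
theorem char_chain {χ : ℕ → Fˣ} (hχ : D.IsRootCharacter χ) {r s : ℕ} (hr : r < D.nroots) (hs : s < D.nroots) :
    ∀ n, ∀ q, (D.chainEntry r s)[n]? = some q → χ q.1 = χ r ^ (n + 1) * χ s := by
  intro n
  induction n with
  | zero =>
    intro q hq
    rw [zero_add, pow_one]
    exact hχ.2 r s q.1 hr hs (by simp [ChevalleyDatum.chainRoot, hq])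
  | succ n ih =>
    intro q hq
    have hstr := (facts G.good.datum hr).str s
    have hlen : n + 1 < (D.chainEntry r s).length := (List.getElem?_eq_some_iff.1 hq).1
    obtain ⟨q0, hq0⟩ : ∃ q0, (D.chainEntry r s)[n]? = some q0 := ⟨_, List.getElem?_eq_getElem (by omega)⟩
    have hq0lt := ((facts G.good.datum hr).range s q0 (List.mem_of_getElem? hq0)).1
    have key : D.chainRoot r q0.1 1 = some q.1 := by
      have hlook : ∀ x, look (D.chain.getD r #[]).toList x = D.chainEntry r x := fun x => rfl
      rcases hl : D.chainEntry r s with _ | ⟨⟨a, A⟩, _ | ⟨⟨b, B⟩, _ | ⟨⟨d, C⟩, _ | ⟨e, L⟩⟩⟩⟩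
      · simp [hl] at hq
      · simp [hl] at hq
      · rw [hl] at hstr hq hq0 hlen
        obtain rfl : n = 0 := by simp at hlen; omega
        simp only [strOK, hlook, Bool.and_eq_true] at hstr
        simp at hq hq0; subst hq hq0
        have h := hstr.1
        split at h
        · next b' B' heq =>
          simp only [Bool.and_eq_true] at h
          simp [ChevalleyDatum.chainRoot, heq, Nat.eq_of_beq_eq_true h.1]
        · exact absurd h Bool.false_ne_true
      · rw [hl] at hstr hq hq0 hlen
        simp only [strOK, hlook, Bool.and_eq_true] at hstr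
        rcases n with _ | _ | n
        · simp at hq hq0; subst hq hq0
          have h := hstr.1.1
          split at h
          · next b' B' c' C' heq =>
            simp only [Bool.and_eq_true] at h
            simp [ChevalleyDatum.chainRoot, heq, Nat.eq_of_beq_eq_true h.1.1.1]
          · exact absurd h Bool.false_ne_true
        · simp at hq hq0; subst hq hq0
          have h := hstr.1.2
          split at h
          · next c' C' heq =>
            simp only [Bool.and_eq_true] at h
            simp [ChevalleyDatum.chainRoot, heq, Nat.eq_of_beq_eq_true h.1]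
          · exact absurd h Bool.false_ne_true
        · simp only [List.length_cons, List.length_nil] at hlen; omega
      · rw [hl] at hstr; simp [strOK] at hstr
    rw [hχ.2 r q0.1 q.1 hr hq0lt key, ih q0 hq0, pow_succ (χ r) (n + 1)]
    rw [← mul_assoc, mul_comm (χ r)]

omit G in
theorem dg_cv (t : F) (a : F) (L : List (ℕ × ℤ)) (ψ : ℕ → F) (b : F) (s : F) (k : ℕ) (hs : s = a * t)
    (hL : ∀ q ∈ L, q.1 < D.nroots) (hψ : ∀ n q, L[n]? = some q → ψ q.1 = a ^ (k + n + 1) * b) :
    dg D ψ *ᵥ cv D F t k L = b • cv D F s k L := by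
  subst hs
  induction L generalizing k with
  | nil => simp [cv]
  | cons q L ih =>
    obtain ⟨u, M⟩ := q
    rw [cv, cv, mulVec_add, mulVec_smul, dg_rv _ (hL (u, M) (by simp)), smul_add, smul_smul, smul_smul,
      ih (k + 1) (fun q hq => hL q (List.mem_cons_of_mem _ hq)) (fun n q hq => by
        rw [show k + 1 + n + 1 = k + (n + 1) + 1 by ring]; exact hψ (n + 1) q (by simpa using hq))]
    congr 2
    rw [hψ 0 (u, M) rfl, mul_pow, add_zero]
    ring

/-- Conjugating a root element by the matrix of a character. -/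
theorem char_conj {χ : ℕ → Fˣ} (hχ : D.IsRootCharacter χ) {r : ℕ} (hr : r < D.nroots) (t : F) :
    D.charDiag F χ * D.x F r t = D.x F r ((χ r : F) * t) * D.charDiag F χ := by
  have hd : D.charDiag F χ = dg D (fun s => (χ s : F)) := rfl
  rw [hd]
  apply ext_cols
  · intro j hj
    rw [← mulVec_mulVec, ← mulVec_mulVec, dg_eh _ hj, x_eh hr _ hj, x_eh hr _ hj, mulVec_sub, mulVec_smul,
      dg_eh _ hj, dg_rv _ hr]
    module
  · intro v hvl
    rw [← mulVec_mulVec, ← mulVec_mulVec, dg_rv _ hvl, mulVec_smul]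
    by_cases h1 : v = r
    · subst h1
      rw [x_self G.good.datum hvl, dg_rv _ hvl, x_self G.good.datum hvl]
    by_cases h2 : v = D.neg r
    · subst h2
      have hh : dg D (fun s => (χ s : F)) *ᵥ hv D F r = hv D F r := by
        rw [hv_eq, mulVec_sum]
        exact Finset.sum_congr rfl fun j hj => by rw [mulVec_smul, dg_eh _ (Finset.mem_range.1 hj)]
      rw [x_neg G.good.datum hr, x_neg G.good.datum hr, mulVec_sub, mulVec_add, mulVec_smul, mulVec_smul,
        dg_rv _ hvl, dg_rv _ hr, hh]
      have e : ((χ (D.neg r) : Fˣ) : F) * (χ r : F) = 1 := by rw [hχ.1 r hr, ← Units.val_mul, inv_mul_cancel, Units.val_one]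
      simp only [smul_sub, smul_add, smul_smul]
      match_scalars
      all_goals (first | ring1 | linear_combination (-t) * e | linear_combination (χ r : F) * t ^ 2 * e)
    rw [x_other G.good.datum hr t hvl h1 h2, x_other G.good.datum hr _ hvl h1 h2, mulVec_add, dg_rv _ hvl, smul_add]
    congr 1
    refine dg_cv t (χ r : F) _ _ ((χ v : Fˣ) : F) _ 0 rfl (fun q hq => ((facts G.good.datum hr).range v q hq).1) fun n q hq => ?_
    rw [zero_add, char_chain G hχ hr hvl n q hq]
    push_cast
    rfl

end Cfsg.Agent.Chev.Tits
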