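import Cfsg.Agent.Chev.TitsAll
import Cfsg.Prelude.Def_ChevAutomorphisms

set_option autoImplicit false
attribute [-simp] Array.getD_eq_getD_getElem?

namespace Cfsg.Agent.Chev.Tits

open Cfsg.Lie Cfsg.Agent.Chev.Comm

/-- One round of the orbit closure under the fundamental reflections. -/
def orbStep (D : ChevalleyDatum) (c : Cert) (S : List ℕ) : List ℕ :=
  ((List.range D.rank).foldl (fun acc i => acc ++ (S.map (c.im i)).filter fun x => !acc.contains x) S)

/-- The orbit closure. -/
def orbIter (D : ChevalleyDatum) (c : Cert) : ℕ → List ℕ → List ℕ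
  | 0, S => S
  | k + 1, S => orbIter D c k (orbStep D c S).eraseDups

/-- The two fundamental roots meet every orbit. -/
def twoOrbB (D : ChevalleyDatum) (c : Cert) (i j : ℕ) : Bool :=
  let S := orbIter D c (D.nroots / 2) [D.simple i, D.simple j]
  (List.range D.nroots).all fun r => S.contains r

variable {D : ChevalleyDatum} {c : Cert} {F : Type*} [Field F] (G : TGood D c)
include G

theorem orbIter_mem {K : Subgroup (GL D.Idx F)} (hN : D.monomialSubgroup F ≤ K) :
    ∀ (k : ℕ) (S : List ℕ),
      (∀ r ∈ S, ∃ hr : r < D.nroots, ∀ t : F, xG G.good r hr t ∈ K) →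
      ∀ r ∈ orbIter D c k S, ∃ hr : r < D.nroots, ∀ t : F, xG G.good r hr t ∈ K := by
  have step : ∀ (L : List ℕ), (∀ i ∈ L, i < D.rank) → ∀ S acc : List ℕ,
      (∀ r ∈ S, ∃ hr : r < D.nroots, ∀ t : F, xG G.good r hr t ∈ K) →
      (∀ r ∈ acc, ∃ hr : r < D.nroots, ∀ t : F, xG G.good r hr t ∈ K) →
      ∀ r ∈ L.foldl (fun acc i => acc ++ (S.map (c.im i)).filter fun x => !acc.contains x) acc,
        ∃ hr : r < D.nroots, ∀ t : F, xG G.good r hr t ∈ K := by
    intro L
    induction L with
    | nil => intro _ S acc _ hacc; exact hacc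
    | cons i L ih =>
      intro hL S acc hS hacc
      refine ih (fun a ha => hL a (List.mem_cons_of_mem _ ha)) S _ hS fun r hr => ?_
      rcases List.mem_append.1 hr with hr | hr
      · exact hacc r hr
      · obtain ⟨s, hs, rfl⟩ := List.mem_map.1 (List.mem_filter.1 hr).1
        have hi := hL i (by simp)
        obtain ⟨hslt, hsK⟩ := hS s hs
        refine ⟨(G.good.refl hi hslt).lt, fun t => ?_⟩
        have hn := hN (nn_mem_N (F := F) G hi)
        have := mul_mem (mul_mem hn (hsK ((c.sgn i s : F) * t))) (inv_mem hn)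
        rwa [nn_conj G hi hslt, ← mul_assoc, sgn_sqF, one_mul] at this
  intro k
  induction k with
  | zero => intro S hS; exact hS
  | succ k ih =>
    intro S hS
    exact ih _ fun r hr => step _ (fun i hi => List.mem_range.1 hi) S S hS hS r
      (List.mem_eraseDups.1 hr)

theorem group_le_of_twoOrb {i j : ℕ} (hi : i < D.rank) (hj : j < D.rank) (h : twoOrbB D c i j = true) :
    D.group F ≤ D.monomialSubgroup F ⊔ D.rootSubgroup F (D.simple i) ⊔ D.rootSubgroup F (D.simple j) := by
  rw [ChevalleyDatum.group, Subgroup.closure_le]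
  rintro g ⟨r, t, hg⟩
  simp only [twoOrbB, List.all_eq_true, List.mem_range, List.contains_eq_mem, decide_eq_true_eq] at h
  obtain ⟨hr, hK⟩ := orbIter_mem (F := F) G
    (K := D.monomialSubgroup F ⊔ D.rootSubgroup F (D.simple i) ⊔ D.rootSubgroup F (D.simple j))
    (le_sup_left.trans le_sup_left) _ [D.simple i, D.simple j] (fun s hs => by
      rcases List.mem_cons.1 hs with rfl | hs
      · exact ⟨(G.good.simple hi).lt, fun t => Subgroup.mem_sup_left (Subgroup.mem_sup_right
          (Subgroup.subset_closure ⟨t, rfl⟩))⟩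
      · rw [List.mem_singleton] at hs
        subst hs
        exact ⟨(G.good.simple hj).lt, fun t => Subgroup.mem_sup_right (Subgroup.subset_closure ⟨t, rfl⟩)⟩)
    r.val (h r r.2)
  have : g = xG G.good r.val hr t := Units.ext (by rw [hg]; exact (x_eq hr t).symm)
  rw [this]
  exact hK t

end Cfsg.Agent.Chev.Tits
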