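import Cfsg.Agent.Chev.Tits

set_option autoImplicit false
attribute [-simp] Array.getD_eq_getD_getElem?

namespace Cfsg.Agent.Chev.Tits

open Cfsg.Lie Matrix Cfsg.Agent.Chev.Comm

variable {D : ChevalleyDatum} {c : Cert} {F : Type*} [Field F] (G : TGood D c)

omit G in
/-- The subgroup `U_p`. -/
abbrev Ui (D : ChevalleyDatum) (F : Type*) [Field F] (i : ℕ) : Subgroup (GL D.Idx F) :=
  Subgroup.closure {g : GL D.Idx F | ∃ (s : ℕ) (t : F), D.IsPosRoot s ∧ s ≠ D.simple i ∧
    (g : Matrix D.Idx D.Idx F) = D.x F s t}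

include G

theorem xG_mem_Ui {i s : ℕ} (hs : s < D.nroots) (hp : c.half ≤ s) (hne : s ≠ D.simple i) (t : F) :
    xG G.good s hs t ∈ Ui D F i :=
  Subgroup.subset_closure ⟨s, t, (pos_iff G.good).2 ⟨hs, hp⟩, hne, rfl⟩

omit G in
theorem Ui_le_U (i : ℕ) : Ui D F i ≤ D.posUnipotent F := by
  rw [Ui, Subgroup.closure_le]
  rintro x ⟨s, t, hs, -, hx⟩
  exact Subgroup.subset_closure ⟨s, t, hs, hx⟩

theorem word_mem {K : Subgroup (GL D.Idx F)} : ∀ L : List (ℕ × F),
    (∀ q ∈ L, ∃ hq : q.1 < D.nroots, xG G.good q.1 hq q.2 ∈ K) →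
    ∃ w ∈ K, (w : Matrix D.Idx D.Idx F) = D.wordMat F L := by
  intro L
  induction L with
  | nil => intro _; exact ⟨1, one_mem _, by simp [ChevalleyDatum.wordMat]⟩
  | cons q L ih =>
    intro h
    obtain ⟨hq, hm⟩ := h q (by simp)
    obtain ⟨w, hw, e⟩ := ih fun x hx => h x (List.mem_cons_of_mem _ hx)
    refine ⟨_, mul_mem hm hw, ?_⟩
    rw [Units.val_mul, e]
    simp [ChevalleyDatum.wordMat, xG]

/-- Conjugates lie in the subgroup of the terms of the formula. -/
theorem comm_conj {K : Subgroup (GL D.Idx F)} {r s : ℕ} (hr : r < D.nroots) (hs : s < D.nroots) (h1 : s ≠ r)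
    (h2 : s ≠ D.neg r) (t u : F) (hK : xG G.good s hs u ∈ K)
    (hq : ∀ q ∈ D.commTerms r s, ∀ hq : q.1 < D.nroots, ∀ v : F, xG G.good q.1 hq v ∈ K) :
    xG G.good r hr t * xG G.good s hs u * (xG G.good r hr t)⁻¹ ∈ K := by
  obtain ⟨w, hw, e⟩ := word_mem G (K := K) (D.commWord F r s (-t) u) (by
    intro q hqm
    simp only [ChevalleyDatum.commWord, List.mem_map] at hqm
    obtain ⟨x, hx, rfl⟩ := hqm
    exact ⟨terms_lt G.good hr hs x hx, hq x hx _ _⟩)
  have h : xG G.good s hs u * xG G.good r hr (-t) = xG G.good r hr (-t) * xG G.good s hs u * w := by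
    apply Units.ext
    simp only [Units.val_mul, e]
    exact comm G.cg hr hs h1 h2 (-t) u
  have : xG G.good r hr t * xG G.good s hs u * (xG G.good r hr t)⁻¹ = xG G.good s hs u * w := by
    rw [xG_inv, mul_assoc, h, ← xG_inv]
    group
  rw [this]
  exact mul_mem hK hw

theorem closed_terms {i s : ℕ} (hi : i < D.rank) (hs : s < D.nroots) (hp : c.half ≤ s) (hne : s ≠ D.simple i) :
    (∀ q ∈ D.commTerms (D.simple i) s, c.half ≤ q.1 ∧ q.1 ≠ D.simple i) ∧
    ∀ q ∈ D.commTerms (D.neg (D.simple i)) s, c.half ≤ q.1 ∧ q.1 ≠ D.simple i := by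
  have h := G.cg.closed
  simp only [closedOK, List.all_eq_true, List.mem_range, Bool.or_eq_true, Nat.blt_eq, Bool.and_eq_true,
    Nat.ble_eq, Bool.not_eq_true'] at h
  rcases h i hi s hs with (h | h) | h
  · omega
  · exact absurd (Nat.eq_of_beq_eq_true h) hne
  · exact ⟨fun q hq => ⟨(h.1 q hq).1, Nat.ne_of_beq_eq_false (h.1 q hq).2⟩,
      fun q hq => ⟨(h.2 q hq).1, Nat.ne_of_beq_eq_false (h.2 q hq).2⟩⟩

theorem Ui_conj {i r : ℕ} (hi : i < D.rank) (hr : r < D.nroots) (hrp : r = D.simple i ∨ r = D.neg (D.simple i))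
    (t : F) : ∀ u ∈ Ui D F i, xG G.good r hr t * u * (xG G.good r hr t)⁻¹ ∈ Ui D F i := by
  intro u hu
  induction hu using Subgroup.closure_induction with
  | mem x hx =>
    obtain ⟨s, v, hspos, hne, hx⟩ := hx
    obtain ⟨hs, hp⟩ := (pos_iff G.good).1 hspos
    rw [show x = xG G.good s hs v from Units.ext hx]
    have hn : s ≠ D.neg (D.simple i) := fun e => by
      have := (G.good.simple hi).pos
      have h3 := (neg_side G (G.good.simple hi).lt).not
      rw [e] at hp; omega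
    obtain ⟨c1, c2⟩ := closed_terms G hi hs hp hne
    rcases hrp with rfl | rfl
    · exact comm_conj G hr hs hne hn t v (xG_mem_Ui G hs hp hne v) fun q hq hql w =>
        xG_mem_Ui G hql (c1 q hq).1 (c1 q hq).2 w
    · exact comm_conj G hr hs hn (by rwa [G.good.neg_neg (G.good.simple hi).lt]) t v (xG_mem_Ui G hs hp hne v)
        fun q hq hql w => xG_mem_Ui G hql (c2 q hq).1 (c2 q hq).2 w
  | one => simp
  | mul a b _ _ ha hb => have := mul_mem ha hb; simpa [mul_assoc] using this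
  | inv a _ ha => have := inv_mem ha; simpa [mul_assoc] using this

theorem root_norm {i r : ℕ} (hi : i < D.rank) (hr : r < D.nroots) (hrp : r = D.simple i ∨ r = D.neg (D.simple i)) :
    D.rootSubgroup F r ≤ Subgroup.normalizer (Ui D F i : Set (GL D.Idx F)) := by
  rw [ChevalleyDatum.rootSubgroup, Subgroup.closure_le]
  rintro x ⟨t, hx⟩
  rw [show x = xG G.good r hr t from Units.ext hx, SetLike.mem_coe, Subgroup.mem_normalizer_iff]
  intro u
  refine ⟨Ui_conj G hi hr hrp t u, fun h => ?_⟩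
  have := Ui_conj G hi hr hrp (-t) _ h
  rwa [← xG_inv, show (xG G.good r hr t)⁻¹ * (xG G.good r hr t * u * (xG G.good r hr t)⁻¹) * ((xG G.good r hr t)⁻¹)⁻¹ = u by group] at this

theorem Ui_sup {i : ℕ} (hi : i < D.rank) : Ui D F i ⊔ D.rootSubgroup F (D.simple i) = D.posUnipotent F := by
  refine le_antisymm (sup_le (Ui_le_U i) ?_) ?_
  · rw [ChevalleyDatum.rootSubgroup, Subgroup.closure_le]
    rintro x ⟨t, hx⟩
    exact Subgroup.subset_closure ⟨_, t, (pos_iff G.good).2 ⟨(G.good.simple hi).lt, (G.good.simple hi).pos⟩, hx⟩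
  · rw [ChevalleyDatum.posUnipotent, Subgroup.closure_le]
    rintro x ⟨s, t, hs, hx⟩
    by_cases e : s = D.simple i
    · exact Subgroup.mem_sup_right (Subgroup.subset_closure ⟨t, e ▸ hx⟩)
    · exact Subgroup.mem_sup_left (Subgroup.subset_closure ⟨s, t, hs, e, hx⟩)

theorem root_form {r : ℕ} (hr : r < D.nroots) {x : GL D.Idx F} (hx : x ∈ D.rootSubgroup F r) :
    ∃ t, x = xG G.good r hr t := by
  induction hx using Subgroup.closure_induction with
  | mem x hx => obtain ⟨t, e⟩ := hx; exact ⟨t, Units.ext e⟩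
  | one => exact ⟨0, (Units.ext (x_zero G.good.datum hr)).symm⟩
  | mul a b _ _ ha hb =>
    obtain ⟨t, rfl⟩ := ha
    obtain ⟨u, rfl⟩ := hb
    exact ⟨t + u, xG_mul _ hr t u⟩
  | inv a _ ha => obtain ⟨t, rfl⟩ := ha; exact ⟨-t, xG_inv _ hr t⟩

theorem Ui_nn {i : ℕ} (hi : i < D.rank) : ∀ u ∈ Ui D F i, nn G.good F i * u * (nn G.good F i)⁻¹ ∈ Ui D F i := by
  intro u hu
  induction hu using Subgroup.closure_induction with
  | mem x hx =>
    obtain ⟨s, v, hspos, hne, hx⟩ := hx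
    obtain ⟨hs, hp⟩ := (pos_iff G.good).1 hspos
    rw [show x = xG G.good s hs v from Units.ext hx, nn_conj G hi hs]
    refine xG_mem_Ui G _ (G.im_pos hi hs hp hne) (fun e => ?_) _
    have h1 := congrArg (c.im i) e
    rw [(G.good.refl hi hs).invol, (G.good.simple hi).im_self] at h1
    have := (neg_side G (G.good.simple hi).lt).not
    have := (G.good.simple hi).pos
    omega
  | one => simp
  | mul a b _ _ ha hb => have := mul_mem ha hb; simpa [mul_assoc] using this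
  | inv a _ ha => have := inv_mem ha; simpa [mul_assoc] using this

/-- `B = U_p X_p H`. -/
theorem B_form {i : ℕ} (hi : i < D.rank) {b : GL D.Idx F} (hb : b ∈ D.borelSubgroup F) :
    ∃ u ∈ Ui D F i, ∃ t : F, ∃ h ∈ D.diagonalSubgroup F, b = u * xG G.good (D.simple i) (G.good.simple hi).lt t * h := by
  obtain ⟨v, hv, h, hh, rfl⟩ := (mem_B G.good).1 hb
  rw [← Ui_sup G hi, ← SetLike.mem_coe,
    Subgroup.coe_mul_of_right_le_normalizer_left _ _ (root_norm G hi (G.good.simple hi).lt (Or.inl rfl))] at hv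
  obtain ⟨u, hu, x, hx, rfl⟩ := Set.mem_mul.1 hv
  obtain ⟨t, rfl⟩ := root_form G (G.good.simple hi).lt hx
  exact ⟨u, hu, t, h, hh, rfl⟩

theorem Ui_mem_B {i : ℕ} {u : GL D.Idx F} (hu : u ∈ Ui D F i) : u ∈ D.borelSubgroup F :=
  Subgroup.mem_sup_left (Ui_le_U i hu)

theorem H_mem_B {h : GL D.Idx F} (hh : h ∈ D.diagonalSubgroup F) : h ∈ D.borelSubgroup F :=
  Subgroup.mem_sup_right hh

/-- `x_{-p}(t) = x_p(1/t) h n_p x_p(1/t)`. -/
theorem negp_form {i : ℕ} (hi : i < D.rank) {t : F} (ht : t ≠ 0) :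
    ∃ a ∈ D.borelSubgroup F, xG G.good (D.neg (D.simple i)) (G.good.neg_lt (G.good.simple hi).lt) t =
      a * nn G.good F i * xG G.good (D.simple i) (G.good.simple hi).lt (t⁻¹) := by
  have hp := (G.good.simple hi).lt
  refine ⟨xG G.good (D.simple i) hp t⁻¹ * hG G.good (D.simple i) hp (-t⁻¹),
    mul_mem (xG_mem_B G hp (G.good.simple hi).pos _) (H_mem_B G (hG_mem_H G hp (by simp [ht]))), ?_⟩
  have e1 : hG G.good (D.simple i) hp (-t⁻¹) * nn G.good F i = nG G.good (D.simple i) hp (-t⁻¹) := by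
    rw [nn_eq G hi, hG, mul_assoc, ← nG_inv G.good hp (1 : F), inv_mul_cancel, mul_one]
  rw [mul_assoc (xG G.good _ _ _), e1, nG, inv_neg, inv_inv, neg_neg]
  have e2 : xG G.good (D.simple i) hp t⁻¹ * xG G.good (D.simple i) hp (-t⁻¹) = 1 := by
    rw [xG_mul, add_neg_cancel]; exact Units.ext (x_zero G.good.datum hp)
  calc _ = 1 * xG G.good (D.neg (D.simple i)) (G.good.neg_lt hp) t * 1 := by simp
    _ = _ := by
      rw [← e2]
      have e3 : xG G.good (D.simple i) hp (-t⁻¹) * xG G.good (D.simple i) hp t⁻¹ = 1 := by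
        rw [xG_mul, neg_add_cancel]; exact Units.ext (x_zero G.good.datum hp)
      nth_rewrite 2 [e2]
      simp only [mul_assoc]
      rw [e3]

/-- `n_p B n_p⁻¹ ⊆ B ∪ B n_p B`. -/
theorem conj_B {i : ℕ} (hi : i < D.rank) {b : GL D.Idx F} (hb : b ∈ D.borelSubgroup F) :
    nn G.good F i * b * (nn G.good F i)⁻¹ ∈ D.borelSubgroup F ∨
      ∃ a ∈ D.borelSubgroup F, ∃ a' ∈ D.borelSubgroup F, nn G.good F i * b * (nn G.good F i)⁻¹ = a * nn G.good F i * a' := by
  obtain ⟨u, hu, t, h, hh, rfl⟩ := B_form G hi hb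
  have hp := (G.good.simple hi).lt
  set n := nn G.good F i
  have hu' := Ui_mem_B G (Ui_nn G hi u hu)
  have hh' := H_mem_B G (norm_H G (nn_mem_N (F := F) G hi) hh)
  have e : n * (u * xG G.good (D.simple i) hp t * h) * n⁻¹ =
      (n * u * n⁻¹) * (n * xG G.good (D.simple i) hp t * n⁻¹) * (n * h * n⁻¹) := by group
  rw [e, nn_conj G hi hp, xG_congr G.good (G.good.simple hi).im_self _ (G.good.neg_lt hp)]
  by_cases ht : t = 0
  · subst ht
    left
    rw [mul_zero, show xG G.good (D.neg (D.simple i)) (G.good.neg_lt hp) (0 : F) = 1 from Units.ext (x_zero G.good.datum (G.good.neg_lt hp)), mul_one]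
    exact mul_mem hu' hh'
  · right
    have h0 : (c.sgn i (D.simple i) : F) * t ≠ 0 := mul_ne_zero (by simp [(G.good.simple hi).sgn_self]) ht
    obtain ⟨a, ha, ea⟩ := negp_form G hi h0
    refine ⟨_, mul_mem hu' ha, _, mul_mem (xG_mem_B G hp (G.good.simple hi).pos ((c.sgn i (D.simple i) : F) * t)⁻¹) hh', ?_⟩
    rw [ea]
    simp only [mul_assoc]
    rfl

end Cfsg.Agent.Chev.Tits
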