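import Cfsg.Agent.Chev.Simple

set_option autoImplicit false
attribute [-simp] Array.getD_eq_getD_getElem?

namespace Cfsg.Agent.Chev.Tits

open Cfsg.Lie Matrix Cfsg.Agent.Chev.Comm
open scoped commutatorElement

variable {D : ChevalleyDatum} {c : Cert} {F : Type*} [Field F] (G : TGood D c)
include G

theorem single_comm {r s q : ℕ} {C : ℤ} (hr : r < D.nroots) (hs : s < D.nroots) (h1 : s ≠ r) (h2 : s ≠ D.neg r)
    (hq : q < D.nroots) (ht : D.commTerms r s = [(q, C, 1, 1)]) (t u : F) :
    ⁅(xG G.good s hs u)⁻¹, (xG G.good r hr t)⁻¹⁆ = xG G.good q hq ((C : F) * -t * u) := by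
  have e : xG G.good s hs u * xG G.good r hr t =
      xG G.good r hr t * xG G.good s hs u * xG G.good q hq ((C : F) * -t * u) := by
    apply Units.ext
    simp only [Units.val_mul]
    have := comm G.cg hr hs h1 h2 t u
    simp only [ChevalleyDatum.commWord, ht, List.map_cons, List.map_nil, pow_one, ChevalleyDatum.wordMat,
      List.prod_cons, List.prod_nil, mul_one] at this
    exact this
  rw [commutatorElement_def, inv_inv, inv_inv, mul_assoc, e]
  group

theorem pairFor_spec {p : ℕ} {ok : ℤ → Bool} (hp : p < D.nroots) (h : pairFor D p ok = true) (hok : ∀ C, ok C = true → (C : F) ≠ 0)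
    (t : F) : ∀ (K : Subgroup ↥(D.group F)), (∀ a b : ↥(D.group F), ⁅a, b⁆ ∈ K) →
      (⟨xG G.good p hp t, xG_mem_group G hp t⟩ : ↥(D.group F)) ∈ K := by
  intro K hK
  simp only [pairFor, List.any_eq_true, List.mem_range, Bool.and_eq_true, Bool.not_eq_true', Nat.blt_eq] at h
  obtain ⟨r, hr, e, -, ⟨⟨⟨-, hs⟩, h1⟩, h2⟩, hm⟩ := h
  split at hm
  · next q C heq =>
    rw [Bool.and_eq_true] at hm
    obtain ⟨hq, hC⟩ := hm
    obtain rfl := Nat.eq_of_beq_eq_true hq
    have hC0 := hok C hC
    have := hK ⟨(xG G.good e.1 hs (1 : F))⁻¹, inv_mem (xG_mem_group G hs (1 : F))⟩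
      ⟨(xG G.good r hr (-(t * (C : F)⁻¹)))⁻¹, inv_mem (xG_mem_group G hr _)⟩
    convert this using 1
    apply Subtype.ext
    show _ = ⁅(xG G.good e.1 hs (1 : F))⁻¹, (xG G.good r hr (-(t * (C : F)⁻¹)))⁻¹⁆
    rw [single_comm G hr hs (Nat.ne_of_beq_eq_false h1) (Nat.ne_of_beq_eq_false h2) hp heq]
    congr 1
    field_simp
  · exact absurd hm Bool.false_ne_true

theorem h_spec {i j : ℕ} (hi : i < D.rank) (hj : j < D.rank) {a : F} (ha : a ≠ 0)
    (h1 : a ^ D.cartan j (D.simple i) ≠ 1) (t : F) (K : Subgroup ↥(D.group F))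
    (hK : ∀ x y : ↥(D.group F), ⁅x, y⁆ ∈ K) :
    (⟨xG G.good (D.simple i) (G.good.simple hi).lt t, xG_mem_group G _ t⟩ : ↥(D.group F)) ∈ K := by
  have hp := (G.good.simple hi).lt
  have hq := (G.good.simple hj).lt
  have hh : hG G.good (D.simple j) hq a ∈ D.group F :=
    mul_mem (mul_mem (mul_mem (xG_mem_group G hq _) (xG_mem_group G (G.good.neg_lt hq) _)) (xG_mem_group G hq _))
      (mul_mem (mul_mem (xG_mem_group G hq _) (xG_mem_group G (G.good.neg_lt hq) _)) (xG_mem_group G hq _))
  set χ := a ^ D.cartan j (D.simple i)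
  set u := t * (χ - 1)⁻¹
  have e : hG G.good (D.simple j) hq a * xG G.good (D.simple i) hp u * (hG G.good (D.simple j) hq a)⁻¹ =
      xG G.good (D.simple i) hp (χ * u) := by
    rw [mul_inv_eq_iff_eq_mul]
    apply Units.ext
    rw [Units.val_mul, Units.val_mul, hp_eq G.good hj a ha]
    exact h_conj G.good hj hp a ha u
  have := hK ⟨_, hh⟩ ⟨_, xG_mem_group G hp u⟩
  convert this using 1
  apply Subtype.ext
  show _ = ⁅hG G.good (D.simple j) hq a, xG G.good (D.simple i) hp u⁆
  rw [commutatorElement_def, e, xG_inv, xG_mul]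
  have : χ - 1 ≠ 0 := sub_ne_zero.2 h1
  refine congrArg (xG G.good (D.simple i) hp) ?_
  simp only [u]
  field_simp
  ring

theorem perfect (H : (perfOK D = true) ∨ (perf3OK D = true ∧ ∃ a : F, a ≠ 0 ∧ a ≠ 1)) :
    commutator ↥(D.group F) = ⊤ := by
  set K := commutator ↥(D.group F) with hKdef
  have hK : ∀ x y : ↥(D.group F), ⁅x, y⁆ ∈ K := fun x y =>
    Subgroup.commutator_mem_commutator (Subgroup.mem_top x) (Subgroup.mem_top y)
  have simp_mem : ∀ i (hi : i < D.rank) (t : F),
      (⟨xG G.good (D.simple i) (G.good.simple hi).lt t, xG_mem_group G _ t⟩ : ↥(D.group F)) ∈ K := by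
    intro i hi t
    have hp := (G.good.simple hi).lt
    rcases H with H | ⟨H, a, ha0, ha1⟩
    · simp only [perfOK, List.all_eq_true, List.mem_range] at H
      refine pairFor_spec G hp (H i hi) (fun C hC => ?_) t K hK
      simp only [decide_eq_true_eq] at hC
      rcases Int.natAbs_eq C with h | h <;> rw [h, hC] <;> simp
    · by_cases hsq : ∃ b : F, b ≠ 0 ∧ b ^ (2 : ℤ) ≠ 1
      · obtain ⟨b, hb0, hb⟩ := hsq
        have hs := G.self
        simp only [selfOK, List.all_eq_true, List.mem_range, decide_eq_true_eq] at hs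
        exact h_spec G hi hi hb0 (by rwa [hs i hi]) t K hK
      push_neg at hsq
      have ha : a = -1 := by
        have := hsq a ha0
        rw [zpow_two] at this
        exact (mul_self_eq_one_iff.1 this).resolve_left ha1
      have h2 : (2 : F) ≠ 0 := by
        intro h
        exact ha1 (by rw [ha]; linear_combination -h)
      simp only [perf3OK, List.all_eq_true, List.mem_range, Bool.or_eq_true, List.any_eq_true, decide_eq_true_eq] at H
      rcases H i hi with ⟨j, hj, hodd⟩ | hpair
      · refine h_spec G hi hj (a := -1) (by simp) ?_ t K hK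
        rw [Odd.neg_one_zpow (Int.odd_iff.2 hodd)]
        intro h
        exact h2 (by linear_combination -h)
      · refine pairFor_spec G hp hpair (fun C hC => ?_) t K hK
        simp only [decide_eq_true_eq] at hC
        rcases Int.natAbs_eq C with h | h <;> rcases hC with e | e <;> rw [h, e] <;> simp [h2]
  have all : ∀ r (hr : r < D.nroots) (t : F), (⟨xG G.good r hr t, xG_mem_group G hr t⟩ : ↥(D.group F)) ∈ K := by
    intro r hr t
    obtain ⟨w, hw, i, hi, ε, hε, w1, -⟩ := reach (F := F) G.good hr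
    have hwG := W0_le G.good hw
    have := (inferInstance : (commutator ↥(D.group F)).Normal).conj_mem _ (simp_mem i hi (ε * t)) ⟨w, hwG⟩
    convert this using 1
    apply Subtype.ext
    show _ = w * xG G.good (D.simple i) (G.good.simple hi).lt (ε * t) * w⁻¹
    rw [w1, ← mul_assoc, hε, one_mul]
  rw [eq_top_iff]
  intro x _
  suffices h : ∀ y (hy : y ∈ D.group F), (⟨y, hy⟩ : ↥(D.group F)) ∈ K from h x x.2
  intro y hy
  induction hy using Subgroup.closure_induction with
  | mem z hz =>
    obtain ⟨r, t, hz⟩ := hz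
    have e : z = xG G.good r r.2 t := Units.ext (hz.trans (x_eq r.2 t).symm)
    subst e
    exact all r r.2 t
  | one => exact K.one_mem
  | mul a b ha hb iha ihb => exact K.mul_mem iha ihb
  | inv a ha iha => exact K.inv_mem iha

theorem simple (P : Cfsg.BNPair ↥(D.group F)) (hB : P.B = (D.borelSubgroup F).subgroupOf (D.group F))
    (hS : P.S = {n : ↥(D.group F) | ∃ i < D.rank, ((n : GL D.Idx F) : Matrix D.Idx D.Idx F) = D.nMat F (D.simple i) 1})
    (hle : D.borelSubgroup F ≤ D.group F) (hsol : Group.IsSolvable ↥(D.borelSubgroup F))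
    (hcore : ((D.borelSubgroup F).subgroupOf (D.group F)).normalCore = ⊥)
    (hperf : commutator ↥(D.group F) = ⊤) (h0 : 0 < D.rank) :
    IsSimpleGroup ↥(D.group F) ∧ ¬ IsMulCommutative ↥(D.group F) := by
  have hp := (G.good.simple h0).lt
  have hne : (⟨xG G.good (D.simple 0) hp (1 : F), xG_mem_group G hp 1⟩ : ↥(D.group F)) ≠ 1 := fun h =>
    xG_ne G hp one_ne_zero (congrArg Subtype.val h)
  haveI : Nontrivial ↥(D.group F) := ⟨_, _, hne⟩
  haveI := hsol
  refine ⟨Cfsg.Agent.BN.simple_of_perfect P (irreducible G P hB hS) ?_ hperf (hB ▸ hcore), fun hc => ?_⟩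
  · rw [hB]
    exact solvable_of_solvable_injective (f := (Subgroup.subgroupOfEquivOfLe hle).toMonoidHom) (MulEquiv.injective _)
  · have hcomm : ∀ x y : ↥(D.group F), x * y = y * x := fun x y => hc.is_comm.comm x y
    have : (⊤ : Subgroup ↥(D.group F)) ≤ ⊥ := by
      rw [← hperf, commutator_def, Subgroup.commutator_le]
      intro x _ y _
      rw [Subgroup.mem_bot, commutatorElement_eq_one_iff_mul_comm]
      exact hcomm x y
    exact hne (Subgroup.mem_bot.1 (this (Subgroup.mem_top _)))

end Cfsg.Agent.Chev.Tits
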