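import Cfsg.Agent.Chev.RepCheck

set_option autoImplicit false

namespace Cfsg.Agent.Chev.Tits

/-- The value of a coefficient list. -/
def evalL (q : ℤ) : List ℤ → ℤ
  | [] => 0
  | a :: l => a + q * evalL q l

/-- The sum of coefficient lists. -/
def addL : List ℤ → List ℤ → List ℤ
  | [], m => m
  | l, [] => l
  | a :: l, b :: m => (a + b) :: addL l m

/-- The product of coefficient lists. -/
def mulL : List ℤ → List ℤ → List ℤ
  | [], _ => []
  | a :: l, m => addL (m.map fun x => a * x) (0 :: mulL l m)

/-- A monomial. -/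
def monL (n : ℕ) : List ℤ := List.replicate n 0 ++ [1]

/-- Equality of coefficient lists up to final zeros. -/
def eqL : List ℤ → List ℤ → Bool
  | [], m => m.all fun x => decide (x = 0)
  | a :: l, [] => decide (a = 0) && eqL l []
  | a :: l, b :: m => decide (a = b) && eqL l m

/-- The length polynomial of a level. -/
def genL (R : List (List ℕ)) : List ℤ := R.foldr (fun r p => addL (monL r.length) p) []

/-- The product of the length polynomials, with a power of `X - 1`. -/
def lhsL : List (List (List ℕ)) → List ℤ
  | [] => [1]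
  | R :: Rs => mulL (mulL [-1, 1] (genL R)) (lhsL Rs)

/-- The product of the `X^d - 1`. -/
def rhsL : List ℕ → List ℤ
  | [] => [1]
  | d :: ds => mulL (addL (monL d) [-1]) (rhsL ds)

theorem evalL_add (q : ℤ) : ∀ l m : List ℤ, evalL q (addL l m) = evalL q l + evalL q m := by
  intro l
  induction l with
  | nil => intro m; simp [addL, evalL]
  | cons a l ih =>
    intro m
    cases m with
    | nil => simp [addL, evalL]
    | cons b m => simp [addL, evalL, ih]; ring

theorem evalL_smul (q a : ℤ) : ∀ m : List ℤ, evalL q (m.map fun x => a * x) = a * evalL q m := by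
  intro m
  induction m with
  | nil => simp [evalL]
  | cons b m ih => simp [evalL, ih]; ring

theorem evalL_mul (q : ℤ) : ∀ l m : List ℤ, evalL q (mulL l m) = evalL q l * evalL q m := by
  intro l
  induction l with
  | nil => intro m; simp [mulL, evalL]
  | cons a l ih => intro m; simp [mulL, evalL, evalL_add, evalL_smul, ih]; ring

theorem evalL_mon (q : ℤ) (n : ℕ) : evalL q (monL n) = q ^ n := by
  induction n with
  | zero => simp [monL, evalL]
  | succ n ih =>
    simp only [monL] at ih
    simp [monL, List.replicate_succ, evalL, ih, pow_succ']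

theorem eqL_sound (q : ℤ) : ∀ l m : List ℤ, eqL l m = true → evalL q l = evalL q m := by
  intro l
  induction l with
  | nil =>
    intro m h
    induction m with
    | nil => rfl
    | cons b m ih =>
      simp [eqL] at h ih
      simp [evalL, h.1, ← ih h.2]
  | cons a l ih =>
    intro m h
    cases m with
    | nil => simp [eqL] at h; simp [evalL, h.1, ih [] h.2]
    | cons b m => simp [eqL] at h; simp [evalL, h.1, ih m h.2]

theorem evalL_gen (q : ℕ) : ∀ R : List (List ℕ),
    evalL (q : ℤ) (genL R) = (((R.map fun r => q ^ r.length).sum : ℕ) : ℤ) := by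
  intro R
  induction R with
  | nil => simp [genL, evalL]
  | cons r R ih => simp [genL] at ih ⊢; simp [evalL_add, evalL_mon, ih]

theorem evalL_lhs (q : ℕ) (hq : 1 ≤ q) : ∀ Rs : List (List (List ℕ)),
    evalL (q : ℤ) (lhsL Rs) = (((q - 1) ^ Rs.length * (Rs.map fun R => (R.map fun r => q ^ r.length).sum).prod : ℕ) : ℤ) := by
  intro Rs
  induction Rs with
  | nil => simp [lhsL, evalL]
  | cons R Rs ih =>
    rw [lhsL, evalL_mul, evalL_mul, evalL_gen, ih]
    simp only [evalL, List.map_cons, List.prod_cons, List.length_cons]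
    push_cast [Nat.cast_sub hq]
    ring

theorem evalL_rhs (q : ℕ) (hq : 1 ≤ q) : ∀ ds : List ℕ,
    evalL (q : ℤ) (rhsL ds) = (((ds.map fun d => q ^ d - 1).prod : ℕ) : ℤ) := by
  intro ds
  induction ds with
  | nil => simp [rhsL, evalL]
  | cons d ds ih =>
    rw [rhsL, evalL_mul, evalL_add, evalL_mon, ih, List.map_cons, List.prod_cons]
    simp only [evalL]
    push_cast [Nat.cast_sub (Nat.one_le_pow d q hq)]
    ring

theorem poly_identity {Rs : List (List (List ℕ))} {ds : List ℕ} (h : eqL (lhsL Rs) (rhsL ds) = true) {q : ℕ} (hq : 1 ≤ q) :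
    (q - 1) ^ Rs.length * (Rs.map fun R => (R.map fun r => q ^ r.length).sum).prod = (ds.map fun d => q ^ d - 1).prod := by
  have := eqL_sound (q : ℤ) _ _ h
  rw [evalL_lhs q hq, evalL_rhs q hq] at this
  exact_mod_cast this

end Cfsg.Agent.Chev.Tits
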