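import Mathlib

/-!
Homomorphisms out of `SL₂` from rank one relations.
-/

set_option autoImplicit false

namespace Cfsg.Agent.Chev.RankOne

open Matrix

variable {F : Type*} [Field F] {G : Type*} [Group G] (X Y N : F → G)

open Classical in
/-- The value on a matrix. -/
noncomputable def val (g : Matrix (Fin 2) (Fin 2) F) : G :=
  if g 1 0 = 0 then N (g 0 0) * N (-1) * X (g 0 1 / g 0 0)
  else X (g 0 0 / g 1 0) * N (-(g 1 0)⁻¹) * X (g 1 1 / g 1 0)

/-- The upper unitriangular matrix. -/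
def ux (t : F) : SpecialLinearGroup (Fin 2) F := ⟨!![1, t; 0, 1], by simp [Matrix.det_fin_two]⟩

/-- The rotation. -/
def uw : SpecialLinearGroup (Fin 2) F := ⟨!![0, 1; -1, 0], by simp [Matrix.det_fin_two]⟩

/-- The monomial element. -/
def un (t : F) (ht : t ≠ 0) : SpecialLinearGroup (Fin 2) F := ⟨!![0, t; -t⁻¹, 0], by simp [Matrix.det_fin_two, ht]⟩

theorem exists_hom (hX : ∀ s t, X s * X t = X (s + t))
    (hN : ∀ t, t ≠ 0 → N t = X t * Y (-t⁻¹) * X t) (hNinv : ∀ t, t ≠ 0 → (N t)⁻¹ = N (-t))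
    (hH : ∀ s t, s ≠ 0 → t ≠ 0 → N s * N (-1) * (N t * N (-1)) = N (s * t) * N (-1))
    (hHX : ∀ a u, a ≠ 0 → N a * N (-1) * X u = X (a ^ 2 * u) * (N a * N (-1)))
    (hW : ∀ u, N 1 * X u * (N 1)⁻¹ = Y (-u)) :
    ∃ φ : SpecialLinearGroup (Fin 2) F →* G,
      φ.range = Subgroup.closure (Set.range X ∪ Set.range Y) ∧
      ∀ (g : SpecialLinearGroup (Fin 2) F) (t : F),
        ((g : Matrix (Fin 2) (Fin 2) F) = !![1, t; 0, 1] → φ g = X t) ∧
        ((g : Matrix (Fin 2) (Fin 2) F) = !![1, 0; t, 1] → φ g = Y t) := by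
  classical
  have X0 : X 0 = 1 := by
    have := hX 0 0
    rw [add_zero] at this
    exact mul_left_cancel (this.trans (mul_one _).symm)
  have Ninv1 : N (-1) = (N 1)⁻¹ := (hNinv 1 one_ne_zero).symm
  have hNH : ∀ t, N t = N t * N (-1) * N 1 := fun t => by rw [Ninv1]; group
  have Hm1 : N 1 * N 1 = N (-1) * N (-1) := by
    have h := hH (-1) (-1) (by simp) (by simp)
    rw [show (-1 : F) * -1 = 1 by ring, Ninv1, mul_inv_cancel] at h
    rw [Ninv1, ← _root_.inv_inj]
    calc (N 1 * N 1)⁻¹ = (N 1)⁻¹ * (N 1)⁻¹ := by group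
      _ = ((N 1)⁻¹ * (N 1)⁻¹)⁻¹ := eq_inv_of_mul_eq_one_left h
  let f : SpecialLinearGroup (Fin 2) F → G := fun g => val X N (g : Matrix (Fin 2) (Fin 2) F)
  have hdet : ∀ g : SpecialLinearGroup (Fin 2) F, g.1 0 0 * g.1 1 1 - g.1 0 1 * g.1 1 0 = 1 := fun g => by
    have := g.2
    rwa [Matrix.det_fin_two] at this
  have fx : ∀ t, f (ux t) = X t := fun t => by
    simp [f, val, ux, Ninv1]
  have fw : f uw = N 1 := by
    simp [f, val, uw, X0]
  have ex : ∀ (g : SpecialLinearGroup (Fin 2) F) (t : F), (g * ux t).1 = !![g.1 0 0, g.1 0 0 * t + g.1 0 1; g.1 1 0, g.1 1 0 * t + g.1 1 1] := by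
    intro g t; ext i j
    show (g.1 * (ux t).1) i j = _
    fin_cases i <;> fin_cases j <;> simp [ux, Matrix.mul_apply, Fin.sum_univ_two]
  have ew : ∀ (g : SpecialLinearGroup (Fin 2) F), (g * uw).1 = !![-g.1 0 1, g.1 0 0; -g.1 1 1, g.1 1 0] := by
    intro g; ext i j
    show (g.1 * (uw (F := F)).1) i j = _
    fin_cases i <;> fin_cases j <;> simp [uw, Matrix.mul_apply, Fin.sum_univ_two]
  have stepX : ∀ g t, f (g * ux t) = f g * X t := by
    intro g t
    show val X N (g * ux t).1 = val X N g.1 * X t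
    rw [ex]
    by_cases hc : g.1 1 0 = 0
    · have ha : g.1 0 0 ≠ 0 := fun h => by have := hdet g; simp [h, hc] at this
      simp [val, hc, mul_assoc, hX]
      congr 1
      field_simp
      ring
    · simp [val, hc, mul_assoc, hX]
      congr 1
      field_simp
      ring
  have stepW : ∀ g, f (g * uw) = f g * N 1 := by
    intro g
    have hd := hdet g
    show val X N (g * uw).1 = val X N g.1 * N 1
    rw [ew]
    unfold val
    set a := g.1 0 0
    set b := g.1 0 1
    set c := g.1 1 0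
    set d := g.1 1 1
    simp only [Matrix.cons_val', Matrix.cons_val_zero, Matrix.cons_val_one, Matrix.cons_val_fin_one,
      Matrix.of_apply]
    by_cases hc : c = 0
    · have ha : a ≠ 0 := fun h => by simp [h, hc] at hd
      have hdn : d ≠ 0 := fun h => by simp [h, hc] at hd
      rw [if_pos hc, if_neg (by simpa using hdn)]
      have hda : d = a⁻¹ := eq_inv_of_mul_eq_one_right (by rw [hc, mul_zero, sub_zero] at hd; exact hd)
      rw [hHX a (b / a) ha, mul_assoc (X (a ^ 2 * (b / a))) _ (N 1), ← hNH, hc, zero_div, X0, mul_one]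
      congr 1
      · congr 1; rw [hda]; field_simp
      · congr 1; rw [hda]; simp
    · by_cases hd0 : d = 0
      · rw [if_neg hc, if_pos (by simp [hd0]), hd0, zero_div, X0, mul_one]
        have hb : -b = c⁻¹ := eq_inv_of_mul_eq_one_left (by rw [hd0, mul_zero, zero_sub] at hd; rw [neg_mul]; exact hd)
        rw [hb, hHX c⁻¹ _ (inv_ne_zero hc), show c⁻¹ ^ 2 * (a / c⁻¹) = a / c by field_simp, mul_assoc]
        congr 1
        rw [hNH (-c⁻¹), mul_assoc, Hm1, hH (-c⁻¹) (-1) (neg_ne_zero.2 (inv_ne_zero hc)) (by simp)]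
        congr 2
        ring
      · rw [if_neg hc, if_neg (by simpa using hd0)]
        set u := d / c with hu
        have hu0 : u ≠ 0 := div_ne_zero hd0 hc
        have hc' : -c⁻¹ ≠ 0 := neg_ne_zero.2 (inv_ne_zero hc)
        have hY : Y (-u) = X (-u⁻¹) * N u⁻¹ * X (-u⁻¹) := by
          rw [hN _ (inv_ne_zero hu0), inv_inv, ← mul_assoc, ← mul_assoc, hX, neg_add_cancel, X0, one_mul,
            mul_assoc, hX, add_neg_cancel, X0, mul_one]
        have key : X u = (N 1)⁻¹ * (X (-u⁻¹) * N u⁻¹ * X (-u⁻¹)) * N 1 := by rw [← hY, ← hW]; group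
        have hm : X (-u⁻¹) * (N (-1) * N (-1)) = N (-1) * N (-1) * X (-u⁻¹) := by
          rw [hHX _ _ (by simp : (-1 : F) ≠ 0)]
          congr 2
          ring
        have e1 : a / c + (-c⁻¹) ^ 2 * -u⁻¹ = -b / -d := by
          rw [hu]; field_simp; linear_combination hd
        have e2 : -c⁻¹ * u⁻¹ * -1 = -(-d)⁻¹ := by rw [hu]; field_simp
        have e3 : -u⁻¹ = c / -d := by rw [hu]; field_simp
        symm
        calc X (a / c) * N (-c⁻¹) * X u * N 1
            = X (a / c) * (N (-c⁻¹) * N (-1) * X (-u⁻¹)) * N u⁻¹ * (X (-u⁻¹) * (N 1 * N 1)) := by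
              rw [key, Ninv1]; group
          _ = X (a / c) * (X ((-c⁻¹) ^ 2 * -u⁻¹) * (N (-c⁻¹) * N (-1))) * (N u⁻¹ * N (-1) * N 1) * (N 1 * N 1 * X (-u⁻¹)) := by
              rw [hHX _ _ hc', Hm1, hm, ← hNH]
          _ = X (a / c) * X ((-c⁻¹) ^ 2 * -u⁻¹) * (N (-c⁻¹) * N (-1) * (N u⁻¹ * N (-1)) * (N 1 * N 1) * N 1) * X (-u⁻¹) := by
              group
          _ = X (-b / -d) * N (-(-d)⁻¹) * X (c / -d) := by
              rw [hX, Hm1, hH _ _ hc' (inv_ne_zero hu0), hH _ _ (mul_ne_zero hc' (inv_ne_zero hu0)) (by simp), ← hNH, e1, e2, e3]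
  have hmul : ∀ k g, f (g * k) = f g * f k := by
    let K : Set (SpecialLinearGroup (Fin 2) F) := {k | ∀ g, f (g * k) = f g * f k}
    have km : ∀ k l, k ∈ K → l ∈ K → k * l ∈ K := fun k l hk hl g => by
      rw [← mul_assoc, hl, hk, hl, mul_assoc]
    have kx : ∀ t, ux t ∈ K := fun t g => by rw [stepX, fx]
    have kw : uw ∈ K := fun g => by rw [stepW, fw]
    intro k
    have ky : ∀ t : F, (uw * ux (-t) * (uw * uw * uw)) ∈ K := fun t =>
      km _ _ (km _ _ kw (kx _)) (km _ _ (km _ _ kw kw) kw)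
    have hn : ∀ (t : F) (ht : t ≠ 0), un t ht ∈ K := fun t ht => by
      have h := km _ _ (km _ _ (kx t) (ky (-t⁻¹))) (kx t)
      refine Eq.subst (motive := fun x => x ∈ K) ?_ h
      apply Matrix.SpecialLinearGroup.ext
      intro i j
      simp only [Matrix.SpecialLinearGroup.coe_mul]
      fin_cases i <;> fin_cases j <;> simp [ux, uw, un, Matrix.mul_apply, Fin.sum_univ_two, ht]
    have hd := hdet k
    by_cases hc : k.1 1 0 = 0
    · have ha : k.1 0 0 ≠ 0 := fun h => by simp [h, hc] at hd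
      have h := km _ _ (km _ _ (hn _ ha) (hn (-1) (by simp))) (kx (k.1 0 1 / k.1 0 0))
      refine Eq.subst (motive := fun x => x ∈ K) ?_ h
      apply Matrix.SpecialLinearGroup.ext
      intro i j
      simp only [Matrix.SpecialLinearGroup.coe_mul]
      have hkd : k.1 1 1 = (k.1 0 0)⁻¹ := eq_inv_of_mul_eq_one_right (by rw [hc, mul_zero, sub_zero] at hd; exact hd)
      fin_cases i <;> fin_cases j <;> simp [ux, un, Matrix.mul_apply, Fin.sum_univ_two, hc, hkd] <;> field_simp
    · have h := km _ _ (km _ _ (kx (k.1 0 0 / k.1 1 0)) (hn (-(k.1 1 0)⁻¹) (by simp [hc]))) (kx (k.1 1 1 / k.1 1 0))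
      refine Eq.subst (motive := fun x => x ∈ K) ?_ h
      apply Matrix.SpecialLinearGroup.ext
      intro i j
      simp only [Matrix.SpecialLinearGroup.coe_mul]
      fin_cases i <;> fin_cases j <;> simp [ux, un, Matrix.mul_apply, Fin.sum_univ_two, hc] <;> field_simp
      linear_combination hd
  refine ⟨MonoidHom.mk' f fun g k => hmul k g, ?_, fun g t => ⟨fun hg => ?_, fun hg => ?_⟩⟩
  · refine le_antisymm ?_ ((Subgroup.closure_le _).2 ?_)
    · rintro _ ⟨g, rfl⟩
      have hXm : ∀ t, X t ∈ Subgroup.closure (Set.range X ∪ Set.range Y) := fun t => Subgroup.subset_closure (Or.inl ⟨t, rfl⟩)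
      have hNm : ∀ t, t ≠ 0 → N t ∈ Subgroup.closure (Set.range X ∪ Set.range Y) := fun t ht => by
        rw [hN t ht]
        exact mul_mem (mul_mem (hXm _) (Subgroup.subset_closure (Or.inr ⟨_, rfl⟩))) (hXm _)
      show val X N _ ∈ _
      unfold val
      split
      · next hc =>
        refine mul_mem (mul_mem (hNm _ fun h => ?_) (hNm _ (by simp))) (hXm _)
        have := hdet g
        simp [h, hc] at this
      · next hc => exact mul_mem (mul_mem (hXm _) (hNm _ (by simp [hc]))) (hXm _)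
    · rintro y (⟨t, rfl⟩ | ⟨t, rfl⟩)
      · exact ⟨ux t, fx t⟩
      · refine ⟨uw * ux (-t) * uw⁻¹, ?_⟩
        rw [map_mul, map_mul, map_inv]
        show f uw * f (ux (-t)) * (f uw)⁻¹ = _
        rw [fw, fx, hW, neg_neg]
  · show val X N _ = _
    rw [hg]; exact fx t
  · have : g = uw * ux (-t) * uw⁻¹ := by
      refine eq_mul_inv_of_mul_eq ?_
      ext i j
      show (g.1 * (uw (F := F)).1) i j = ((uw (F := F)).1 * (ux (-t)).1) i j
      fin_cases i <;> fin_cases j <;> simp [ux, uw, Matrix.mul_apply, Fin.sum_univ_two, hg]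
    rw [this, map_mul, map_mul, map_inv]
    show f uw * f (ux (-t)) * (f uw)⁻¹ = _
    rw [fw, fx, hW, neg_neg]

end Cfsg.Agent.Chev.RankOne
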