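import Mathlib.Tactic.IntervalCases
import Cfsg.Agent.Chev.RepCheck
import Cfsg.Agent.Chev.CertD4

set_option autoImplicit false
set_option maxRecDepth 100000

namespace Cfsg.Agent.Chev.Tits

open Cfsg.Lie

/-- Level 0 for type D4. -/
def levD4_0 : Lev :=
  ⟨[[], [0]], [[1, 0, 0, 0], [-1, 1, 0, 0]],
    [[(1, 4)], [(0, 4)]]⟩

theorem levOKD4_0 : levOK chevD4 certD4 0 levD4_0 = true := by decide +kernel

/-- Level 1 for type D4. -/
def levD4_1 : Lev :=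
  ⟨[[], [1], [0, 1]], [[0, 1, 0, 0], [1, -1, 1, 1], [-1, 0, 1, 1]],
    [[(0, 0), (1, 4)], [(2, 4), (0, 4)], [(1, 4), (2, 0)]]⟩

theorem levOKD4_1 : levOK chevD4 certD4 1 levD4_1 = true := by decide +kernel

/-- Level 2 for type D4. -/
def levD4_2 : Lev :=
  ⟨[[], [2], [1, 2], [0, 1, 2]], [[0, 0, 1, 0], [0, 1, -1, 0], [1, -1, 0, 1], [-1, 0, 0, 1]],
    [[(0, 0), (0, 1), (1, 4)], [(1, 0), (2, 4), (0, 4)], [(3, 4), (1, 4), (2, 1)], [(2, 4), (3, 0), (3, 1)]]⟩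

theorem levOKD4_2 : levOK chevD4 certD4 2 levD4_2 = true := by decide +kernel

/-- Level 3 for type D4. -/
def levD4_3 : Lev :=
  ⟨[[], [3], [1, 3], [0, 1, 3], [2, 1, 3], [2, 0, 1, 3], [1, 2, 0, 1, 3], [3, 1, 2, 0, 1, 3]], [[0, 0, 0, 1], [0, 1, 0, -1], [1, -1, 1, 0], [-1, 0, 1, 0], [1, 0, -1, 0], [-1, 1, -1, 0], [0, -1, 0, 1], [0, 0, 0, -1]],
    [[(0, 0), (0, 1), (0, 2), (1, 4)], [(1, 0), (2, 4), (1, 2), (0, 4)], [(3, 4), (1, 4), (4, 4), (2, 1)], [(2, 4), (3, 0), (5, 4), (3, 1)], [(5, 4), (4, 2), (2, 4), (4, 1)], [(4, 4), (6, 4), (3, 4), (5, 1)], [(6, 2), (5, 4), (6, 0), (7, 4)], [(7, 2), (7, 1), (7, 0), (6, 4)]]⟩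

theorem levOKD4_3 : levOK chevD4 certD4 3 levD4_3 = true := by decide +kernel

/-- All the levels for type D4. -/
def levsD4 (k : ℕ) : Lev := [levD4_0, levD4_1, levD4_2, levD4_3].getD k ⟨[[]], [[]], []⟩

theorem corSimpleD4 : corSimpleOK chevD4 = true := by decide +kernel

theorem levsOKD4 : ∀ k < 4, levOK chevD4 certD4 k (levsD4 k) = true := by
  intro k hk
  interval_cases k
  · exact levOKD4_0
  · exact levOKD4_1
  · exact levOKD4_2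
  · exact levOKD4_3

end Cfsg.Agent.Chev.Tits
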