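import Mathlib.Tactic.IntervalCases
import Cfsg.Agent.Chev.RepCheck
import Cfsg.Agent.Chev.CertG2

set_option autoImplicit false
set_option maxRecDepth 100000

namespace Cfsg.Agent.Chev.Tits

open Cfsg.Lie

/-- Level 0 for type G2. -/
def levG2_0 : Lev :=
  ⟨[[], [0]], [[1, 0], [-1, 1]],
    [[(1, 2)], [(0, 2)]]⟩

theorem levOKG2_0 : levOK chevG2 certG2 0 levG2_0 = true := by decide +kernel

/-- Level 1 for type G2. -/
def levG2_1 : Lev :=
  ⟨[[], [1], [0, 1], [1, 0, 1], [0, 1, 0, 1], [1, 0, 1, 0, 1]], [[0, 1], [3, -1], [-3, 2], [3, -2], [-3, 1], [0, -1]],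
    [[(0, 0), (1, 2)], [(2, 2), (0, 2)], [(1, 2), (3, 2)], [(4, 2), (2, 2)], [(3, 2), (5, 2)], [(5, 0), (4, 2)]]⟩

theorem levOKG2_1 : levOK chevG2 certG2 1 levG2_1 = true := by decide +kernel

/-- All the levels for type G2. -/
def levsG2 (k : ℕ) : Lev := [levG2_0, levG2_1].getD k ⟨[[]], [[]], []⟩

theorem corSimpleG2 : corSimpleOK chevG2 = true := by decide +kernel

theorem levsOKG2 : ∀ k < 2, levOK chevG2 certG2 k (levsG2 k) = true := by
  intro k hk
  interval_cases k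
  · exact levOKG2_0
  · exact levOKG2_1

end Cfsg.Agent.Chev.Tits
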