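import Cfsg.Agent.Chev.Count
import Cfsg.Agent.Chev.TitsAll
import Cfsg.Agent.Chev.RepG2
import Cfsg.Agent.Chev.RepB2
import Cfsg.Agent.Chev.RepD4
import Cfsg.Agent.Chev.RepF4
import Cfsg.Agent.Chev.RepE6
import Cfsg.Agent.Chev.RepE7
import Cfsg.Agent.Chev.RepE8

set_option autoImplicit false

namespace Cfsg.Agent.Chev.Tits

open Cfsg.Lie Cfsg.Agent.Chev.Comm

theorem tgood_rep_of_mem {D : ChevalleyDatum}
    (hD : D ∈ [chevG2, chevB2, chevD4, chevF4, chevE6, chevE7, chevE8]) :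
    ∃ c, ∃ Ls : ℕ → Lev, TGood D c ∧ revOK D = true ∧ corSimpleOK D = true ∧
      ∀ m < D.rank, levOK D c m (Ls m) = true := by
  have hrev := rev_of_mem hD
  simp only [List.mem_cons, List.not_mem_nil, or_false] at hD
  rcases hD with rfl | rfl | rfl | rfl | rfl | rfl | rfl
  · exact ⟨_, levsG2, ⟨⟨goodG2, repG2, closedG2⟩, posG2, connG2, selfG2⟩, hrev, corSimpleG2, levsOKG2⟩
  · exact ⟨_, levsB2, ⟨⟨goodB2, repB2, closedB2⟩, posB2, connB2, selfB2⟩, hrev, corSimpleB2, levsOKB2⟩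
  · exact ⟨_, levsD4, ⟨⟨goodD4, repD4, closedD4⟩, posD4, connD4, selfD4⟩, hrev, corSimpleD4, levsOKD4⟩
  · exact ⟨_, levsF4, ⟨⟨goodF4, repF4, closedF4⟩, posF4, connF4, selfF4⟩, hrev, corSimpleF4, levsOKF4⟩
  · exact ⟨_, levsE6, ⟨⟨goodE6, repE6, closedE6⟩, posE6, connE6, selfE6⟩, hrev, corSimpleE6, levsOKE6⟩
  · exact ⟨_, levsE7, ⟨⟨goodE7, repE7, closedE7⟩, posE7, connE7, selfE7⟩, hrev, corSimpleE7, levsOKE7⟩
  · exact ⟨_, levsE8, ⟨⟨goodE8, repE8, closedE8⟩, posE8, connE8, selfE8⟩, hrev, corSimpleE8, levsOKE8⟩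

end Cfsg.Agent.Chev.Tits
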