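import Cfsg.Agent.Chev.Check
import Mathlib

set_option autoImplicit false
attribute [-simp] Array.getD_eq_getD_getElem?

namespace Cfsg.Agent.Chev

open Cfsg.Lie Matrix

variable {D : ChevalleyDatum} {p : ℕ}

theorem incr_cons {a : ℕ} {l : List ℕ} (h : incr (a :: l) = true) :
    (∀ b ∈ l, a < b) ∧ incr l = true := by
  induction l generalizing a with
  | nil => simp [incr]
  | cons b l ih =>
    simp only [incr, Bool.and_eq_true, Nat.blt_eq] at h
    refine ⟨fun c hc => ?_, h.2⟩
    rcases List.mem_cons.1 hc with rfl | hc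
    · exact h.1
    · exact h.1.trans ((ih h.2).1 c hc)

theorem disj_sound : ∀ (n : ℕ) (A B : List ℕ), incr A = true → incr B = true → disj n A B = true →
    ∀ x ∈ A, x ∉ B := by
  intro n
  induction n with
  | zero =>
    intro A B _ _ h
    rcases A with _ | ⟨a, A⟩
    · simp
    · rcases B with _ | ⟨b, B⟩
      · simp
      · simp [disj] at h
  | succ n ih =>
    intro A B hA hB h
    rcases A with _ | ⟨a, A⟩
    · simp
    rcases B with _ | ⟨b, B⟩
    · simp
    obtain ⟨hA1, hA2⟩ := incr_cons hA
    obtain ⟨hB1, hB2⟩ := incr_cons hB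
    simp only [disj] at h
    cases h1 : Nat.blt a b with
    | true =>
      rw [h1] at h
      have hab : a < b := by simpa using h1
      have hr := ih A (b :: B) hA2 hB h
      intro x hx
      rcases List.mem_cons.1 hx with rfl | hx
      · intro hb
        rcases List.mem_cons.1 hb with rfl | hb
        · omega
        · have := hB1 _ hb; omega
      · exact hr x hx
    | false =>
      rw [h1] at h
      cases h2 : Nat.blt b a with
      | true =>
        rw [h2] at h
        have hba : b < a := by simpa using h2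
        have hr := ih (a :: A) B hA hB2 h
        intro x hx hxB
        rcases List.mem_cons.1 hxB with rfl | hxB
        · rcases List.mem_cons.1 hx with rfl | hx
          · omega
          · have := hA1 _ hx; omega
        · exact hr x hx hxB
      | false =>
        rw [h2] at h
        simp at h

theorem mem_singles {row : List (ℕ × Array (ℕ × ℤ))} {e : ℕ × Array (ℕ × ℤ)} {a : ℕ} {A : ℤ}
    (he : e ∈ row) (h : e.2.toList = [(a, A)]) : a ∈ singles row := by
  induction row with
  | nil => simp at he
  | cons f l ih =>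
    rcases List.mem_cons.1 he with rfl | he
    · simp [singles, h]
    · rw [singles]
      split
      · exact List.mem_cons_of_mem _ (ih he)
      · exact ih he

theorem dot_drop (k : ℕ) : ∀ (c : List ℤ) (rows : List (List ℤ)), c.length = rows.length →
    dot c (rows.map (List.drop k)) = ∑ i ∈ Finset.range c.length, c.getD i 0 * (rows.getD i []).getD k 0 := by
  intro c
  induction c with
  | nil => intro rows _; cases rows <;> simp [dot]
  | cons x c ih =>
    intro rows hl
    rcases rows with _ | ⟨r, rows⟩
    · simp at hl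
    rw [List.map_cons, dot, ih rows (by simpa using hl), List.length_cons, Finset.sum_range_succ']
    simp [List.headD_eq_head?_getD, List.getD_eq_getElem?_getD, add_comm]

theorem pairAll_sound (n : ℕ) : ∀ (cs : List (Array ℤ)) (rows : List (List ℤ)), rows.length = n →
    pairAll n cs rows = true → ∀ k < cs.length,
      ∑ i ∈ Finset.range n, (cs.getD k #[]).toList.getD i 0 * (rows.getD i []).getD k 0 = 2 := by
  intro cs
  induction cs with
  | nil => intro rows _ _ k hk; simp at hk
  | cons c cs ih =>
    intro rows hl h k hk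
    simp only [pairAll, Bool.and_eq_true, decide_eq_true_eq, Nat.beq_eq] at h
    obtain ⟨⟨h1, h2⟩, h3⟩ := h
    rcases k with _ | k
    · have := dot_drop 0 c.toList rows (by omega)
      rw [show List.drop (α := ℤ) 0 = id from funext fun l => rfl, List.map_id, h2, h1] at this
      simpa using this.symm
    · have := ih (rows.map List.tail) (by simp [hl]) h3 k (by simpa using hk)
      rw [← this]
      refine Finset.sum_congr rfl fun i hi => ?_
      simp only [List.getD_cons_succ]
      congr 1
      simp only [List.getD_eq_getElem?_getD, List.getElem?_map]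
      rcases rows[i]? with _ | l <;> simp [List.getElem?_tail]

theorem array_getD {α : Type} (A : Array α) (i : ℕ) (d : α) : A.getD i d = A.toList.getD i d := by
  simp [Array.getD_eq_getD_getElem?, List.getD_eq_getElem?_getD]

theorem size_pos (h : datumOK D p = true) : 0 < D.nroots := by
  simp only [datumOK, Bool.and_eq_true, Nat.blt_eq] at h
  exact h.1.1.1.1.1

theorem pairing_ok (h : datumOK D p = true) {r : ℕ} (hr : r < D.nroots) :
    ((List.range D.rank).map fun i => (D.coroot.getD r #[]).getD i 0 * D.cartan i r).sum = 2 := by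
  simp only [datumOK, Bool.and_eq_true, Nat.beq_eq] at h
  obtain ⟨⟨⟨⟨-, hc⟩, hs⟩, hp⟩, -⟩ := h
  have := pairAll_sound _ _ _ (by simp only [List.length_map]; exact hs) hp r (by omega)
  rw [← this]
  change ∑ i ∈ Finset.range D.rank, _ = _
  refine Finset.sum_congr rfl fun i hi => ?_
  simp only [ChevalleyDatum.cartan, array_getD]
  congr 1
  simp only [List.getD_eq_getElem?_getD, List.getElem?_map]
  rcases D.cartanSR.toList[i]? with _ | l <;> simp

theorem nroots_eq (h : datumOK D p = true) : D.nroots = 2 * p := by
  simp only [datumOK, Bool.and_eq_true] at h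
  simpa using h.1.1.1.1.2

theorem row_ok (h : datumOK D p = true) {r : ℕ} (hr : r < D.nroots) : rowOK D p r = true := by
  simp only [datumOK, Bool.and_eq_true, List.all_eq_true] at h
  exact h.2 r (List.mem_range.2 hr)

/-- What the check says about a root. -/
structure RootFacts (D : ChevalleyDatum) (p r : ℕ) : Prop where
  neg_lt : D.neg r < D.nroots
  neg_ne : D.neg r ≠ r
  pairing : ((List.range D.rank).map fun i => (D.coroot.getD r #[]).getD i 0 * D.cartan i r).sum = 2
  keys : incr ((D.chain.getD r #[]).toList.map Prod.fst) = true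
  sign : if r < p then D.IsNegRoot r else D.IsPosRoot r
  neg_side : if r < p then p ≤ D.neg r else D.neg r < p
  str : ∀ s, strOK (D.chain.getD r #[]).toList (D.chainEntry r s) = true
  single : ∀ s a A, D.chainEntry r s = [(a, A)] → D.chainEntry r a = []
  range : ∀ s, ∀ q ∈ D.chainEntry r s, q.1 < D.nroots ∧ q.1 ≠ r ∧ q.1 ≠ D.neg r ∧
    if r < p then q.1 < s else s < q.1

theorem facts (h : datumOK D p = true) {r : ℕ} (hr : r < D.nroots) : RootFacts D p r := by
  have h1 := row_ok h hr
  have hp := pairing_ok h hr
  simp only [rowOK, Bool.and_eq_true, List.all_eq_true, Bool.not_eq_true', Nat.blt_eq,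
    decide_eq_true_eq] at h1
  obtain ⟨⟨⟨⟨⟨⟨⟨⟨hn, -⟩, hne⟩, hk⟩, hk'⟩, hdisj⟩, hside⟩, hsign⟩, hrow⟩ := h1
  have hfind : ∀ s e, (D.chain.getD r #[]).toList.find? (fun e => e.1 = s) = some e →
      e ∈ (D.chain.getD r #[]).toList ∧ e.1 = s := by
    intro s e he
    exact ⟨List.mem_of_find?_eq_some he, by simpa using List.find?_some he⟩
  refine ⟨hn, Nat.ne_of_beq_eq_false hne, hp, hk, hsign, ?_, ?_, ?_, ?_⟩
  · by_cases hrp : r < p
    · have : Nat.blt r p = true := by simpa using hrp
      rw [this] at hside
      simp only [hrp, if_true]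
      simpa [Cfsg.Lie.ChevalleyDatum.neg, ← Bool.not_eq_true] using hside
    · have : Nat.blt r p = false := by simpa [← Bool.not_eq_true] using hrp
      rw [this] at hside
      simp only [hrp, if_false]
      simpa [Cfsg.Lie.ChevalleyDatum.neg] using hside
  · intro s
    unfold ChevalleyDatum.chainEntry
    split
    · simp [strOK]
    · next e he => exact (hrow e (hfind s e he).1).1
  · intro s a A hsA
    unfold ChevalleyDatum.chainEntry at hsA ⊢
    split at hsA
    · simp at hsA
    next e he =>
      have hnone : (D.chain.getD r #[]).toList.find? (fun e => e.1 = a) = none := by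
        rw [List.find?_eq_none]
        intro f hf hfa
        simp only [decide_eq_true_eq] at hfa
        exact disj_sound _ _ _ hk' hk hdisj a (mem_singles (hfind s e he).1 hsA)
          (hfa ▸ List.mem_map_of_mem hf)
      rw [hnone]
  · intro s q hq
    unfold ChevalleyDatum.chainEntry at hq
    split at hq
    · simp at hq
    · next e he =>
      obtain ⟨hm, hes⟩ := hfind s e he
      obtain ⟨⟨⟨h1, h2⟩, h3⟩, h4⟩ := (hrow e hm).2 q hq
      refine ⟨h1, Nat.ne_of_beq_eq_false h2, Nat.ne_of_beq_eq_false h3, ?_⟩
      subst hes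
      by_cases hrp : r < p
      · have : Nat.blt r p = true := by simpa using hrp
        rw [this] at h4
        simpa [hrp] using h4
      · have : Nat.blt r p = false := by simpa [← Bool.not_eq_true] using hrp
        rw [this] at h4
        simpa [hrp] using h4

variable (F : Type*) [Field F]

/-- The sum along a chain starting with the power `k + 1`. -/
def cs (t : F) : ℕ → List (ℕ × ℤ) → ℕ → F
  | _, [], _ => 0
  | k, (v, M) :: L, u => (if v = u then (M : F) * t ^ (k + 1) else 0) + cs t (k + 1) L u

theorem cs_eq_sum (t : F) (L : List (ℕ × ℤ)) : ∀ (k u : ℕ),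
    (((L.zipIdx k).filter (fun q => q.1.1 = u)).map fun q => ((q.1.2 : ℤ) : F) * t ^ (q.2 + 1)).sum = cs F t k L u := by
  induction L with
  | nil => intro k u; simp [cs]
  | cons e L ih =>
    intro k u
    obtain ⟨v, M⟩ := e
    by_cases hv : v = u <;> simp [List.zipIdx_cons, List.filter_cons, cs, hv, ih]

theorem filter_eq_find {β : Type} (l : List (ℕ × β)) (s : ℕ) (h : incr (l.map Prod.fst) = true) :
    l.filter (fun e => e.1 = s) = (l.find? (fun e => e.1 = s)).toList := by
  induction l with
  | nil => simp
  | cons e l ih =>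
    rw [List.map_cons] at h
    obtain ⟨h1, h2⟩ := incr_cons h
    by_cases he : e.1 = s
    · have : l.filter (fun e => e.1 = s) = [] := by
        rw [List.filter_eq_nil_iff]
        intro b hb hbs
        have := h1 b.1 (List.mem_map_of_mem hb)
        simp only [decide_eq_true_eq] at hbs
        omega
      simp [List.filter_cons, List.find?_cons, he, this]
    · simp [List.filter_cons, List.find?_cons, he, ih h2]

theorem chain_sum (h : datumOK D p = true) {r : ℕ} (hr : r < D.nroots) (s u : ℕ) (t : F) :
    ((D.chainCoeff r s u).map fun km => ((km.2 : ℤ) : F) * t ^ km.1).sum = cs F t 0 (D.chainEntry r s) u := by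
  unfold ChevalleyDatum.chainCoeff ChevalleyDatum.chainEntry
  rw [filter_eq_find _ _ (facts h hr).keys]
  cases hf : (D.chain.getD r #[]).toList.find? (fun e => e.1 = s) with
  | none => simp [cs]
  | some e =>
    rw [← cs_eq_sum]
    simp only [Option.toList_some, List.flatMap_cons, List.flatMap_nil, List.append_nil, List.map_map]
    rfl

variable {F}

/-- A coordinate vector. -/
def ee (i : D.Idx) : D.Idx → F := Pi.single i 1

/-- The `u`-th root vector, zero if out of range. -/
def rv (D : ChevalleyDatum) (F : Type*) [Field F] (u : ℕ) : D.Idx → F :=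
  if h : u < D.nroots then ee (Sum.inr ⟨u, h⟩) else 0

theorem rv_apply (u : ℕ) (i : Fin D.nroots) :
    rv D F u (Sum.inr i) = if (i : ℕ) = u then 1 else 0 := by
  unfold rv
  split
  · simp [ee, Pi.single_apply, Fin.ext_iff]
  · next hu =>
    rw [if_neg (by omega)]
    rfl

theorem rv_inl (u : ℕ) (i : Fin D.rank) : rv D F u (Sum.inl i) = 0 := by
  unfold rv
  split <;> simp [ee]

/-- The vector of a chain. -/
def cv (D : ChevalleyDatum) (F : Type*) [Field F] (t : F) : ℕ → List (ℕ × ℤ) → D.Idx → F
  | _, [] => 0
  | k, (v, M) :: L => ((M : F) * t ^ (k + 1)) • rv D F v + cv D F t (k + 1) L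

theorem cv_apply (t : F) : ∀ (L : List (ℕ × ℤ)) (k : ℕ),
    (∀ i : Fin D.rank, cv D F t k L (Sum.inl i) = 0) ∧
      (∀ u : Fin D.nroots, cv D F t k L (Sum.inr u) = cs F t k L u) := by
  intro L
  induction L with
  | nil => intro k; simp [cv, cs]
  | cons e L ih =>
    intro k
    obtain ⟨v, M⟩ := e
    refine ⟨fun i => by simp [cv, rv_inl, (ih _).1], fun u => ?_⟩
    simp [cv, cs, rv_apply, (ih _).2, eq_comm (a := v)]

/-- The coroot as a vector. -/
def hv (D : ChevalleyDatum) (F : Type*) [Field F] (r : ℕ) : D.Idx → F :=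
  Sum.elim (fun i => (((D.coroot.getD r #[]).getD i.val 0 : ℤ) : F)) (fun _ => 0)

variable (h : datumOK D p = true) {r : ℕ}

theorem x_eq (hr : r < D.nroots) (t : F) : D.x F r t = D.xMat F ⟨r, hr⟩ t := by
  rw [ChevalleyDatum.x, dif_pos hr]

theorem x_h (hr : r < D.nroots) (t : F) (i : Fin D.rank) :
    D.x F r t *ᵥ ee (Sum.inl i) = ee (Sum.inl i) - ((D.cartan i r : F) * t) • rv D F r := by
  rw [x_eq hr, ee, mulVec_single_one]
  funext j
  rcases j with j | j
  · simp [ChevalleyDatum.xMat, rv_inl, Pi.single_apply]
  · simp [ChevalleyDatum.xMat, rv_apply, Fin.ext_iff, ChevalleyDatum.cartan]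
    split <;> simp

include h

theorem x_self (hr : r < D.nroots) (t : F) : D.x F r t *ᵥ rv D F r = rv D F r := by
  rw [rv, dif_pos hr, x_eq hr, ee, mulVec_single_one]
  funext j
  rcases j with j | j <;> simp [ChevalleyDatum.xMat, Pi.single_apply]

theorem x_neg (hr : r < D.nroots) (t : F) :
    D.x F r t *ᵥ rv D F (D.neg r) = rv D F (D.neg r) + t • hv D F r - t ^ 2 • rv D F r := by
  obtain ⟨hn, hne, -⟩ := facts h hr
  rw [rv, dif_pos hn, x_eq hr, ee, mulVec_single_one]
  funext j
  have h1 : (⟨D.neg r, hn⟩ : Fin D.nroots) ≠ ⟨r, hr⟩ := by simpa [Fin.ext_iff] using hne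
  rcases j with j | j
  · simp [ChevalleyDatum.xMat, h1, hv, rv_inl, ChevalleyDatum.neg]
    simp [Fin.ext_iff, show D.negIdx.getD r 0 ≠ r from hne]
    ring
  · simp [ChevalleyDatum.xMat, h1, hv, rv_apply, ChevalleyDatum.neg, Fin.ext_iff, Pi.single_apply]
    rw [if_neg (show D.negIdx.getD r 0 ≠ r from hne)]
    by_cases hj1 : (j : ℕ) = D.negIdx.getD r 0
    · rw [if_pos hj1, if_pos hj1, if_neg (by rw [hj1]; exact hne)]; simp
    · rw [if_neg hj1, if_neg hj1]; split <;> simp

theorem x_other (hr : r < D.nroots) (t : F) {s : ℕ} (hs : s < D.nroots) (h1 : s ≠ r) (h2 : s ≠ D.neg r) :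
    D.x F r t *ᵥ rv D F s = rv D F s + cv D F t 0 (D.chainEntry r s) := by
  rw [rv, dif_pos hs, x_eq hr, ee, mulVec_single_one]
  funext j
  have e1 : (⟨s, hs⟩ : Fin D.nroots) ≠ ⟨r, hr⟩ := by simpa [Fin.ext_iff] using h1
  rcases j with j | j
  · simp [ChevalleyDatum.xMat, Fin.ext_iff, h1, (cv_apply t _ _).1]
    exact fun e => absurd e h2
  · simp [ChevalleyDatum.xMat, Fin.ext_iff, h1, (cv_apply t _ _).2, ← chain_sum F h hr, Pi.single_apply]
    exact fun e => absurd e h2

theorem x_hv (hr : r < D.nroots) (t : F) :
    D.x F r t *ᵥ hv D F r = hv D F r - (2 * t) • rv D F r := by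
  have e : hv D F r = ∑ i : Fin D.rank, (((D.coroot.getD r #[]).getD i.val 0 : ℤ) : F) • ee (Sum.inl i) := by
    funext j
    rcases j with j | j <;> simp [hv, ee, Finset.sum_apply, Pi.single_apply]
  conv_lhs => rw [e, mulVec_sum]
  simp only [mulVec_smul, x_h hr, smul_sub, Finset.sum_sub_distrib, smul_smul, ← e, ← Finset.sum_smul]
  congr 2
  have h2 := congrArg (fun z : ℤ => (z : F)) (facts h hr).pairing
  simp only [Int.cast_ofNat] at h2
  rw [← h2]
  have : ∀ f : ℕ → ℤ, ((((List.range D.rank).map f).sum : ℤ) : F) = ∑ i : Fin D.rank, (f i : F) := by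
    intro f
    rw [show ((List.range D.rank).map f).sum = ∑ i ∈ Finset.range D.rank, f i from rfl, Int.cast_sum,
      Fin.sum_univ_eq_sum_range (fun i => (f i : F))]
  rw [this, Finset.sum_mul]
  push_cast
  exact Finset.sum_congr rfl fun i _ => by ring

end Cfsg.Agent.Chev
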