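import Cfsg.Agent.Chev.ShortGenCheck
import Cfsg.Agent.Chev.Cells
import Cfsg.Agent.Chev.Pair

set_option autoImplicit false
attribute [-simp] Array.getD_eq_getD_getElem?

namespace Cfsg.Agent.Chev.ShortGen

open Cfsg.Lie Matrix Cfsg.Agent.Chev.Comm Cfsg.Agent.Chev.Tits

variable {D : ChevalleyDatum} {c : Cert} {F : Type*} [Field F] (G : TGood D c)
include G

theorem gen_le (W : List (List (List (List ℕ) × ℕ))) (ok : List ℕ) (h : witOK D c W ok = true)
    (hok : ∀ n ∈ ok, (n : F) ≠ 0) {i : ℕ} (hi : i < D.rank) (hshort : D.isLong (D.simple i) = false) :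
    D.group F ≤ D.monomialSubgroup F ⊔ D.rootSubgroup F (D.simple i) := by
  set K := D.monomialSubgroup F ⊔ D.rootSubgroup F (D.simple i)
  have hN : D.monomialSubgroup F ≤ K := le_sup_left
  have hp := (G.good.simple hi).lt
  have orbit : ∀ L : List ℕ, (∀ k ∈ L, k < D.rank) → ∀ hr : wim c L (D.simple i) < D.nroots, ∀ t : F,
      xG G.good (wim c L (D.simple i)) hr t ∈ K := by
    intro L hL hr t
    obtain ⟨ε, hε, h1, -⟩ := wact (F := F) G L hL _ hp
    have hn : wp G.good F L ∈ K := hN (wp_mem_N G L hL)
    have hx : xG G.good (D.simple i) hp (ε * t) ∈ K := Subgroup.mem_sup_right (Subgroup.subset_closure ⟨_, rfl⟩)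
    have := mul_mem (mul_mem hn hx) (inv_mem hn)
    rwa [h1, ← mul_assoc, hε, one_mul] at this
  simp only [witOK, List.all_eq_true, List.mem_range, Bool.or_eq_true] at h
  have hall := (h i hi).resolve_right (by rw [hshort]; exact Bool.false_ne_true)
  have simp_mem : ∀ j (hj : j < D.rank) (t : F), xG G.good (D.simple j) (G.good.simple hj).lt t ∈ K := by
    intro j hj t
    have hn := hall j hj
    unfold nodeOK at hn
    split at hn
    · next L hL =>
      simp only [Bool.and_eq_true, List.all_eq_true, Nat.blt_eq] at hn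
      have hlt : ∀ k ∈ L, k < D.rank := hn.1
      have := orbit L hlt (wim_lt G L hlt _ hp) t
      rwa [xG_congr G.good (Nat.eq_of_beq_eq_true hn.2 : wim c L (D.simple i) = D.simple j) _ (G.good.simple hj).lt] at this
    · next L L' hL =>
      simp only [Bool.and_eq_true, List.all_eq_true, Nat.blt_eq, Bool.not_eq_true'] at hn
      obtain ⟨⟨⟨⟨hl, hl'⟩, n1⟩, n2⟩, hm⟩ := hn
      have hrL := wim_lt G L hl _ hp
      have hsL := wim_lt G L' hl' _ hp
      split at hm
      · next q C heq =>
        simp only [Bool.and_eq_true, List.contains_eq_mem, decide_eq_true_eq] at hm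
        obtain rfl := Nat.eq_of_beq_eq_true hm.1
        have hC : (C : F) ≠ 0 := by
          rcases Int.natAbs_eq C with e | e <;> rw [e] <;> simpa using hok _ hm.2
        have e : xG G.good (wim c L' (D.simple i)) hsL ((C : F)⁻¹ * t) * xG G.good (wim c L (D.simple i)) hrL (-1) =
            xG G.good (wim c L (D.simple i)) hrL (-1) * xG G.good (wim c L' (D.simple i)) hsL ((C : F)⁻¹ * t) *
              xG G.good (D.simple j) (G.good.simple hj).lt t := by
          apply Units.ext
          simp only [Units.val_mul]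
          have := comm G.cg hrL hsL (Nat.ne_of_beq_eq_false n1) (Nat.ne_of_beq_eq_false n2) (-1 : F) ((C : F)⁻¹ * t)
          simp only [ChevalleyDatum.commWord, show D.commTerms (wim c L (D.simple i)) (wim c L' (D.simple i)) =
              [(D.simple j, C, 1, 1)] from heq, List.map_cons, List.map_nil, pow_one, neg_neg, mul_one,
            ChevalleyDatum.wordMat, List.prod_cons, List.prod_nil, ← mul_assoc, mul_inv_cancel₀ hC, one_mul] at this
          exact this
        have hr := orbit L hl hrL (-1 : F)
        have hs := orbit L' hl' hsL ((C : F)⁻¹ * t)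
        have := mul_mem (inv_mem (mul_mem hr hs)) (mul_mem hs hr)
        rwa [e, inv_mul_cancel_left] at this
      · exact absurd hm Bool.false_ne_true
    · exact absurd hn Bool.false_ne_true
  have hW : W0 G.good F ≤ K := le_trans (by rw [N_eq G.good]; exact le_sup_right) hN
  rw [ChevalleyDatum.group, Subgroup.closure_le]
  rintro x ⟨⟨r, hr⟩, t, hx⟩
  have e : x = xG G.good r hr t := Units.ext (hx.trans (x_eq hr t).symm)
  subst e
  obtain ⟨w, hw, j, hj, ε, hε, w1, -⟩ := reach (F := F) G.good hr
  have h := mul_mem (mul_mem (hW hw) (simp_mem j hj (ε * t))) (inv_mem (hW hw))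
  rwa [w1, ← mul_assoc, hε, one_mul] at h

end Cfsg.Agent.Chev.ShortGen
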