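import Cfsg.Agent.Chev.RepCheck
import Cfsg.Prelude.Def_ChevAutomorphisms

set_option autoImplicit false

namespace Cfsg.Agent.Chev.ShortGen

open Cfsg.Lie Cfsg.Agent.Chev.Tits

/-- The witness for one node. -/
def nodeOK (D : ChevalleyDatum) (c : Cert) (i j : ℕ) (W : List (List ℕ) × ℕ) (ok : List ℕ) : Bool :=
  match W.1 with
  | [L] => L.all (fun k => Nat.blt k D.rank) && Nat.beq (wimB c L (D.simple i)) (D.simple j)
  | [L, L'] =>
    let r := wimB c L (D.simple i)
    let s := wimB c L' (D.simple i)
    L.all (fun k => Nat.blt k D.rank) && L'.all (fun k => Nat.blt k D.rank) && !(Nat.beq s r) && !(Nat.beq s (D.neg r)) &&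
      match D.commTerms r s with
      | [(q, C, 1, 1)] => Nat.beq q (D.simple j) && ok.contains C.natAbs
      | _ => false
  | _ => false

/-- The witnesses show that every short fundamental root subgroup with `N` generates the group. -/
def witOK (D : ChevalleyDatum) (c : Cert) (W : List (List (List (List ℕ) × ℕ))) (ok : List ℕ) : Bool :=
  (List.range D.rank).all fun i =>
    ((List.range D.rank).all fun j => nodeOK D c i j ((W.getD i []).getD j ([], 0)) ok) || D.isLong (D.simple i)

end Cfsg.Agent.Chev.ShortGen
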