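import Cfsg.Agent.Chev.Mono

set_option autoImplicit false
attribute [-simp] Array.getD_eq_getD_getElem?

namespace Cfsg.Agent.Chev

open Cfsg.Lie Matrix

variable {D : ChevalleyDatum} {c : Cert} {F : Type*} [Field F] (g : Good D c)

theorem Good.side (g : Good D c) {r : ℕ} (hr : r < D.nroots) :
    if r < c.half then c.half ≤ D.neg r else D.neg r < c.half := (facts g.datum hr).neg_side

theorem pos_iff (g : Good D c) {r : ℕ} : D.IsPosRoot r ↔ r < D.nroots ∧ c.half ≤ r := by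
  refine ⟨fun h => ⟨h.1, isPos_iff g.datum h⟩, fun h => ?_⟩
  have := (facts g.datum h.1).sign
  rwa [if_neg (by omega)] at this

theorem neg_iff (g : Good D c) {r : ℕ} : D.IsNegRoot r ↔ r < D.nroots ∧ r < c.half := by
  refine ⟨fun h => ⟨h.1, ?_⟩, fun h => ?_⟩
  · by_contra hlt
    have hp := pairing_ok g.datum h.1
    have hpos := (pos_iff g).2 ⟨h.1, not_lt.1 hlt⟩
    have : ∀ i, (D.coroot.getD r #[]).getD i 0 = 0 := by
      intro i
      rw [array_getD]
      by_cases hi : i < (D.coroot.getD r #[]).toList.length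
      · rw [List.getD_eq_getElem _ _ hi]
        exact le_antisymm (h.2 _ (List.getElem_mem hi)) (hpos.2 _ (List.getElem_mem hi))
      · rw [List.getD_eq_default _ _ (by omega)]
    simp [this] at hp
  · have := (facts g.datum h.1).sign
    rwa [if_pos h.2] at this

include g

theorem xG_congr {r r' : ℕ} (e : r = r') (hr : r < D.nroots) (hr' : r' < D.nroots) (t : F) :
    xG g r hr t = xG g r' hr' t := by subst e; rfl

theorem n1_conj {i s : ℕ} (hi : i < D.rank) (hs : s < D.nroots) (t : F) :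
    nG g (D.simple i) (g.simple hi).lt (1 : F) * xG g s hs t * (nG g (D.simple i) (g.simple hi).lt (1 : F))⁻¹ =
      xG g (c.im i s) (g.refl hi hs).lt ((c.sgn i s : F) * t) := by
  rw [mul_inv_eq_iff_eq_mul]
  apply Units.ext
  rw [Units.val_mul, Units.val_mul, nG_val]
  exact n_conj g hi hs t

omit g in
/-- The group generated by the fundamental `n_p(1)`. -/
noncomputable def W0 (g : Good D c) (F : Type*) [Field F] : Subgroup (GL D.Idx F) :=
  Subgroup.closure {x | ∃ i, ∃ hi : i < D.rank, x = nG g (D.simple i) (g.simple hi).lt (1 : F)}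

/-- Every root is an image of a fundamental one. -/
theorem reach_pos (r : ℕ) : ∀ hr : r < D.nroots, c.half ≤ r →
    ∃ w ∈ W0 g F, ∃ i, ∃ hi : i < D.rank, ∃ ε : F, ε * ε = 1 ∧
      (∀ t, w * xG g (D.simple i) (g.simple hi).lt t * w⁻¹ = xG g r hr (ε * t)) ∧
      ∀ t, w * xG g (D.neg (D.simple i)) (g.neg_lt (g.simple hi).lt) t * w⁻¹ = xG g (D.neg r) (g.neg_lt hr) (ε * t) := by
  induction r using Nat.strong_induction_on with
  | _ r ih =>
    intro hr hrp
    have h := List.all_eq_true.1 g.reach r (List.mem_range.2 hr)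
    simp only [Bool.or_eq_true, List.any_eq_true, List.mem_range, Bool.and_eq_true, Nat.blt_eq, Nat.ble_eq] at h
    rcases h with (h | ⟨i, hi, e⟩) | ⟨i, hi, h1, h2⟩
    · omega
    · obtain rfl := Nat.eq_of_beq_eq_true e
      exact ⟨1, one_mem _, i, hi, 1, one_mul _, fun t => by simp, fun t => by simp⟩
    · have hr' := (g.refl hi hr).lt
      obtain ⟨w, hw, j, hj, ε, hε, w1, w2⟩ := ih _ h2 hr' h1
      have hR := g.refl hi hr'
      have himm : c.im i (c.im i r) = r := (g.refl hi hr).invol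
      have himn : c.im i (D.neg (c.im i r)) = D.neg r := by rw [hR.im_neg, himm]
      refine ⟨nG g (D.simple i) (g.simple hi).lt 1 * w, mul_mem (Subgroup.subset_closure ⟨i, hi, rfl⟩) hw, j, hj,
        (c.sgn i (c.im i r) : F) * ε, ?_, fun t => ?_, fun t => ?_⟩
      · linear_combination ((c.sgn i (c.im i r) : F) * (c.sgn i (c.im i r) : F)) * hε + sgn_sqF F c i (c.im i r)
      · rw [_root_.mul_inv_rev, mul_assoc, mul_assoc, ← mul_assoc w, ← mul_assoc (w * _), w1, ← mul_assoc,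
          n1_conj g hi hr', xG_congr g himm _ hr, ← mul_assoc]
      · rw [_root_.mul_inv_rev, mul_assoc, mul_assoc, ← mul_assoc w, ← mul_assoc (w * _), w2, ← mul_assoc,
          n1_conj g hi (g.neg_lt hr'), xG_congr g himn _ (g.neg_lt hr), hR.sgn_neg, ← mul_assoc]

theorem reach {r : ℕ} (hr : r < D.nroots) :
    ∃ w ∈ W0 g F, ∃ i, ∃ hi : i < D.rank, ∃ ε : F, ε * ε = 1 ∧
      (∀ t, w * xG g (D.simple i) (g.simple hi).lt t * w⁻¹ = xG g r hr (ε * t)) ∧
      ∀ t, w * xG g (D.neg (D.simple i)) (g.neg_lt (g.simple hi).lt) t * w⁻¹ = xG g (D.neg r) (g.neg_lt hr) (ε * t) := by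
  by_cases hrp : c.half ≤ r
  · exact reach_pos g r hr hrp
  have hn := g.neg_lt hr
  have hs := g.side hr
  rw [if_pos (by omega)] at hs
  obtain ⟨w, hw, i, hi, ε, hε, w1, w2⟩ := reach_pos (F := F) g _ hn hs
  have hp := (g.simple hi).lt
  have hnp := g.neg_lt hp
  have e1 : c.im i (D.simple i) = D.neg (D.simple i) := (g.simple hi).im_self
  have e2 : c.im i (D.neg (D.simple i)) = D.simple i := by rw [← e1, (g.refl hi hp).invol]
  refine ⟨w * nG g (D.simple i) hp 1, mul_mem hw (Subgroup.subset_closure ⟨i, hi, rfl⟩), i, hi, -ε,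
    by linear_combination hε, fun t => ?_, fun t => ?_⟩
  · rw [_root_.mul_inv_rev, mul_assoc w, mul_assoc w, ← mul_assoc (nG g (D.simple i) hp 1 * _), n1_conj g hi hp,
      xG_congr g e1 _ hnp, ← mul_assoc, w2, xG_congr g (g.neg_neg hr) _ hr, (g.simple hi).sgn_self]
    congr 1
    push_cast; ring
  · rw [_root_.mul_inv_rev, mul_assoc w, mul_assoc w, ← mul_assoc (nG g (D.simple i) hp 1 * _), n1_conj g hi hnp,
      xG_congr g e2 _ hp, ← mul_assoc, w1, (g.refl hi hp).sgn_neg, (g.simple hi).sgn_self]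
    congr 1
    push_cast; ring

theorem conj_nG {w : GL D.Idx F} {r r' : ℕ} (hr : r < D.nroots) (hr' : r' < D.nroots) {ε : F} (hε : ε * ε = 1)
    (w1 : ∀ t, w * xG g r hr t * w⁻¹ = xG g r' hr' (ε * t))
    (w2 : ∀ t, w * xG g (D.neg r) (g.neg_lt hr) t * w⁻¹ = xG g (D.neg r') (g.neg_lt hr') (ε * t)) (t : F) :
    w * nG g r hr t * w⁻¹ = nG g r' hr' (ε * t) := by
  have he : ε⁻¹ = ε := inv_eq_of_mul_eq_one_right hε
  calc w * nG g r hr t * w⁻¹ = (w * xG g r hr t * w⁻¹) * (w * xG g (D.neg r) (g.neg_lt hr) (-t⁻¹) * w⁻¹) *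
      (w * xG g r hr t * w⁻¹) := by rw [nG]; group
    _ = _ := by rw [w1, w2, nG, mul_inv, he, mul_neg]

theorem nG_exists {r : ℕ} (hr : r < D.nroots) (t : F) :
    ∃ w ∈ W0 g F, ∃ i, ∃ hi : i < D.rank, ∃ ε : F, ε * ε = 1 ∧
      nG g r hr t = w * nG g (D.simple i) (g.simple hi).lt (ε * t) * w⁻¹ ∧
      nG g r hr (-1) = w * nG g (D.simple i) (g.simple hi).lt (-ε) * w⁻¹ := by
  obtain ⟨w, hw, i, hi, ε, hε, w1, w2⟩ := reach (F := F) g hr
  refine ⟨w, hw, i, hi, ε, hε, ?_, ?_⟩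
  · rw [conj_nG g _ hr hε w1 w2, ← mul_assoc, hε, one_mul]
  · rw [conj_nG g _ hr hε w1 w2, mul_neg, hε]

/-- `h_r(t)` is conjugate to a fundamental `h_p(t)` by an element of `W0`. -/
theorem hG_exists {r : ℕ} (hr : r < D.nroots) :
    ∃ w ∈ W0 g F, ∃ i, ∃ hi : i < D.rank, ∀ t : F, t ≠ 0 →
      hG g r hr t = w * hG g (D.simple i) (g.simple hi).lt t * w⁻¹ := by
  obtain ⟨w, hw, i, hi, ε, hε, w1, w2⟩ := reach (F := F) g hr
  refine ⟨w, hw, i, hi, fun t ht => ?_⟩
  have hε0 : ε ≠ 0 := fun h => by simp [h] at hε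
  have hp := (g.simple hi).lt
  have a : nG g r hr t = w * nG g (D.simple i) hp (ε * t) * w⁻¹ := by
    rw [conj_nG g _ hr hε w1 w2, ← mul_assoc, hε, one_mul]
  have b : nG g r hr (-1) = w * nG g (D.simple i) hp (-ε) * w⁻¹ := by
    rw [conj_nG g _ hr hε w1 w2, mul_neg, hε]
  have e : hG g (D.simple i) hp (ε * t) = hG g (D.simple i) hp t * hG g (D.simple i) hp ε := by
    rw [hp_mul g hi t ε ht hε0, mul_comm]
  have split : ∀ u : F, nG g (D.simple i) hp u = hG g (D.simple i) hp u * (nG g (D.simple i) hp (-1))⁻¹ := by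
    intro u; rw [hG, mul_inv_cancel_right]
  rw [hG, a, b, split (ε * t), e, ← nG_inv g hp ε, split ε]
  group

theorem hG_mul {r : ℕ} (hr : r < D.nroots) (t u : F) (ht : t ≠ 0) (hu : u ≠ 0) :
    hG g r hr t * hG g r hr u = hG g r hr (t * u) := by
  obtain ⟨w, -, i, hi, h⟩ := hG_exists (F := F) g hr
  rw [h t ht, h u hu, h _ (mul_ne_zero ht hu), ← hp_mul g hi t u ht hu]
  group

omit g in
/-- The fundamental torus. -/
noncomputable def T0 (g : Good D c) (F : Type*) [Field F] : Subgroup (GL D.Idx F) :=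
  Subgroup.closure {x | ∃ i, ∃ hi : i < D.rank, ∃ t : F, t ≠ 0 ∧ x = hG g (D.simple i) (g.simple hi).lt t}

theorem n1_hp {i j : ℕ} (hi : i < D.rank) (hj : j < D.rank) (t : F) (ht : t ≠ 0) :
    nG g (D.simple i) (g.simple hi).lt (1 : F) * hG g (D.simple j) (g.simple hj).lt t =
      hG g (D.simple j) (g.simple hj).lt t *
        hG g (D.simple i) (g.simple hi).lt (t ^ (-(D.cartan j (D.simple i)))) *
        nG g (D.simple i) (g.simple hi).lt (1 : F) := by
  apply Units.ext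
  simp only [Units.val_mul, nG_val, hp_eq g hj t ht, hp_eq g hi _ (zpow_ne_zero _ ht)]
  apply ext_cols
  · intro k hk
    simp only [← mulVec_mulVec, dg_eh _ hk, n_h g hi hk (1 : F) one_ne_zero, mulVec_sub, mulVec_smul, dg_eh _ hi]
  · intro s hs
    simp only [← mulVec_mulVec, dg_rv _ hs, mulVec_smul, n_root g hi hs (1 : F) one_ne_zero, dg_rv _ (g.refl hi hs).lt,
      smul_smul, _root_.one_zpow, mul_one]
    congr 1
    rw [(g.refl hi hs).cartan_im j hj, ← _root_.zpow_mul, ← zpow_add₀ ht, mul_comm]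
    congr 2
    ring

theorem W0_norm : W0 g F ≤ Subgroup.normalizer (T0 g F : Set (GL D.Idx F)) := by
  rw [W0, Subgroup.closure_le]
  rintro x ⟨i, hi, rfl⟩
  have hp := (g.simple hi).lt
  have key : ∀ v ∈ T0 g F, nG g (D.simple i) hp (1 : F) * v * (nG g (D.simple i) hp (1 : F))⁻¹ ∈ T0 g F := by
    intro v hv
    induction hv using Subgroup.closure_induction with
    | mem v hv =>
      obtain ⟨j, hj, t, ht, rfl⟩ := hv
      rw [n1_hp g hi hj t ht, mul_inv_cancel_right]
      exact mul_mem (Subgroup.subset_closure ⟨j, hj, t, ht, rfl⟩)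
        (Subgroup.subset_closure ⟨i, hi, _, zpow_ne_zero _ ht, rfl⟩)
    | one => simp
    | mul a b _ _ ha hb => have := mul_mem ha hb; simpa [mul_assoc] using this
    | inv a _ ha => have := inv_mem ha; simpa [mul_assoc] using this
  rw [SetLike.mem_coe, Subgroup.mem_normalizer_iff]
  intro v
  refine ⟨key v, fun hv => ?_⟩
  have e2 : nG g (D.simple i) hp (1 : F) * nG g (D.simple i) hp 1 = (hG g (D.simple i) hp (-1 : F))⁻¹ := by
    rw [hG, _root_.mul_inv_rev, nG_inv, neg_neg]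
  have h1 := key _ hv
  have h2 : (hG g (D.simple i) hp (-1 : F))⁻¹ ∈ T0 g F :=
    inv_mem (Subgroup.subset_closure ⟨i, hi, -1, by simp, rfl⟩)
  have h3 := mul_mem (mul_mem (inv_mem h2) h1) h2
  rw [← e2] at h3
  simpa [mul_assoc] using h3

theorem hG_mem {r : ℕ} (hr : r < D.nroots) (t : F) (ht : t ≠ 0) : hG g r hr t ∈ T0 g F := by
  obtain ⟨w, hw, i, hi, h⟩ := hG_exists (F := F) g hr
  rw [h t ht]
  exact (Subgroup.mem_normalizer_iff.1 (W0_norm g hw) _).1 (Subgroup.subset_closure ⟨i, hi, t, ht, rfl⟩)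

theorem H_eq : D.diagonalSubgroup F = T0 g F := by
  apply le_antisymm
  · rw [ChevalleyDatum.diagonalSubgroup, Subgroup.closure_le]
    rintro x ⟨r, t, hr, ht, hx⟩
    rw [show x = hG g r hr t from Units.ext (by rw [hx, hG_val])]
    exact hG_mem g hr t ht
  · rw [T0, Subgroup.closure_le]
    rintro x ⟨i, hi, t, ht, rfl⟩
    exact Subgroup.subset_closure ⟨_, t, (g.simple hi).lt, ht, hG_val g _ t⟩

theorem N_eq : D.monomialSubgroup F = T0 g F ⊔ W0 g F := by
  rw [ChevalleyDatum.monomialSubgroup, H_eq g]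
  refine le_antisymm (sup_le le_sup_left ?_) (sup_le le_sup_left ?_)
  · rw [Subgroup.closure_le]
    rintro x ⟨r, hr, hx⟩
    rw [show x = nG g r hr 1 from Units.ext (by rw [hx, nG_val])]
    obtain ⟨w, hw, i, hi, ε, hε, a, -⟩ := nG_exists (F := F) g hr 1
    rw [a, mul_one, show nG g (D.simple i) (g.simple hi).lt ε =
      hG g (D.simple i) (g.simple hi).lt ε * (nG g (D.simple i) (g.simple hi).lt (-1))⁻¹ by rw [hG, mul_inv_cancel_right],
      nG_inv, neg_neg]
    exact mul_mem (mul_mem (Subgroup.mem_sup_right hw) (mul_mem (Subgroup.mem_sup_left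
      (Subgroup.subset_closure ⟨i, hi, ε, fun h => by simp [h] at hε, rfl⟩))
      (Subgroup.mem_sup_right (Subgroup.subset_closure ⟨i, hi, rfl⟩)))) (inv_mem (Subgroup.mem_sup_right hw))
  · refine le_trans ?_ le_sup_right
    rw [W0, Subgroup.closure_le]
    rintro x ⟨i, hi, rfl⟩
    exact Subgroup.subset_closure ⟨_, (g.simple hi).lt, nG_val g _ 1⟩

theorem H_norm : D.monomialSubgroup F ≤ Subgroup.normalizer (D.diagonalSubgroup F : Set (GL D.Idx F)) := by
  rw [N_eq g, H_eq g]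
  exact sup_le Subgroup.le_normalizer (W0_norm g)

/-- Every element of `H` is diagonal and conjugates root elements by a character. -/
theorem H_char {h : GL D.Idx F} (hh : h ∈ D.diagonalSubgroup F) :
    ∃ χ : ℕ → F, (h : Matrix D.Idx D.Idx F) = dg D χ ∧
      ∀ s, ∀ hs : s < D.nroots, χ s ≠ 0 ∧ ∀ t, h * xG g s hs t * h⁻¹ = xG g s hs (χ s * t) := by
  rw [H_eq g] at hh
  induction hh using Subgroup.closure_induction with
  | mem x hx =>
    obtain ⟨i, hi, t, ht, rfl⟩ := hx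
    refine ⟨_, hp_eq g hi t ht, fun s hs => ⟨zpow_ne_zero _ ht, fun u => ?_⟩⟩
    rw [mul_inv_eq_iff_eq_mul]
    apply Units.ext
    rw [Units.val_mul, Units.val_mul, hp_eq g hi t ht]
    exact h_conj g hi hs t ht u
  | one => exact ⟨fun _ => 1, by rw [Units.val_one, dg]; ext i j; rcases i with i | i <;> rcases j with j | j <;> simp [Matrix.one_apply, Matrix.diagonal_apply], fun s hs => ⟨one_ne_zero, fun t => by simp⟩⟩
  | mul a b _ _ ha hb =>
    obtain ⟨χ, h1, h2⟩ := ha
    obtain ⟨ψ, h3, h4⟩ := hb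
    refine ⟨fun s => χ s * ψ s, ?_, fun s hs => ⟨mul_ne_zero (h2 s hs).1 (h4 s hs).1, fun t => ?_⟩⟩
    · rw [Units.val_mul, h1, h3, dg, dg, dg, diagonal_mul_diagonal]
      congr 1; funext x; rcases x with x | x <;> simp
    · calc a * b * xG g s hs t * (a * b)⁻¹ = a * (b * xG g s hs t * b⁻¹) * a⁻¹ := by group
        _ = _ := by rw [(h4 s hs).2, (h2 s hs).2, mul_assoc]
  | inv a _ ha =>
    obtain ⟨χ, h1, h2⟩ := ha
    refine ⟨fun s => (χ s)⁻¹, ?_, fun s hs => ⟨inv_ne_zero (h2 s hs).1, fun t => ?_⟩⟩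
    · have : (a : Matrix D.Idx D.Idx F) * dg D (fun s => (χ s)⁻¹) = 1 := by
        rw [h1, dg, dg, diagonal_mul_diagonal, ← diagonal_one]
        congr 1; funext x
        rcases x with x | x
        · simp
        · simp [mul_inv_cancel₀ (h2 x x.2).1]
      exact Units.inv_eq_of_mul_eq_one_right this
    · have := (h2 s hs).2 ((χ s)⁻¹ * t)
      rw [← mul_assoc, mul_inv_cancel₀ (h2 s hs).1, one_mul] at this
      rw [← this]; group

end Cfsg.Agent.Chev
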