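import Cfsg.Agent.Chev.Add

set_option autoImplicit false
attribute [-simp] Array.getD_eq_getD_getElem?

namespace Cfsg.Agent.Chev

open Cfsg.Lie Matrix

variable {D : ChevalleyDatum} {p r : ℕ} {F : Type*} [Field F]

/-- The level of a basis vector: negative roots, then the torus, then positive roots. -/
def lev (D : ChevalleyDatum) (p : ℕ) : D.Idx → ℕ :=
  Sum.elim (fun _ => p) (fun s => if (s : ℕ) < p then (s : ℕ) else (s : ℕ) + 1)

/-- Matrices raising the level by at least `k`. -/
def Raise (D : ChevalleyDatum) (F : Type*) [Field F] (p k : ℕ) (A : Matrix D.Idx D.Idx F) : Prop :=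
  ∀ i j, A i j ≠ 0 → lev D p j + k ≤ lev D p i

theorem Raise.mul {a b : ℕ} {A B : Matrix D.Idx D.Idx F} (hA : Raise D F p a A) (hB : Raise D F p b B) :
    Raise D F p (a + b) (A * B) := by
  intro i j h
  rw [Matrix.mul_apply] at h
  obtain ⟨l, -, hl⟩ := Finset.exists_ne_zero_of_sum_ne_zero h
  have := hA i l (left_ne_zero_of_mul hl)
  have := hB l j (right_ne_zero_of_mul hl)
  omega

theorem Raise.mono {a b : ℕ} {A : Matrix D.Idx D.Idx F} (hA : Raise D F p a A) (hab : b ≤ a) :
    Raise D F p b A := fun i j h => by have := hA i j h; omega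

theorem Raise.add {a : ℕ} {A B : Matrix D.Idx D.Idx F} (hA : Raise D F p a A) (hB : Raise D F p a B) :
    Raise D F p a (A + B) := fun i j h => by
  by_cases h1 : A i j = 0
  · exact hB i j (by simpa [h1] using h)
  · exact hA i j h1

theorem Raise.neg {a : ℕ} {A : Matrix D.Idx D.Idx F} (hA : Raise D F p a A) :
    Raise D F p a (-A) := fun i j h => hA i j (by simpa using h)

theorem raise_one : Raise D F p 0 (1 : Matrix D.Idx D.Idx F) := fun i j h => by
  by_cases e : i = j
  · subst e; omega
  · simp [Matrix.one_apply_ne e] at h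

theorem lev_le (h : D.nroots = 2 * p) (i : D.Idx) : lev D p i ≤ 2 * p := by
  rcases i with i | i
  · simp [lev]; omega
  · have := i.isLt
    simp [lev]; split <;> omega

theorem Raise.eq_zero (h : D.nroots = 2 * p) {k : ℕ} (hk : 2 * p < k) {A : Matrix D.Idx D.Idx F}
    (hA : Raise D F p k A) : A = 0 := by
  ext i j
  by_contra hne
  have := hA i j hne
  have := lev_le h i
  omega

theorem Raise.pow {a : ℕ} {A : Matrix D.Idx D.Idx F} (hA : Raise D F p a A) (n : ℕ) :
    Raise D F p (n * a) (A ^ n) := by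
  induction n with
  | zero => simpa using raise_one
  | succ n ih => rw [pow_succ, Nat.succ_mul]; exact ih.mul hA

/-- The group of matrices `1 + A` with `A` raising the level by `k + 1`. -/
def Fil (D : ChevalleyDatum) (F : Type*) [Field F] (p : ℕ) (h : D.nroots = 2 * p) (k : ℕ) :
    Subgroup (GL D.Idx F) where
  carrier := {g | Raise D F p (k + 1) ((g : Matrix D.Idx D.Idx F) - 1)}
  mul_mem' := fun {g g'} hg hg' => by
    simp only [Set.mem_setOf_eq, Units.val_mul] at *
    have e : (g : Matrix D.Idx D.Idx F) * g' - 1 = ((g : Matrix D.Idx D.Idx F) - 1) * ((g' : Matrix D.Idx D.Idx F) - 1)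
        + (((g : Matrix D.Idx D.Idx F) - 1) + ((g' : Matrix D.Idx D.Idx F) - 1)) := by noncomm_ring
    rw [e]
    exact ((hg.mul hg').mono (by omega)).add (hg.add hg')
  one_mem' := fun i j h => by simp at h
  inv_mem' := fun {g} hg => by
    simp only [Set.mem_setOf_eq] at *
    set A := (g : Matrix D.Idx D.Idx F) - 1 with hA
    have hz : (-A) ^ (2 * p + 1) = 0 :=
      Raise.eq_zero h (show 2 * p < (2 * p + 1) * (k + 1) by nlinarith) (hg.neg.pow _)
    set S := ∑ i ∈ Finset.range (2 * p + 1), (-A) ^ i with hS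
    have h1 : (g : Matrix D.Idx D.Idx F) * S = 1 := by
      have := mul_geom_sum (-A) (2 * p + 1)
      rw [hz, zero_sub] at this
      rw [show (g : Matrix D.Idx D.Idx F) = -((-A) - 1) by rw [hA]; abel, neg_mul, hS, this, neg_neg]
    have h2 : ((g⁻¹ : GL D.Idx F) : Matrix D.Idx D.Idx F) = S := by
      calc ((g⁻¹ : GL D.Idx F) : Matrix D.Idx D.Idx F)
          = ((g⁻¹ : GL D.Idx F) : Matrix D.Idx D.Idx F) * ((g : Matrix D.Idx D.Idx F) * S) := by rw [h1, mul_one]
        _ = S := by rw [← mul_assoc, ← Units.val_mul, inv_mul_cancel, Units.val_one, one_mul]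
    rw [h2, hS, Finset.sum_range_succ', pow_zero, add_sub_cancel_right]
    intro i j hij
    rw [Matrix.sum_apply] at hij
    obtain ⟨n, -, hn⟩ := Finset.exists_ne_zero_of_sum_ne_zero hij
    exact ((hg.neg.pow (n + 1)).mono (by nlinarith)) i j hn

theorem x_raise (h : datumOK D p = true) (hr : r < D.nroots) (hpos : p ≤ r) (t : F) :
    Raise D F p 1 (D.x F r t - 1) := by
  obtain ⟨hn, hne, -, -, -, hside, -, -, hrange⟩ := facts h hr
  rw [if_neg (by omega)] at hside
  intro i j hij
  have hcol : (D.x F r t - 1) i j = (D.x F r t *ᵥ (ee j : D.Idx → F) - (ee j : D.Idx → F)) i := by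
    simp [ee, mulVec_single_one, Matrix.one_apply, Pi.single_apply]
  rw [hcol] at hij
  rcases j with j | ⟨s, hs⟩
  · rw [x_h hr] at hij
    rcases i with i | i
    · simp [rv_inl] at hij
    · simp [rv_apply] at hij
      simp [lev, hij.1]
      rw [if_neg (by omega)]
      omega
  · have e : (ee (Sum.inr ⟨s, hs⟩) : D.Idx → F) = rv D F s := by rw [rv, dif_pos hs]
    rw [e] at hij
    by_cases h1 : s = r
    · subst h1; simp [x_self h hr] at hij
    by_cases h2 : s = D.neg r
    · subst h2
      rw [x_neg h hr] at hij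
      rcases i with i | i
      · simp [lev, hside]
      · simp [rv_apply, hv] at hij
        simp [lev, hside, hij.1]
        split <;> omega
    rw [x_other h hr t hs h1 h2] at hij
    rcases i with i | u
    · simp [(cv_apply t _ _).1] at hij
    · simp only [add_sub_cancel_left, (cv_apply t _ _).2] at hij
      have key : ∀ (L : List (ℕ × ℤ)) (k : ℕ), (∀ q ∈ L, s < q.1) → cs F t k L u ≠ 0 → s < u := by
        intro L
        induction L with
        | nil => intro k _ hh; simp [cs] at hh
        | cons q L ih =>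
          intro k hq hh
          obtain ⟨v, M⟩ := q
          by_cases hv' : v = (u : ℕ)
          · exact hv' ▸ hq (v, M) (by simp)
          · exact ih (k + 1) (fun q hq' => hq q (List.mem_cons_of_mem _ hq')) (by simpa [cs, hv'] using hh)
      have hlt := key _ 0 (fun q hq => by
        have := (hrange s q hq).2.2.2
        rwa [if_neg (by omega)] at this) hij
      simp [lev]
      split <;> split <;> omega

theorem isPos_iff (h : datumOK D p = true) (hpos : D.IsPosRoot r) : p ≤ r := by
  by_contra hlt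
  push Not at hlt
  have hn := (facts h hpos.1).sign
  rw [if_pos hlt] at hn
  have hp := pairing_ok h hpos.1
  have : ∀ i, (D.coroot.getD r #[]).getD i 0 = 0 := by
    intro i
    rw [array_getD]
    by_cases hi : i < (D.coroot.getD r #[]).toList.length
    · rw [List.getD_eq_getElem _ _ hi]
      exact le_antisymm (hn.2 _ (List.getElem_mem hi)) (hpos.2 _ (List.getElem_mem hi))
    · rw [List.getD_eq_default _ _ (by omega)]
  simp [this] at hp

theorem U_le (h : datumOK D p = true) : D.posUnipotent F ≤ Fil D F p (nroots_eq h) 0 := by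
  rw [ChevalleyDatum.posUnipotent, Subgroup.closure_le]
  rintro g ⟨r, t, hr, hg⟩
  change Raise D F p 1 _
  rw [hg]
  exact x_raise h hr.1 (isPos_iff h hr) t

theorem fil_comm (hn : D.nroots = 2 * p) {k : ℕ} {g g' : GL D.Idx F} (hg : g ∈ Fil D F p hn k)
    (hg' : g' ∈ Fil D F p hn 0) : g * g' * g⁻¹ * g'⁻¹ ∈ Fil D F p hn (k + 1) := by
  change Raise D F p (k + 1 + 1) _
  have hi : Raise D F p 0 (((g⁻¹ * g'⁻¹ : GL D.Idx F)) : Matrix D.Idx D.Idx F) := by
    have h0 : g⁻¹ * g'⁻¹ ∈ Fil D F p hn 0 :=
      mul_mem (inv_mem (hg.mono (by omega) : g ∈ Fil D F p hn 0)) (inv_mem hg')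
    have := (h0.mono (Nat.zero_le _) : Raise D F p 0 _).add (raise_one (D := D) (F := F) (p := p))
    simpa using this
  have e : ((g * g' * g⁻¹ * g'⁻¹ : GL D.Idx F) : Matrix D.Idx D.Idx F) - 1
      = (((g : Matrix D.Idx D.Idx F) - 1) * ((g' : Matrix D.Idx D.Idx F) - 1)
        + -(((g' : Matrix D.Idx D.Idx F) - 1) * ((g : Matrix D.Idx D.Idx F) - 1)))
        * ((g⁻¹ * g'⁻¹ : GL D.Idx F) : Matrix D.Idx D.Idx F) := by
    have h1 : ((g : Matrix D.Idx D.Idx F) - 1) * ((g' : Matrix D.Idx D.Idx F) - 1)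
        + -(((g' : Matrix D.Idx D.Idx F) - 1) * ((g : Matrix D.Idx D.Idx F) - 1))
        = ((g * g' : GL D.Idx F) : Matrix D.Idx D.Idx F) - ((g' * g : GL D.Idx F) : Matrix D.Idx D.Idx F) := by
      rw [Units.val_mul, Units.val_mul]; noncomm_ring
    rw [h1, sub_mul, ← Units.val_mul, ← Units.val_mul, show g' * g * (g⁻¹ * g'⁻¹) = 1 by group,
      Units.val_one, mul_assoc]
  rw [e]
  have := (((hg.mul hg').mono (show k + 1 + 1 ≤ k + 1 + (0 + 1) by omega)).add
    ((hg'.mul hg).mono (show k + 1 + 1 ≤ 0 + 1 + (k + 1) by omega)).neg).mul hi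
  simpa using this

end Cfsg.Agent.Chev
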