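import Cfsg.Agent.Chev.Check2
import Cfsg.Agent.Chev.Unip

set_option autoImplicit false
attribute [-simp] Array.getD_eq_getD_getElem?

namespace Cfsg.Agent.Chev

open Cfsg.Lie Matrix

variable {D : ChevalleyDatum} {p : ℕ} {F : Type*} [Field F]

/-- The vector of a coordinate number. -/
def bv (D : ChevalleyDatum) (F : Type*) [Field F] (b : ℕ) : D.Idx → F :=
  if D.nroots ≤ b then (if h : b - D.nroots < D.rank then ee (Sum.inl ⟨b - D.nroots, h⟩) else 0)
  else rv D F b

theorem bv_lt {b : ℕ} (hb : b < D.nroots) : bv D F b = rv D F b := by rw [bv, if_neg (by omega)]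

theorem bv_h (j : Fin D.rank) : bv D F (D.nroots + j) = ee (Sum.inl j) := by
  rw [bv, if_pos (by omega), dif_pos (by omega)]
  congr 2
  ext
  simp

/-- The vector of one term. -/
def tv1 (D : ChevalleyDatum) {F : Type*} [Field F] (c : F) (x : Term) : D.Idx → F :=
  ((x.2.2 : F) * c ^ x.2.1) • bv D F x.1

/-- The vector of a list of terms. -/
def sem (D : ChevalleyDatum) {F : Type*} [Field F] (c : F) (L : List Term) : D.Idx → F :=
  (L.map (tv1 D c)).sum

theorem sem_append (c : F) (L L' : List Term) : sem D c (L ++ L') = sem D c L + sem D c L' := by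
  simp [sem]

/-- A term names a coordinate. -/
def Valid (D : ChevalleyDatum) (x : Term) : Prop := x.1 < D.nroots + D.rank

theorem cv_terms {r : ℕ} (c : F) (hc : c ≠ 0) (coef a e k : ℤ) : ∀ (L : List (ℕ × ℤ)) (j : ℕ),
    (∀ q ∈ L, q.1 < D.nroots) →
    ((coef : F) * c ^ e) • cv D F ((a : F) * c ^ k) j L = sem D c (chainTerms coef a e k j L) ∧
      ∀ y ∈ chainTerms coef a e k j L, Valid D y := by
  intro L
  induction L with
  | nil => intro j _; simp [cv, chainTerms, sem]
  | cons q L ih =>
    intro j hq
    obtain ⟨u, M⟩ := q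
    obtain ⟨h1, h2⟩ := ih (j + 1) (fun q hq' => hq q (List.mem_cons_of_mem _ hq'))
    have hu : u < D.nroots := hq (u, M) (by simp)
    constructor
    · rw [cv, smul_add, h1, chainTerms]
      simp only [sem, List.map_cons, List.sum_cons]
      congr 1
      rw [tv1, smul_smul, bv_lt hu]
      congr 1
      have e1 : c ^ (e + ((j : ℤ) + 1) * k) = c ^ e * (c ^ k) ^ (j + 1) := by
        rw [zpow_add₀ hc, ← zpow_natCast (c ^ k), ← _root_.zpow_mul, mul_comm k]
        push_cast
        ring_nf
      simp only [e1]
      push_cast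
      ring
    · intro y hy
      rw [chainTerms] at hy
      rcases List.mem_cons.1 hy with rfl | hy
      · simp [Valid]; omega
      · exact h2 y hy

theorem applyT_sound (h : datumOK D p = true) {r : ℕ} (hr : r < D.nroots) (c : F) (hc : c ≠ 0) (a k : ℤ)
    (x : Term) (hx : Valid D x) :
    D.x F r ((a : F) * c ^ k) *ᵥ tv1 D c x = sem D c (applyT D r a k x) ∧
      ∀ y ∈ applyT D r a k x, Valid D y := by
  obtain ⟨b, e, coef⟩ := x
  obtain ⟨hn, hne, -, -, -, -, -, -, hrange⟩ := facts h hr
  simp only [Valid] at hx
  simp only [tv1, mulVec_smul, applyT]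
  have pw : c ^ (e + k) = c ^ e * c ^ k := zpow_add₀ hc _ _
  cases hb : Nat.ble D.nroots b with
  | true =>
    simp only [cond_true]
    have hb' : D.nroots ≤ b := by simpa using hb
    constructor
    · obtain ⟨j, rfl⟩ : ∃ j : Fin D.rank, b = D.nroots + j := ⟨⟨b - D.nroots, by omega⟩, by simp; omega⟩
      rw [bv_h, x_h hr]
      simp [sem, tv1, bv_h, bv_lt hr, pw]
      module
    · intro y hy
      simp at hy
      rcases hy with rfl | rfl <;> simp [Valid] <;> omega
  | false =>
    have hb' : b < D.nroots := by simpa [← Bool.not_eq_true] using hb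
    simp only [cond_false, bv_lt hb']
    cases h1 : Nat.beq b r with
    | true =>
      obtain rfl : b = r := Nat.eq_of_beq_eq_true h1
      simp only [cond_true]
      refine ⟨?_, by simp [Valid]; omega⟩
      rw [x_self h hr]
      simp [sem, tv1, bv_lt hr]
    | false =>
      have hbr : b ≠ r := Nat.ne_of_beq_eq_false h1
      simp only [cond_false]
      cases h2 : Nat.beq b (D.neg r) with
      | true =>
        obtain rfl : b = D.neg r := Nat.eq_of_beq_eq_true h2
        simp only [cond_true]
        have ehv : hv D F r = ∑ j : Fin D.rank, (((D.coroot.getD r #[]).getD j.val 0 : ℤ) : F) • ee (Sum.inl j) := by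
          funext i
          rcases i with i | i <;> simp [hv, ee, Finset.sum_apply, Pi.single_apply]
        have hlist : ∀ f : ℕ → (D.Idx → F), ((List.range D.rank).map f).sum = ∑ j : Fin D.rank, f j := by
          intro f
          rw [show ((List.range D.rank).map f).sum = ∑ i ∈ Finset.range D.rank, f i from rfl,
            Fin.sum_univ_eq_sum_range]
        constructor
        · rw [x_neg h hr]
          simp only [sem, List.map_cons, List.sum_cons, List.map_map, hlist, Function.comp, tv1, bv_h,
            bv_lt hb', bv_lt hr, pw]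
          rw [ehv, show c ^ (e + 2 * k) = c ^ e * (c ^ k) ^ 2 by
            rw [zpow_add₀ hc, ← zpow_natCast (c ^ k), ← _root_.zpow_mul, mul_comm k]; rfl]
          simp only [Finset.smul_sum, smul_add, smul_sub, smul_smul]
          push_cast
          have : ∀ j : Fin D.rank, ((((D.coroot.getD r #[]).getD j.val 0 : ℤ) : F) * a * coef * (c ^ e * c ^ k)) =
              (coef * c ^ e * ((a : F) * c ^ k * ((D.coroot.getD r #[]).getD j.val 0 : ℤ))) := fun j => by ring
          simp only [this]
          module
        · intro y hy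
          simp at hy
          rcases hy with rfl | rfl | ⟨j, hj, rfl⟩ <;> simp [Valid] <;> omega
      | false =>
        have hbn : b ≠ D.neg r := Nat.ne_of_beq_eq_false h2
        simp only [cond_false]
        obtain ⟨h3, h4⟩ := cv_terms (D := D) (r := r) c hc coef a e k (D.chainEntry r b) 0
          (fun q hq => (hrange b q hq).1)
        constructor
        · rw [x_other h hr _ hb' hbr hbn, smul_add, h3]
          simp [sem, tv1, bv_lt hb']
        · intro y hy
          rcases List.mem_cons.1 hy with rfl | hy
          · simp [Valid]; omega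
          · exact h4 y hy

theorem step_sound (h : datumOK D p = true) {r : ℕ} (hr : r < D.nroots) (c : F) (hc : c ≠ 0) (a k : ℤ) :
    ∀ L : List Term, (∀ x ∈ L, Valid D x) →
      D.x F r ((a : F) * c ^ k) *ᵥ sem D c L = sem D c (L.flatMap (applyT D r a k)) ∧
        ∀ y ∈ L.flatMap (applyT D r a k), Valid D y := by
  intro L
  induction L with
  | nil => intro _; simp [sem]
  | cons x L ih =>
    intro hL
    obtain ⟨h1, h2⟩ := applyT_sound h hr c hc a k x (hL x (by simp))
    obtain ⟨h3, h4⟩ := ih (fun y hy => hL y (List.mem_cons_of_mem _ hy))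
    constructor
    · rw [List.flatMap_cons, sem_append, ← h1, ← h3, ← mulVec_add]
      simp [sem]
    · intro y hy
      rw [List.flatMap_cons, List.mem_append] at hy
      exact hy.elim (h2 y) (h4 y)

/-- The value of a symbolic word. -/
def wordVal (F : Type*) [Field F] (c : F) (w : List (ℕ × ℤ × ℤ)) : List (ℕ × F) :=
  w.map fun x => (x.1, (x.2.1 : F) * c ^ x.2.2)

theorem runW_sound (h : datumOK D p = true) (c : F) (hc : c ≠ 0) {b : ℕ} (hb : b < D.nroots + D.rank) :
    ∀ w : List (ℕ × ℤ × ℤ), (∀ x ∈ w, x.1 < D.nroots) →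
      D.wordMat F (wordVal F c w) *ᵥ bv D F b = sem D c (runW D w b) ∧ ∀ y ∈ runW D w b, Valid D y := by
  intro w
  induction w with
  | nil =>
    intro _
    simp [ChevalleyDatum.wordMat, wordVal, runW, sem, tv1, Valid, hb]
  | cons x w ih =>
    intro hw
    obtain ⟨h1, h2⟩ := ih (fun y hy => hw y (List.mem_cons_of_mem _ hy))
    obtain ⟨h3, h4⟩ := step_sound h (hw x (by simp)) c hc x.2.1 x.2.2 _ h2
    refine ⟨?_, h4⟩
    rw [show runW D (x :: w) b = (runW D w b).flatMap (applyT D x.1 x.2.1 x.2.2) from rfl, ← h3, ← h1,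
      mulVec_mulVec]
    rfl

theorem isZero_sound (c : F) : ∀ (n : ℕ) (L : List Term), isZero n L = true → sem D c L = 0 := by
  intro n
  induction n with
  | zero => intro L hL; cases L <;> simp [isZero, sem] at hL ⊢
  | succ n ih =>
    intro L hL
    rcases L with _ | ⟨x, L⟩
    · simp [sem]
    simp only [isZero, Bool.and_eq_true, decide_eq_true_eq] at hL
    obtain ⟨h1, h2⟩ := hL
    have hsplit : ∀ M : List Term, sem D c M =
        sem D c (M.filter (sameKey x)) + sem D c (M.filter fun y => !(sameKey x y)) := by
      intro M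
      induction M with
      | nil => simp [sem]
      | cons y M ihM =>
        simp only [sem, List.map_cons, List.sum_cons] at ihM ⊢
        cases hk : sameKey x y <;> simp [List.filter_cons, hk, ihM] <;> abel
    have hsame : ∀ M : List Term, (∀ y ∈ M, sameKey x y = true) →
        sem D c M = (((M.map fun y => y.2.2).sum : ℤ) : F) • (c ^ x.2.1 • bv D F x.1) := by
      intro M
      induction M with
      | nil => simp [sem]
      | cons y M ihM =>
        intro hM
        have hy := hM y (by simp)
        simp only [sameKey, Bool.and_eq_true, decide_eq_true_eq] at hy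
        simp only [sem, List.map_cons, List.sum_cons] at ihM ⊢
        rw [ihM (fun z hz => hM z (List.mem_cons_of_mem _ hz)), tv1, ← Nat.eq_of_beq_eq_true hy.1, ← hy.2,
          Int.cast_add, add_smul, ← smul_smul]
    have : sem D c (x :: L) = tv1 D c x + sem D c L := by simp [sem]
    rw [this, hsplit L, ih _ h2, add_zero, hsame _ (fun y hy => (List.mem_filter.1 hy).2), tv1, ← smul_smul,
      ← add_smul, ← Int.cast_add, h1, Int.cast_zero, zero_smul]

theorem sameVec_sound (c : F) {L L' : List Term} (h : sameVec L L' = true) : sem D c L = sem D c L' := by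
  have h1 := isZero_sound (D := D) c _ _ h
  rw [sem_append] at h1
  have h2 : sem D c (L'.map fun x => (x.1, x.2.1, -x.2.2)) = - sem D c L' := by
    clear h1 h
    induction L' with
    | nil => simp [sem]
    | cons y M ihM =>
      simp only [sem, List.map_cons, List.sum_cons] at ihM ⊢
      rw [ihM, tv1, tv1, Int.cast_neg, neg_mul, neg_smul, neg_add]
  rw [h2, ← sub_eq_add_neg, sub_eq_zero] at h1
  exact h1

theorem dig_step {w a N k : ℕ} (ha : a < 2 ^ w) :
    dig w (a + (N <<< w)) 0 = a ∧ dig w (a + (N <<< w)) (k + 1) = dig w N k := by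
  have h0 : 0 < 2 ^ w := by positivity
  simp only [dig, Nat.shiftLeft_eq, Nat.shiftRight_eq_div_pow]
  constructor
  · simp [Nat.add_mul_mod_self_right, Nat.mod_eq_of_lt ha]
  · rw [show w * (k + 1) = w + w * k by ring, pow_add, ← Nat.div_div_eq_div_mul,
      Nat.add_mul_div_right _ _ h0, Nat.div_eq_of_lt ha, zero_add]

theorem dig_shift (w N a k : ℕ) :
    (k < a → dig w (N <<< (w * a)) k = 0) ∧ (∀ j, dig w (N <<< (w * a)) (a + j) = dig w N j) := by
  have h0 : 0 < 2 ^ w := by positivity
  simp only [dig, Nat.shiftLeft_eq, Nat.shiftRight_eq_div_pow]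
  refine ⟨fun hk => ?_, fun j => ?_⟩
  · obtain ⟨d, rfl⟩ : ∃ d, a = k + 1 + d := ⟨a - (k + 1), by omega⟩
    rw [show w * (k + 1 + d) = w + w * d + w * k by ring, pow_add, ← mul_assoc, Nat.mul_div_cancel _ (by positivity),
      pow_add, mul_left_comm]
    exact Nat.mul_mod_right _ _
  · rw [Nat.mul_add, pow_add, ← Nat.div_div_eq_div_mul, Nat.mul_div_cancel _ (by positivity)]

theorem getI_pack : ∀ (l : List ℤ), smallI l = true → ∀ k < l.length, getI (packI l) k = l.getD k 0 := by
  intro l
  induction l with
  | nil => intro _ k hk; simp at hk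
  | cons z l ih =>
    intro h k hk
    simp only [smallI, Bool.and_eq_true, decide_eq_true_eq] at h
    obtain ⟨⟨h1, h2⟩, h3⟩ := h
    have hz : (z + 128).toNat < 2 ^ 8 := by norm_num; omega
    rcases k with _ | k
    · simp only [getI, packI, (dig_step (N := packI l) (k := 0) hz).1, List.getD_cons_zero]
      omega
    · simp only [getI, packI, (dig_step (N := packI l) (k := k) hz).2, List.getD_cons_succ]
      exact ih h3 k (by simpa using hk)

theorem eqC_sound : ∀ {l l' : List (ℕ × ℤ)}, eqC l l' = true → l = l' := by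
  intro l
  induction l with
  | nil => intro l' h; cases l' <;> simp [eqC] at h ⊢
  | cons x l ih =>
    intro l' h
    rcases l' with _ | ⟨y, l'⟩
    · simp [eqC] at h
    obtain ⟨u, M⟩ := x
    obtain ⟨v, M'⟩ := y
    simp only [eqC, Bool.and_eq_true, decide_eq_true_eq] at h
    rw [ih h.2, Nat.eq_of_beq_eq_true h.1.1, h.1.2]

theorem chainP_pack : ∀ (l : List (ℕ × Array (ℕ × ℤ))) (pos : ℕ), goodR pos l = true →
    (∀ e ∈ l, pos ≤ e.1) ∧ ∀ j, chainP (packR pos l) j = look l (pos + j) := by
  intro l
  induction l with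
  | nil => intro pos _; simp [chainP, packR, dig, decC, look]
  | cons e l ih =>
    intro pos h
    simp only [goodR, Bool.and_eq_true, Nat.blt_eq, Nat.ble_eq] at h
    obtain ⟨⟨⟨h1, h2⟩, h3⟩, h4⟩ := h
    obtain ⟨hmem, hl⟩ := ih (e.1 + 1) h4
    refine ⟨fun x hx => ?_, fun j => ?_⟩
    · rcases List.mem_cons.1 hx with rfl | hx
      · exact h1
      · have := hmem x hx; omega
    · rw [chainP, packR]
      rcases Nat.lt_trichotomy j (e.1 - pos) with hj | hj | hj
      · rw [(dig_shift 40 _ _ j).1 hj]
        have : (e :: l).find? (fun x => x.1 = pos + j) = none := by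
          rw [List.find?_eq_none]
          intro x hx
          simp only [decide_eq_true_eq]
          rcases List.mem_cons.1 hx with rfl | hx
          · omega
          · have := hmem x hx; omega
        simp [decC, look, this]
      · obtain ⟨d, rfl⟩ : ∃ d, j = (e.1 - pos) + d := ⟨0, by omega⟩
        obtain rfl : d = 0 := by omega
        rw [(dig_shift 40 _ _ 0).2 0, (dig_step (k := 0) h2).1, eqC_sound h3]
        have : (e :: l).find? (fun x => x.1 = pos + (e.1 - pos + 0)) = some e :=
          List.find?_cons_of_pos (by simp; omega)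
        simp only [look, this]
      · obtain ⟨d, rfl⟩ : ∃ d, j = (e.1 - pos) + (d + 1) := ⟨j - (e.1 - pos) - 1, by omega⟩
        rw [(dig_shift 40 _ _ 0).2 (d + 1), (dig_step (k := d) h2).2]
        refine (hl d).trans ?_
        have : (e :: l).find? (fun x => x.1 = pos + (e.1 - pos + (d + 1))) = l.find? (fun x => x.1 = e.1 + 1 + d) := by
          rw [List.find?_cons_of_neg (by simp; omega)]
          congr 1; funext x; congr 2; omega
        simp only [look, this]

end Cfsg.Agent.Chev
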