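import Cfsg.Agent.Chev.CommCheck

set_option autoImplicit false

namespace Cfsg.Agent.Chev.Tits

open Cfsg.Lie Cfsg.Agent.Chev.Comm

/-- A fundamental reflection keeps the other positive roots positive. -/
def posOK (D : ChevalleyDatum) (c : Cert) : Bool :=
  (List.range D.rank).all fun i => (List.range D.nroots).all fun s =>
    Nat.blt s c.half || Nat.beq s (D.simple i) || Nat.ble c.half (c.im i s)

/-- Two fundamental roots are adjacent. -/
def adjB (D : ChevalleyDatum) (c : Cert) (i j : ℕ) : Bool :=
  !(Nat.beq i j) && !(Nat.beq (D.simple i) (D.simple j)) && !(Nat.beq (c.im i (D.simple j)) (D.simple j))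

/-- The diagram is connected. -/
def connOK (D : ChevalleyDatum) (c : Cert) : Bool :=
  (List.range D.rank).sublists.all fun L => L.isEmpty || Nat.beq L.length D.rank ||
    L.any fun i => (List.range D.rank).any fun j => !(L.contains j) && adjB D c i j

/-- A fundamental root is a commutator with a constant in `ok`. -/
def pairFor (D : ChevalleyDatum) (p : ℕ) (ok : ℤ → Bool) : Bool :=
  (List.range D.nroots).any fun r => (D.chain.getD r #[]).toList.any fun e =>
    (e.2.toList.map Prod.fst).contains p && Nat.blt e.1 D.nroots && !(Nat.beq e.1 r) && !(Nat.beq e.1 (D.neg r)) &&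
      match D.commTerms r e.1 with
      | [(q, C, 1, 1)] => Nat.beq q p && ok C
      | _ => false

/-- Every fundamental root subgroup is in the derived subgroup, over every field. -/
def perfOK (D : ChevalleyDatum) : Bool :=
  (List.range D.rank).all fun i => pairFor D (D.simple i) fun C => decide (C.natAbs = 1)

/-- Every fundamental root subgroup is in the derived subgroup, over fields with three elements. -/
def perf3OK (D : ChevalleyDatum) : Bool :=
  (List.range D.rank).all fun i => ((List.range D.rank).any fun j => decide (D.cartan j (D.simple i) % 2 = 1)) ||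
    pairFor D (D.simple i) fun C => decide (C.natAbs = 1 ∨ C.natAbs = 2)

/-- The diagonal Cartan numbers. -/
def selfOK (D : ChevalleyDatum) : Bool :=
  (List.range D.rank).all fun i => decide (D.cartan i (D.simple i) = 2)

end Cfsg.Agent.Chev.Tits
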