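import Cfsg.Agent.Chev.Comm
import Cfsg.Agent.Chev.TitsCheck

set_option autoImplicit false
attribute [-simp] Array.getD_eq_getD_getElem?

namespace Cfsg.Agent.Chev.Tits

open Cfsg.Lie Matrix Cfsg.Agent.Chev.Comm

variable {D : ChevalleyDatum} {c : Cert} {F : Type*} [Field F]

/-- All the checks used for the (B,N)-pair. -/
structure TGood (D : ChevalleyDatum) (c : Cert) : Prop where
  cg : CGood D c
  pos : posOK D c = true
  conn : connOK D c = true
  self : selfOK D = true

variable (G : TGood D c)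

theorem TGood.good (G : TGood D c) : Good D c := G.cg.base

theorem TGood.im_pos (G : TGood D c) {i s : ℕ} (hi : i < D.rank) (hs : s < D.nroots) (hp : c.half ≤ s)
    (hne : s ≠ D.simple i) : c.half ≤ c.im i s := by
  have h := G.pos
  simp only [posOK, List.all_eq_true, List.mem_range, Bool.or_eq_true, Nat.blt_eq, Nat.ble_eq] at h
  rcases h i hi s hs with (h | h) | h
  · omega
  · exact absurd (Nat.eq_of_beq_eq_true h) hne
  · exact h

/-- The element `n_i`. -/
noncomputable def nn (g : Good D c) (F : Type*) [Field F] (i : ℕ) : GL D.Idx F :=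
  if hi : i < D.rank then nG g (D.simple i) (g.simple hi).lt (1 : F) else 1

/-- The product of a word in the `n_i`. -/
noncomputable def wp (g : Good D c) (F : Type*) [Field F] (L : List ℕ) : GL D.Idx F := (L.map (nn g F)).prod

/-- The permutation of a word. -/
def wim (c : Cert) (L : List ℕ) (s : ℕ) : ℕ := L.foldr (fun i v => c.im i v) s

include G

theorem nn_eq {i : ℕ} (hi : i < D.rank) : nn G.good F i = nG G.good (D.simple i) (G.good.simple hi).lt 1 := by
  rw [nn, dif_pos hi]

theorem xG_mem_U {r : ℕ} (hr : r < D.nroots) (hp : c.half ≤ r) (t : F) : xG G.good r hr t ∈ D.posUnipotent F :=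
  Subgroup.subset_closure ⟨r, t, (pos_iff G.good).2 ⟨hr, hp⟩, rfl⟩

theorem xG_mem_B {r : ℕ} (hr : r < D.nroots) (hp : c.half ≤ r) (t : F) : xG G.good r hr t ∈ D.borelSubgroup F :=
  Subgroup.mem_sup_left (xG_mem_U G hr hp t)

theorem xG_ne {r : ℕ} (hr : r < D.nroots) {t : F} (ht : t ≠ 0) : xG G.good r hr t ≠ 1 := by
  intro e1
  have hne := (facts G.good.datum hr).neg_ne
  have e2 := congrArg (fun M : GL D.Idx F => ((M : Matrix D.Idx D.Idx F) *ᵥ rv D F (D.neg r)) (Sum.inr ⟨r, hr⟩)) e1
  simp [xG, x_neg G.good.datum hr, rv_apply, hv, Ne.symm hne] at e2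
  exact ht e2

theorem neg_not_mem_B {r : ℕ} (hr : r < D.nroots) (hp : r < c.half) {t : F} (ht : t ≠ 0) :
    xG G.good r hr t ∉ D.borelSubgroup F := fun h =>
  xG_ne G hr ht (B_V G.good h (Subgroup.subset_closure ⟨r, t, (neg_iff G.good).2 ⟨hr, hp⟩, rfl⟩))

theorem neg_side {r : ℕ} (hr : r < D.nroots) : (r < c.half ↔ c.half ≤ D.neg r) := by
  have h := (facts G.good.datum hr).neg_side
  by_cases hh : r < c.half
  · simp only [hh, if_true] at h; simp [hh, h]
  · simp only [hh, if_false] at h; simp only [hh, false_iff]; omega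

theorem hG_mem_H {r : ℕ} (hr : r < D.nroots) {t : F} (ht : t ≠ 0) : hG G.good r hr t ∈ D.diagonalSubgroup F := by
  rw [H_eq G.good]; exact hG_mem G.good hr t ht

theorem nn_inv {i : ℕ} (hi : i < D.rank) :
    ∃ h ∈ D.diagonalSubgroup F, (nn G.good F i)⁻¹ = h * nn G.good F i := by
  refine ⟨hG G.good (D.simple i) (G.good.simple hi).lt (-1), hG_mem_H G _ (by simp), ?_⟩
  rw [nn_eq G hi, nG_inv, hG, mul_assoc, ← nG_inv G.good (G.good.simple hi).lt (1 : F), inv_mul_cancel, mul_one]

theorem nn_sq {i : ℕ} (hi : i < D.rank) : nn G.good F i * nn G.good F i ∈ D.diagonalSubgroup F := by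
  obtain ⟨h, hh, e⟩ := nn_inv (F := F) G hi
  have : nn G.good F i * nn G.good F i = h⁻¹ := by
    refine eq_inv_of_mul_eq_one_right ?_
    rw [← mul_assoc, ← e, inv_mul_cancel]
  rw [this]; exact inv_mem hh

theorem nn_mem_N {i : ℕ} (hi : i < D.rank) : nn G.good F i ∈ D.monomialSubgroup F := by
  rw [N_eq G.good]; exact Subgroup.mem_sup_right (Subgroup.subset_closure ⟨i, hi, nn_eq G hi⟩)

theorem nn_conj {i s : ℕ} (hi : i < D.rank) (hs : s < D.nroots) (t : F) :
    nn G.good F i * xG G.good s hs t * (nn G.good F i)⁻¹ =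
      xG G.good (c.im i s) (G.good.refl hi hs).lt ((c.sgn i s : F) * t) := by
  rw [nn_eq G hi]; exact n1_conj G.good hi hs t

theorem wim_lt : ∀ (L : List ℕ), (∀ i ∈ L, i < D.rank) → ∀ s < D.nroots, wim c L s < D.nroots := by
  intro L
  induction L with
  | nil => intro _ s hs; exact hs
  | cons i L ih =>
    intro hL s hs
    exact (G.good.refl (hL i (by simp)) (ih (fun j hj => hL j (List.mem_cons_of_mem _ hj)) s hs)).lt

theorem wim_neg : ∀ (L : List ℕ), (∀ i ∈ L, i < D.rank) → ∀ s < D.nroots,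
    wim c L (D.neg s) = D.neg (wim c L s) := by
  intro L
  induction L with
  | nil => intro _ s _; rfl
  | cons i L ih =>
    intro hL s hs
    have hL' : ∀ j ∈ L, j < D.rank := fun j hj => hL j (List.mem_cons_of_mem _ hj)
    show c.im i (wim c L (D.neg s)) = D.neg (c.im i (wim c L s))
    rw [ih hL' s hs, (G.good.refl (hL i (by simp)) (wim_lt G L hL' s hs)).im_neg]

theorem wact : ∀ (L : List ℕ) (hL : ∀ i ∈ L, i < D.rank) (s : ℕ) (hs : s < D.nroots),
    ∃ ε : F, ε * ε = 1 ∧
      (∀ t, wp G.good F L * xG G.good s hs t * (wp G.good F L)⁻¹ = xG G.good (wim c L s) (wim_lt G L hL s hs) (ε * t)) ∧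
      ∀ t, wp G.good F L * xG G.good (D.neg s) (G.good.neg_lt hs) t * (wp G.good F L)⁻¹ =
        xG G.good (D.neg (wim c L s)) (G.good.neg_lt (wim_lt G L hL s hs)) (ε * t) := by
  intro L
  induction L with
  | nil => intro _ s hs; exact ⟨1, one_mul _, fun t => by simp [wp, wim], fun t => by simp [wp, wim]⟩
  | cons i L ih =>
    intro hL s hs
    have hi := hL i (by simp)
    have hL' : ∀ j ∈ L, j < D.rank := fun j hj => hL j (List.mem_cons_of_mem _ hj)
    obtain ⟨ε, hε, h1, h2⟩ := ih hL' s hs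
    have hw := wim_lt G L hL' s hs
    have R := G.good.refl hi hw
    refine ⟨(c.sgn i (wim c L s) : F) * ε, ?_, fun t => ?_, fun t => ?_⟩
    · linear_combination ((c.sgn i (wim c L s) : F) * (c.sgn i (wim c L s) : F)) * hε + sgn_sqF F c i (wim c L s)
    · calc _ = nn G.good F i * (wp G.good F L * xG G.good s hs t * (wp G.good F L)⁻¹) * (nn G.good F i)⁻¹ := by
            simp only [wp, List.map_cons, List.prod_cons]; group
        _ = _ := by rw [h1, nn_conj G hi hw, mul_assoc]; rfl
    · calc _ = nn G.good F i * (wp G.good F L * xG G.good (D.neg s) (G.good.neg_lt hs) t * (wp G.good F L)⁻¹) * (nn G.good F i)⁻¹ := by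
            simp only [wp, List.map_cons, List.prod_cons]; group
        _ = _ := by
          rw [h2, nn_conj G hi (G.good.neg_lt hw), R.sgn_neg, mul_assoc]
          exact xG_congr G.good (by rw [R.im_neg]; rfl) _ _ _

theorem wp_mem_N (L : List ℕ) (hL : ∀ i ∈ L, i < D.rank) : wp G.good F L ∈ D.monomialSubgroup F := by
  refine Subgroup.list_prod_mem _ fun x hx => ?_
  obtain ⟨i, hi, rfl⟩ := List.mem_map.1 hx
  exact nn_mem_N G (hL i hi)

theorem norm_H {n h : GL D.Idx F} (hn : n ∈ D.monomialSubgroup F) (hh : h ∈ D.diagonalSubgroup F) :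
    n * h * n⁻¹ ∈ D.diagonalSubgroup F :=
  (Subgroup.mem_normalizer_iff.1 (H_norm G.good hn) h).1 hh

theorem norm_H' {n h : GL D.Idx F} (hn : n ∈ D.monomialSubgroup F) (hh : h ∈ D.diagonalSubgroup F) :
    n⁻¹ * h * n ∈ D.diagonalSubgroup F := by
  have := norm_H G (inv_mem hn) hh
  rwa [inv_inv] at this

theorem N_word {n : GL D.Idx F} (hn : n ∈ D.monomialSubgroup F) :
    ∃ h ∈ D.diagonalSubgroup F, ∃ L : List ℕ, (∀ i ∈ L, i < D.rank) ∧ n = h * wp G.good F L := by
  rw [N_eq G.good, T0, W0, ← Subgroup.closure_union] at hn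
  induction hn using Subgroup.closure_induction_left with
  | one => exact ⟨1, one_mem _, [], by simp, by simp [wp]⟩
  | mul_left x hx y _ ih =>
    obtain ⟨h, hh, L, hL, rfl⟩ := ih
    rcases hx with ⟨i, hi, t, ht, rfl⟩ | ⟨i, hi, rfl⟩
    · exact ⟨_, mul_mem (hG_mem_H G _ ht) hh, L, hL, by rw [mul_assoc]⟩
    · refine ⟨_, norm_H G (nn_mem_N (F := F) G hi) hh, i :: L, by simpa [hi] using hL, ?_⟩
      simp only [wp, List.map_cons, List.prod_cons, nn_eq G hi]
      group
  | inv_mul_cancel x hx y _ ih =>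
    obtain ⟨h, hh, L, hL, rfl⟩ := ih
    rcases hx with ⟨i, hi, t, ht, rfl⟩ | ⟨i, hi, rfl⟩
    · exact ⟨_, mul_mem (inv_mem (hG_mem_H G _ ht)) hh, L, hL, by rw [mul_assoc]⟩
    · obtain ⟨k, hk, e⟩ := nn_inv (F := F) G hi
      refine ⟨_, mul_mem hk (norm_H G (nn_mem_N (F := F) G hi) hh), i :: L, by simpa [hi] using hL, ?_⟩
      rw [← nn_eq G hi]
      conv_lhs => rw [e]
      simp only [wp, List.map_cons, List.prod_cons]
      group

omit G in
/-- The element keeps the positive root elements inside `B`. -/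
def Pres (g : Good D c) (F : Type*) [Field F] (n : GL D.Idx F) : Prop :=
  ∀ s, ∀ hs : s < D.nroots, c.half ≤ s → n * xG g s hs (1 : F) * n⁻¹ ∈ D.borelSubgroup F

theorem pres_left {n h : GL D.Idx F} (hh : h ∈ D.diagonalSubgroup F) (hn : Pres G.good F (h * n)) :
    Pres G.good F n := by
  intro s hs hp
  have hb : h ∈ D.borelSubgroup F := Subgroup.mem_sup_right hh
  have := mul_mem (mul_mem (inv_mem hb) (hn s hs hp)) hb
  rwa [show h⁻¹ * (h * n * xG G.good s hs 1 * (h * n)⁻¹) * h = n * xG G.good s hs 1 * n⁻¹ by group] at this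

theorem pres_word : ∀ (k : ℕ) (L : List ℕ), L.length = k → (∀ i ∈ L, i < D.rank) → Pres G.good F (wp G.good F L) →
    wp G.good F L ∈ D.diagonalSubgroup F := by
  intro k
  induction k using Nat.strong_induction_on with
  | _ k ih =>
    intro L hk hL hp
    rcases List.eq_nil_or_concat L with rfl | ⟨A, j, rfl⟩
    · simp [wp]
    rw [List.concat_eq_append] at hL hp hk ⊢
    have hj := hL j (by simp)
    have hA : ∀ i ∈ A, i < D.rank := fun i hi => hL i (by simp [hi])
    have hpj := (G.good.simple hj).lt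
    have hppos := (G.good.simple hj).pos
    have hLp : c.half ≤ wim c (A ++ [j]) (D.simple j) := by
      by_contra hneg
      obtain ⟨ε, hε, h1, -⟩ := wact (F := F) G (A ++ [j]) hL _ hpj
      have hb := hp _ hpj hppos
      rw [h1] at hb
      exact neg_not_mem_B G _ (not_le.1 hneg) (by simpa using left_ne_zero_of_mul_eq_one hε) hb
    have hAneg : wim c A (D.simple j) < c.half := by
      have e : wim c (A ++ [j]) (D.simple j) = D.neg (wim c A (D.simple j)) := by
        simp only [wim, List.foldr_append, List.foldr_cons, List.foldr_nil, (G.good.simple hj).im_self]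
        exact wim_neg G A hA _ hpj
      rw [e] at hLp
      exact (neg_side G (wim_lt G A hA _ hpj)).2 hLp
    have split : ∀ B : List ℕ, (∀ i ∈ B, i < D.rank) → wim c B (D.simple j) < c.half →
        ∃ P i Q, B = P ++ i :: Q ∧ wim c Q (D.simple j) = D.simple i := by
      intro B
      induction B with
      | nil => intro _ h; exact absurd h (not_lt.2 hppos)
      | cons i B ihB =>
        intro hB h
        have hB' : ∀ m ∈ B, m < D.rank := fun m hm => hB m (List.mem_cons_of_mem _ hm)
        by_cases hq : wim c B (D.simple j) < c.half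
        · obtain ⟨P, m, Q, e, e'⟩ := ihB hB' hq
          exact ⟨i :: P, m, Q, by rw [e]; rfl, e'⟩
        · refine ⟨[], i, B, rfl, ?_⟩
          by_contra hne
          have := G.im_pos (hB i (by simp)) (wim_lt G B hB' _ hpj) (not_lt.1 hq) hne
          exact absurd h (not_lt.2 this)
    obtain ⟨P, i, Q, rfl, hQ⟩ := split A hA hAneg
    have hi := hA i (by simp)
    have hQ' : ∀ m ∈ Q, m < D.rank := fun m hm => hA m (by simp [hm])
    have hP' : ∀ m ∈ P, m < D.rank := fun m hm => hA m (by simp [hm])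
    obtain ⟨ε, hε, q1, q2⟩ := wact (F := F) G Q hQ' _ hpj
    have hpi := (G.good.simple hi).lt
    have hn : wp G.good F Q * nn G.good F j * (wp G.good F Q)⁻¹ = nG G.good (D.simple i) hpi ε := by
      rw [nn_eq G hj, conj_nG G.good hpj hpi hε (fun u => by rw [q1]; exact xG_congr G.good hQ _ _ _)
        (fun u => by rw [q2]; exact xG_congr G.good (by rw [hQ]) _ _ _), mul_one]
    have hni : nn G.good F i = (hG G.good (D.simple i) hpi ε)⁻¹ * nG G.good (D.simple i) hpi ε := by
      rw [nn_eq G hi, hG, _root_.mul_inv_rev, inv_mul_cancel_right, nG_inv, neg_neg]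
    have hεne : ε ≠ 0 := left_ne_zero_of_mul_eq_one hε
    set κ := hG G.good (D.simple i) hpi ε
    have hκ : κ⁻¹ ∈ D.diagonalSubgroup F := inv_mem (hG_mem_H G hpi hεne)
    have key : wp G.good F ((P ++ i :: Q) ++ [j]) =
        (wp G.good F P * κ⁻¹ * (wp G.good F P)⁻¹) * ((wp G.good F P * wp G.good F Q) * (nn G.good F j * nn G.good F j) *
          (wp G.good F P * wp G.good F Q)⁻¹) * wp G.good F (P ++ Q) := by
      simp only [wp, List.map_append, List.map_cons, List.prod_append, List.prod_cons, List.map_nil, List.prod_nil,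
        mul_one] at hn ⊢
      rw [hni, ← hn]
      group
    have hPQ : wp G.good F P * wp G.good F Q ∈ D.monomialSubgroup F :=
      mul_mem (wp_mem_N G P hP') (wp_mem_N G Q hQ')
    have hh : (wp G.good F P * κ⁻¹ * (wp G.good F P)⁻¹) * ((wp G.good F P * wp G.good F Q) *
        (nn G.good F j * nn G.good F j) * (wp G.good F P * wp G.good F Q)⁻¹) ∈ D.diagonalSubgroup F :=
      mul_mem (norm_H G (wp_mem_N G P hP') hκ) (norm_H G hPQ (nn_sq G hj))
    rw [key] at hp ⊢
    refine mul_mem hh (ih (P ++ Q).length ?_ (P ++ Q) rfl ?_ (pres_left G hh hp))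
    · rw [← hk]; simp
    · intro m hm
      rcases List.mem_append.1 hm with h | h
      exacts [hP' m h, hQ' m h]

theorem N_inf_B : D.borelSubgroup F ⊓ D.monomialSubgroup F = D.diagonalSubgroup F := by
  refine le_antisymm ?_ (le_inf le_sup_right (by rw [ChevalleyDatum.monomialSubgroup]; exact le_sup_left))
  rintro n ⟨hb, hn⟩
  obtain ⟨h, hh, L, hL, rfl⟩ := N_word G hn
  refine mul_mem hh (pres_word G _ L rfl hL (pres_left G hh fun s hs hp => ?_))
  exact mul_mem (mul_mem hb (xG_mem_B G hs hp 1)) (inv_mem hb)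

theorem U_inf_N : D.posUnipotent F ⊓ D.monomialSubgroup F = ⊥ := by
  rw [eq_bot_iff]
  rintro u ⟨hu, hn⟩
  have : u ∈ D.borelSubgroup F ⊓ D.monomialSubgroup F := ⟨Subgroup.mem_sup_left hu, hn⟩
  rw [N_inf_B G] at this
  exact Subgroup.mem_bot.2 (U_H G.good hu this)

end Cfsg.Agent.Chev.Tits
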