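import Cfsg.Agent.Chev.Snf

set_option autoImplicit false
attribute [-simp] Array.getD_eq_getD_getElem?

namespace Cfsg.Agent.Chev.Tits

open Cfsg.Lie Matrix

variable {D : ChevalleyDatum} {c : Cert} {F : Type*} [Field F] (G : TGood D c)
include G

omit G in
theorem mat_of (S : Snf) (h : snfOK D S = true) :
    let m : List (List ℤ) → Matrix (Fin D.rank) (Fin D.rank) ℤ := fun A => Matrix.of fun i j => ent A i j
    (m S.U * (Matrix.of fun a b : Fin D.rank => D.cartan b (D.simple a)) * m S.V =
        Matrix.diagonal fun i : Fin D.rank => ((S.d.getD i 0 : ℕ) : ℤ)) ∧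
      m S.U * m S.U' = 1 ∧ m S.U' * m S.U = 1 ∧ m S.V * m S.V' = 1 ∧ m S.V' * m S.V = 1 := by
  intro m
  simp only [snfOK, List.all_eq_true, List.mem_range, Bool.and_eq_true, decide_eq_true_eq] at h
  have key : ∀ (A B : ℕ → ℕ → ℤ) (i j : ℕ), mulE D.rank A B i j = ∑ k : Fin D.rank, A i k * B k j := by
    intro A B i j
    rw [Fin.sum_univ_eq_sum_range fun k => A i k * B k j]
    rfl
  refine ⟨?_, ?_, ?_, ?_, ?_⟩ <;> ext i j <;> have e := h i i.2 j j.2 <;> obtain ⟨⟨⟨⟨e1, e2⟩, e3⟩, e4⟩, e5⟩ := e
  · simp only [key] at e1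
    simp only [m, Matrix.mul_apply, Matrix.of_apply, Matrix.diagonal_apply]
    rw [e1]; simp [Fin.ext_iff]
  all_goals
    simp only [key] at e2 e3 e4 e5
    simp only [m, Matrix.mul_apply, Matrix.of_apply, Matrix.one_apply, Fin.ext_iff]
    first | exact e2 | exact e3 | exact e4 | exact e5

omit G in
/-- An integer matrix acting on vectors over an additive group. -/
def act {A : Type*} [AddCommGroup A] {n : ℕ} (M : Matrix (Fin n) (Fin n) ℤ) (x : Fin n → A) : Fin n → A :=
  fun i => ∑ j, M i j • x j

omit G in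
theorem act_mul {A : Type*} [AddCommGroup A] {n : ℕ} (M N : Matrix (Fin n) (Fin n) ℤ) (x : Fin n → A) :
    act (M * N) x = act M (act N x) := by
  funext i
  simp only [act, Matrix.mul_apply, Finset.sum_smul, Finset.smul_sum, mul_smul]
  exact Finset.sum_comm

omit G in
theorem act_one {A : Type*} [AddCommGroup A] {n : ℕ} (x : Fin n → A) :
    act (1 : Matrix (Fin n) (Fin n) ℤ) x = x := by
  funext i
  simp [act, Matrix.one_apply, ite_smul]

omit G in
theorem card_ker [Finite F] (S : Snf) (h : snfOK D S = true) :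
    Nat.card {x : Fin D.rank → Additive Fˣ //
      act (Matrix.of fun a b : Fin D.rank => D.cartan b (D.simple a)) x = 0} =
      ∏ i : Fin D.rank, Nat.gcd (Nat.card Fˣ) (S.d.getD i 0) := by
  obtain ⟨h1, h2, h3, h4, h5⟩ := mat_of S h
  set m : List (List ℤ) → Matrix (Fin D.rank) (Fin D.rank) ℤ := fun A => Matrix.of fun i j => ent A i j
  set M := (Matrix.of fun a b : Fin D.rank => D.cartan b (D.simple a))
  have hdiag : ∀ y : Fin D.rank → Additive Fˣ, act (Matrix.diagonal fun i : Fin D.rank => ((S.d.getD i 0 : ℕ) : ℤ)) y =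
      fun i : Fin D.rank => (S.d.getD i 0) • y i := by
    intro y; funext i; simp [act, Matrix.diagonal_apply, ite_smul, natCast_zsmul]
  have z0 : ∀ N : Matrix (Fin D.rank) (Fin D.rank) ℤ, act N (0 : Fin D.rank → Additive Fˣ) = 0 := by
    intro N; funext i; simp [act]
  let e : {x : Fin D.rank → Additive Fˣ // act M x = 0} ≃
      {y : Fin D.rank → Additive Fˣ // ∀ i : Fin D.rank, (S.d.getD i 0) • y i = 0} :=
    { toFun := fun x => ⟨act (m S.V') x.1, fun i => by
        have e1 : act (m S.U * M * m S.V) (act (m S.V') x.1) = 0 := by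
          rw [act_mul, ← act_mul (m S.V), h4, act_one, act_mul, x.2, z0]
        rw [h1, hdiag] at e1
        exact congrFun e1 i⟩
      invFun := fun y => ⟨act (m S.V) y.1, by
        have e1 : act (m S.U) (act M (act (m S.V) y.1)) = 0 := by
          rw [← act_mul, ← act_mul, h1, hdiag]
          funext i; exact y.2 i
        calc act M (act (m S.V) y.1) = act (m S.U' * m S.U) (act M (act (m S.V) y.1)) := by rw [h3, act_one]
          _ = 0 := by rw [act_mul, e1, z0]⟩
      left_inv := fun x => Subtype.ext (by simp only; rw [← act_mul, h4, act_one])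
      right_inv := fun y => Subtype.ext (by simp only; rw [← act_mul, h5, act_one]) }
  rw [Nat.card_congr e, Nat.card_congr (Equiv.subtypePiEquivPi (p := fun (i : Fin D.rank) (a : Additive Fˣ) => (S.d.getD i 0) • a = 0)),
    Nat.card_pi]
  refine Finset.prod_congr rfl fun i _ => ?_
  rw [← IsCyclic.card_powMonoidHom_ker (G := Fˣ) (S.d.getD i 0)]
  exact Nat.card_congr (Equiv.subtypeEquiv Additive.toMul fun a => by
    rw [MonoidHom.mem_ker, powMonoidHom_apply, ← toMul_nsmul]; exact Iff.rfl)

/-- The Cartan numbers of every root are combinations of those of the fundamental roots. -/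
theorem cartan_span (t : Fin D.rank → Fˣ) (h : ∀ a : Fin D.rank, ∏ i : Fin D.rank, t i ^ D.cartan i (D.simple a) = 1) :
    ∀ s, s < D.nroots → ∏ i : Fin D.rank, t i ^ D.cartan i s = 1 := by
  have pos : ∀ s, s < D.nroots → c.half ≤ s → ∏ i : Fin D.rank, t i ^ D.cartan i s = 1 := by
    intro s
    induction s using Nat.strong_induction_on with
    | _ s ih =>
      intro hs hp
      have hr := List.all_eq_true.1 G.good.reach s (List.mem_range.2 hs)
      simp only [Bool.or_eq_true, List.any_eq_true, List.mem_range, Bool.and_eq_true, Nat.blt_eq, Nat.ble_eq] at hr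
      rcases hr with (hr | ⟨i, hi, e⟩) | ⟨i, hi, h1, h2⟩
      · omega
      · rw [Nat.eq_of_beq_eq_true e]; exact h ⟨i, hi⟩
      · have R := G.good.refl hi hs
        have e : ∀ j : Fin D.rank, D.cartan j s = D.cartan j (c.im i s) - D.cartan j (D.simple i) * D.cartan i (c.im i s) :=
          fun j => R.cartan_im j j.2
        simp only [e, _root_.zpow_sub, _root_.zpow_mul, Finset.prod_mul_distrib, Finset.prod_inv_distrib, Finset.prod_zpow,
          ih _ h2 R.lt h1, h ⟨i, hi⟩, _root_.one_zpow, inv_one, mul_one]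
  intro s hs
  by_cases hp : c.half ≤ s
  · exact pos s hs hp
  have hn := G.good.neg_lt hs
  have h2 := pos _ hn ((neg_side G hs).1 (not_le.1 hp))
  have e : ∀ j : Fin D.rank, D.cartan j s = -D.cartan j (D.neg s) := fun j => by
    rw [(G.good.refl j.2 hs).cartan_neg, neg_neg]
  simp only [e, _root_.zpow_neg, Finset.prod_inv_distrib, h2, inv_one]

theorem card_H [Finite F] (S : Snf) (h : snfOK D S = true) :
    (∏ i : Fin D.rank, Nat.gcd (Nat.card Fˣ) (S.d.getD i 0)) * Nat.card (D.diagonalSubgroup F) =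
      Nat.card Fˣ ^ D.rank := by
  classical
  let φi : ∀ i : Fin D.rank, Fˣ →* ↥(D.diagonalSubgroup F) := fun i =>
    MonoidHom.mk' (fun t => ⟨hG G.good (D.simple i) (G.good.simple i.2).lt (t : F), hG_mem_H G _ t.ne_zero⟩)
      (fun a b => Subtype.ext (by
        show hG G.good (D.simple i) (G.good.simple i.2).lt ((a * b : Fˣ) : F) =
          hG G.good (D.simple i) (G.good.simple i.2).lt (a : F) * hG G.good (D.simple i) (G.good.simple i.2).lt (b : F)
        rw [Units.val_mul, hG_mul G.good _ _ _ a.ne_zero b.ne_zero]))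
  haveI : IsMulCommutative ↥(D.diagonalSubgroup F) := ⟨⟨fun a b => by
    obtain ⟨χ, e, -⟩ := H_char G.good a.2
    obtain ⟨ψ, e', -⟩ := H_char G.good b.2
    apply Subtype.ext; apply Units.ext
    simp only [Subgroup.coe_mul, Units.val_mul, e, e', dg, diagonal_mul_diagonal]
    congr 1; funext i; exact mul_comm _ _⟩⟩
  let φ : (Fin D.rank → Fˣ) →* ↥(D.diagonalSubgroup F) :=
    MonoidHom.noncommPiCoprod φi (fun i j _ x y => (IsMulCommutative.is_comm.comm _ _))
  have hval : ∀ t, ((φ t : GL D.Idx F) : Matrix D.Idx D.Idx F) =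
      dg D (fun s => ((∏ i : Fin D.rank, t i ^ D.cartan i s : Fˣ) : F)) := by
    intro t
    simp only [φ, MonoidHom.noncommPiCoprod_apply]
    have key : ∀ (L : Finset (Fin D.rank)) (cm : _), ((((Finset.noncommProd L (fun i => φi i (t i)) cm) : ↥(D.diagonalSubgroup F)) : GL D.Idx F) : Matrix D.Idx D.Idx F) =
        dg D (fun s => ((∏ i ∈ L, t i ^ D.cartan i s : Fˣ) : F)) := by
      intro L
      induction L using Finset.induction_on with
      | empty => intro cm; simp [dg]
      | insert a L ha ih =>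
        intro cm
        rw [Finset.noncommProd_insert_of_notMem _ _ _ _ ha, Subgroup.coe_mul, Units.val_mul, ih]
        show (hG G.good (D.simple a) _ ((t a : Fˣ) : F) : Matrix D.Idx D.Idx F) * _ = _
        rw [hp_eq G.good a.2 _ (t a).ne_zero, dg, dg, dg, diagonal_mul_diagonal]
        congr 1; funext i
        rcases i with i | i
        · simp
        · simp [Finset.prod_insert ha]
    exact key _ _
  have surj : Function.Surjective φ := by
    rintro ⟨x, hx⟩
    have hle : D.diagonalSubgroup F ≤ φ.range.map (D.diagonalSubgroup F).subtype := by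
      conv_lhs => rw [H_eq G.good, T0]
      rw [Subgroup.closure_le]
      rintro y ⟨i, hi, u, hu, rfl⟩
      exact ⟨φ (Pi.mulSingle ⟨i, hi⟩ (Units.mk0 u hu)), ⟨_, rfl⟩, by
        have e : φ (Pi.mulSingle ⟨i, hi⟩ (Units.mk0 u hu)) = φi ⟨i, hi⟩ (Units.mk0 u hu) :=
          MonoidHom.noncommPiCoprod_mulSingle (i := (⟨i, hi⟩ : Fin D.rank)) (y := Units.mk0 u hu) (ϕ := φi)
        rw [e]; rfl⟩
    obtain ⟨z, ⟨t, rfl⟩, e⟩ := hle hx
    exact ⟨t, Subtype.ext e⟩
  have hker : Nat.card φ.ker = ∏ i : Fin D.rank, Nat.gcd (Nat.card Fˣ) (S.d.getD i 0) := by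
    rw [← card_ker S h]
    refine Nat.card_congr (Equiv.subtypeEquiv (Equiv.piCongrRight fun _ => Additive.ofMul) fun t => ?_)
    have iff1 : t ∈ φ.ker ↔ ∀ a : Fin D.rank, ∏ i : Fin D.rank, t i ^ D.cartan i (D.simple a) = 1 := by
      constructor
      · intro ht a
        have e := congrArg (fun z : ↥(D.diagonalSubgroup F) => ((z : GL D.Idx F) : Matrix D.Idx D.Idx F)) (MonoidHom.mem_ker.1 ht)
        simp only [hval, dg] at e
        have := congrFun (congrFun e (Sum.inr ⟨_, (G.good.simple a.2).lt⟩)) (Sum.inr ⟨_, (G.good.simple a.2).lt⟩)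
        simp at this
        exact Units.ext (by simpa using this)
      · intro ht
        refine MonoidHom.mem_ker.2 (Subtype.ext (Units.ext ?_))
        rw [hval, OneMemClass.coe_one, Units.val_one, dg, ← diagonal_one]
        congr 1; funext i
        rcases i with i | i
        · rfl
        · have := congrArg (fun z : Fˣ => (z : F)) (cartan_span G t ht i i.2)
          simpa using this
    rw [iff1, funext_iff]
    refine forall_congr' fun a => ?_
    simp only [act, Matrix.of_apply, Equiv.piCongrRight_apply, Pi.map_apply, Pi.zero_apply, ← ofMul_zpow, ← ofMul_prod]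
    rw [ofMul_eq_zero]
  have h1 := φ.ker.card_mul_index
  rw [Subgroup.index_ker, MonoidHom.range_eq_top.2 surj, Subgroup.card_top, hker, Nat.card_pi, Finset.prod_const, Finset.card_univ, Fintype.card_fin] at h1
  exact h1

end Cfsg.Agent.Chev.Tits
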