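import Cfsg.Agent.Chev.RepCheck

set_option autoImplicit false

namespace Cfsg.Agent.Chev.Twist

open Cfsg.Lie Cfsg.Agent.Chev.Tits

/-- Two fundamental roots of one block do not interact. -/
def orthB (D : ChevalleyDatum) (i j : ℕ) : Bool :=
  let a := D.simple i
  let r := D.simple j
  !Nat.beq r a && !Nat.beq r (D.neg a) && decide (D.cartan i r = 0) &&
    (D.chainEntry r (D.neg a)).isEmpty && (D.chainEntry r a).isEmpty &&
    (D.commTerms r a).isEmpty && (D.commTerms r (D.neg a)).isEmpty &&
    (D.commTerms (D.neg r) a).isEmpty && (D.commTerms (D.neg r) (D.neg a)).isEmpty &&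
    !Nat.beq (D.neg r) a && !Nat.beq (D.neg r) (D.neg a)

/-- The blocks are orthogonal and cover all nodes, and their product word is the longest element. -/
def blocksOK (D : ChevalleyDatum) (c : Cert) (Bs : List (List ℕ)) (k : ℕ) : Bool :=
  (Bs.all fun B => B.all fun i => Nat.blt i D.rank && B.all fun j => Nat.beq i j || orthB D i j) &&
  (Bs.all fun B => decide B.Nodup) &&
  ((List.range D.rank).all fun i => Bs.any fun B => B.contains i) &&
  (List.range D.nroots).all fun s => !Nat.ble c.half s || Nat.blt (wimB c (List.replicate k Bs.flatten).flatten s) c.half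

end Cfsg.Agent.Chev.Twist
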