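import Cfsg.Agent.Chev.Count
import Cfsg.Agent.Chev.Torus
import Cfsg.Agent.Chev.TwistCoreCheck

/-!
A subgroup containing the blocks of fundamental root elements has trivial core in its Borel part.
-/

set_option autoImplicit false
attribute [-simp] Array.getD_eq_getD_getElem?

namespace Cfsg.Agent.Chev.Twist

open Cfsg.Lie Matrix Cfsg.Agent.Chev.Tits Cfsg.Agent.Chev.Comm

variable {D : ChevalleyDatum} {c : Cert} {F : Type*} [Field F] (G : TGood D c)

/-- The product of fundamental root elements with one parameter. -/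
noncomputable def xb (g : Good D c) (F : Type*) [Field F] (B : List ℕ) (t : F) : GL D.Idx F :=
  (B.map fun i => if h : i < D.rank then xG g (D.simple i) (g.simple h).lt t else 1).prod

/-- The product of negative fundamental root elements with one parameter. -/
noncomputable def yb (g : Good D c) (F : Type*) [Field F] (B : List ℕ) (t : F) : GL D.Idx F :=
  (B.map fun i => if h : i < D.rank then xG g (D.neg (D.simple i)) (g.neg_lt (g.simple h).lt) t else 1).prod

include G

theorem commute_empty {r s : ℕ} (hr : r < D.nroots) (hs : s < D.nroots) (h1 : s ≠ r) (h2 : s ≠ D.neg r)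
    (h : D.commTerms r s = []) (t u : F) : Commute (xG G.good r hr t) (xG G.good s hs u) := by
  refine (Units.ext ?_ : _ = _).symm
  have := comm G.cg hr hs h1 h2 t u
  simp only [ChevalleyDatum.commWord, h, List.map_nil, ChevalleyDatum.wordMat, List.prod_nil,
    mul_one] at this
  exact this

theorem nn_block : ∀ B : List ℕ, B.Nodup → (∀ i ∈ B, i < D.rank ∧ ∀ j ∈ B, i = j ∨ orthB D i j = true) →
    wp G.good F B = xb G.good F B 1 * yb G.good F B (-1) * xb G.good F B 1 := by
  intro B
  induction B with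
  | nil => intro _ _; simp [wp, xb, yb]
  | cons i B ih =>
    intro hnd hB
    obtain ⟨hi', hnd⟩ := List.nodup_cons.1 hnd
    have hi := (hB i (by simp)).1
    have hp := (G.good.simple hi).lt
    set a := xG G.good (D.simple i) hp (1 : F)
    set b := xG G.good (D.neg (D.simple i)) (G.good.neg_lt hp) (-1 : F)
    have hcomm : ∀ (t u : F) (j : ℕ), j ∈ B → ∀ hj : j < D.rank,
        Commute (xG G.good (D.simple i) hp t) (xG G.good (D.simple j) (G.good.simple hj).lt u) ∧
        Commute (xG G.good (D.simple i) hp t) (xG G.good (D.neg (D.simple j)) (G.good.neg_lt (G.good.simple hj).lt) u) ∧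
        Commute (xG G.good (D.neg (D.simple i)) (G.good.neg_lt hp) t) (xG G.good (D.simple j) (G.good.simple hj).lt u) ∧
        Commute (xG G.good (D.neg (D.simple i)) (G.good.neg_lt hp) t) (xG G.good (D.neg (D.simple j)) (G.good.neg_lt (G.good.simple hj).lt) u) := by
      intro t u j hjB hj
      have hne : j ≠ i := fun e => hi' (e ▸ hjB)
      have h := ((hB j (by simp [hjB])).2 i (by simp)).resolve_left hne
      simp only [orthB, Bool.and_eq_true, Bool.not_eq_true', List.isEmpty_iff, decide_eq_true_eq] at h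
      obtain ⟨⟨⟨⟨⟨⟨⟨⟨⟨⟨h1, h2⟩, -⟩, -⟩, -⟩, c1⟩, c2⟩, c3⟩, c4⟩, h3⟩, h4⟩ := h
      have hq := (G.good.simple hj).lt
      have n1 := Nat.ne_of_beq_eq_false h1
      have n2 := Nat.ne_of_beq_eq_false h2
      have n3 := Nat.ne_of_beq_eq_false h3
      have n4 := Nat.ne_of_beq_eq_false h4
      refine ⟨commute_empty G hp hq (fun e => n1 e.symm) (fun e => n3 e.symm) c1 t u,
        commute_empty G hp (G.good.neg_lt hq) (fun e => n2 e.symm) (fun e => n4 e.symm) c2 t u,
        commute_empty G (G.good.neg_lt hp) hq (fun e => n3 e.symm) ?_ c3 t u,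
        commute_empty G (G.good.neg_lt hp) (G.good.neg_lt hq) (fun e => n4 e.symm) ?_ c4 t u⟩
      · rw [G.good.neg_neg hp]; exact fun e => n1 e.symm
      · rw [G.good.neg_neg hp]; exact fun e => n2 e.symm
    have cxx : ∀ t u : F, Commute (xG G.good (D.simple i) hp t) (xb G.good F B u) := fun t u =>
      Commute.list_prod_right _ _ fun y hy => by
        obtain ⟨j, hj, rfl⟩ := List.mem_map.1 hy
        rw [dif_pos (hB j (by simp [hj])).1]; exact (hcomm t u j hj (hB j (by simp [hj])).1).1
    have cxy : ∀ t u : F, Commute (xG G.good (D.simple i) hp t) (yb G.good F B u) := fun t u =>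
      Commute.list_prod_right _ _ fun y hy => by
        obtain ⟨j, hj, rfl⟩ := List.mem_map.1 hy
        rw [dif_pos (hB j (by simp [hj])).1]; exact (hcomm t u j hj (hB j (by simp [hj])).1).2.1
    have cyx : ∀ t u : F, Commute (xG G.good (D.neg (D.simple i)) (G.good.neg_lt hp) t) (xb G.good F B u) := fun t u =>
      Commute.list_prod_right _ _ fun y hy => by
        obtain ⟨j, hj, rfl⟩ := List.mem_map.1 hy
        rw [dif_pos (hB j (by simp [hj])).1]; exact (hcomm t u j hj (hB j (by simp [hj])).1).2.2.1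
    have ih' := ih hnd fun j hj => ⟨(hB j (by simp [hj])).1, fun k hk => (hB j (by simp [hj])).2 k (by simp [hk])⟩
    have e1 : wp G.good F (i :: B) = a * b * a * wp G.good F B := by
      show (List.map (nn G.good F) (i :: B)).prod = _
      rw [List.map_cons, List.prod_cons, nn_eq G hi, nG, inv_one]
      rfl
    have ex : ∀ t : F, xb G.good F (i :: B) t = xG G.good (D.simple i) hp t * xb G.good F B t := fun t => by
      simp [xb, hi]
    have ey : ∀ t : F, yb G.good F (i :: B) t = xG G.good (D.neg (D.simple i)) (G.good.neg_lt hp) t * yb G.good F B t := fun t => by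
      simp [yb, hi]
    rw [e1, ih', ex, ey]
    set X := xb G.good F B (1 : F)
    set Y := yb G.good F B (-1 : F)
    have k1 : a * X = X * a := (cxx 1 1).eq
    have k2 : a * Y = Y * a := (cxy 1 (-1)).eq
    have k3 : b * X = X * b := (cyx (-1) 1).eq
    calc a * b * a * (X * Y * X) = a * b * (a * X) * Y * X := by group
      _ = a * (b * X) * a * Y * X := by rw [k1]; group
      _ = a * X * b * (a * Y) * X := by rw [k3]; group
      _ = _ := by rw [k2]; simp only [a, b, mul_assoc]

theorem block_coord {B : List ℕ} (hnd : B.Nodup)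
    (hB : ∀ i ∈ B, i < D.rank ∧ ∀ j ∈ B, i = j ∨ orthB D i j = true)
    (hcs : corSimpleOK D = true) (χ : ℕ → F) {i : ℕ} (hi : i < D.rank) (hm : i ∈ B) :
    (((B.map fun j => if h : j < D.rank then xG G.good (D.simple j) (G.good.simple h).lt (χ (D.simple j)) else 1).prod :
      GL D.Idx F) : Matrix D.Idx D.Idx F) (Sum.inl ⟨i, hi⟩) (Sum.inr ⟨D.neg (D.simple i), G.good.neg_lt (G.good.simple hi).lt⟩) =
      χ (D.simple i) := by
  have hp := (G.good.simple hi).lt
  set f : ℕ → GL D.Idx F := fun j => if h : j < D.rank then xG G.good (D.simple j) (G.good.simple h).lt (χ (D.simple j)) else 1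
  let v : D.Idx → F := rv D F (D.neg (D.simple i))
  let w : D.Idx → F := rv D F (D.neg (D.simple i)) + χ (D.simple i) • hv D F (D.simple i) -
    χ (D.simple i) ^ 2 • rv D F (D.simple i)
  have hhv : hv D F (D.simple i) = ee (Sum.inl ⟨i, hi⟩) := by
    funext l
    rcases l with l | l
    · simp only [hv, Sum.elim_inl, ee, Pi.single_apply]
      rw [cor_simple G hcs i hi l l.2]
      by_cases e : i = l.val
      · rw [if_pos e, if_pos (by rw [Sum.inl.injEq]; exact Fin.ext e.symm), Int.cast_one]
      · rw [if_neg e, if_neg (by rw [Sum.inl.injEq]; exact fun e' => e (congrArg Fin.val e').symm), Int.cast_zero]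
    · simp [hv, ee]
  have main : ∀ L : List ℕ, L.Nodup → (∀ j ∈ L, j ∈ B) →
      (((L.map f).prod : GL D.Idx F) : Matrix D.Idx D.Idx F) *ᵥ v = if i ∈ L then w else v := by
    have fix : ∀ j ∈ B, j ≠ i → ((f j : GL D.Idx F) : Matrix D.Idx D.Idx F) *ᵥ v = v ∧
        ((f j : GL D.Idx F) : Matrix D.Idx D.Idx F) *ᵥ w = w := by
      intro j hj hne
      have h := ((hB i hm).2 j hj).resolve_left (fun e => hne e.symm)
      simp only [orthB, Bool.and_eq_true, Bool.not_eq_true', List.isEmpty_iff, decide_eq_true_eq] at h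
      obtain ⟨⟨⟨⟨⟨⟨⟨⟨⟨⟨h1, h2⟩, hcar⟩, e1⟩, e2⟩, -⟩, -⟩, -⟩, -⟩, h3⟩, h4⟩ := h
      have n1 := Nat.ne_of_beq_eq_false h1
      have n2 := Nat.ne_of_beq_eq_false h2
      have n3 := Nat.ne_of_beq_eq_false h3
      have n4 := Nat.ne_of_beq_eq_false h4
      have hjr := (hB j hj).1
      have hq := (G.good.simple hjr).lt
      have k1 : D.x F (D.simple j) (χ (D.simple j)) *ᵥ rv D F (D.neg (D.simple i)) = rv D F (D.neg (D.simple i)) := by
        rw [x_other G.good.datum hq _ (G.good.neg_lt hp) (fun e => n2 e.symm) (fun e => n4 e.symm), e1]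
        simp [cv]
      have k2 : D.x F (D.simple j) (χ (D.simple j)) *ᵥ rv D F (D.simple i) = rv D F (D.simple i) := by
        rw [x_other G.good.datum hq _ hp (fun e => n1 e.symm) (fun e => n3 e.symm), e2]
        simp [cv]
      have k3 : D.x F (D.simple j) (χ (D.simple j)) *ᵥ hv D F (D.simple i) = hv D F (D.simple i) := by
        rw [hhv, x_h hq]
        simp [hcar]
      simp only [f, dif_pos hjr]
      refine ⟨k1, ?_⟩
      show D.x F (D.simple j) (χ (D.simple j)) *ᵥ w = w
      simp only [w, mulVec_sub, mulVec_add, mulVec_smul, k1, k2, k3]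
    intro L
    induction L with
    | nil => intro _ _; simp
    | cons j L ih =>
      intro hnd' hL
      obtain ⟨hj', hnd'⟩ := List.nodup_cons.1 hnd'
      have hjB := hL j (by simp)
      rw [List.map_cons, List.prod_cons, Units.val_mul, ← mulVec_mulVec, ih hnd' fun k hk => hL k (by simp [hk])]
      by_cases e : j = i
      · subst e
        rw [if_neg hj', if_pos (by simp)]
        show ((f j : GL D.Idx F) : Matrix D.Idx D.Idx F) *ᵥ v = w
        simp only [f, dif_pos hi]
        exact x_neg G.good.datum hp _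
      · by_cases hiL : i ∈ L
        · rw [if_pos hiL, if_pos (by simp [hiL]), (fix j hjB e).2]
        · rw [if_neg hiL, if_neg (by simp [hiL, Ne.symm e]), (fix j hjB e).1]
  have h := congrFun (main B hnd fun j hj => hj) (Sum.inl ⟨i, hi⟩)
  rw [if_pos hm] at h
  have hvee : v = ee (Sum.inr ⟨D.neg (D.simple i), G.good.neg_lt hp⟩) := by
    simp only [v, rv, dif_pos (G.good.neg_lt hp)]
  rw [hvee, ee, mulVec_single_one] at h
  refine Eq.trans h ?_
  simp [w, rv_inl, hhv, ee]

theorem H_form {x : GL D.Idx F} (hx : x ∈ D.diagonalSubgroup F) :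
    ∃ t : Fin D.rank → Fˣ, (x : Matrix D.Idx D.Idx F) =
      dg D (fun s => ((∏ i : Fin D.rank, t i ^ D.cartan i s : Fˣ) : F)) := by
  classical
  rw [H_eq G.good, T0] at hx
  induction hx using Subgroup.closure_induction with
  | mem y hy =>
    obtain ⟨i, hi, u, hu, rfl⟩ := hy
    refine ⟨Pi.mulSingle ⟨i, hi⟩ (Units.mk0 u hu), ?_⟩
    rw [hp_eq G.good hi u hu, dg, dg]
    congr 1
    funext l
    rcases l with l | l
    · simp
    · simp only [Sum.elim_inr]
      rw [Fintype.prod_eq_single (⟨i, hi⟩ : Fin D.rank)]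
      · simp
      · intro j hj
        rw [Pi.mulSingle_eq_of_ne hj, _root_.one_zpow]
  | one =>
    refine ⟨1, ?_⟩
    rw [Units.val_one, dg]
    ext a b
    rcases a with a | a <;> rcases b with b | b <;> simp [Matrix.one_apply, Matrix.diagonal_apply]
  | mul a b _ _ ha hb =>
    obtain ⟨t, h1⟩ := ha
    obtain ⟨u, h2⟩ := hb
    refine ⟨t * u, ?_⟩
    rw [Units.val_mul, h1, h2, dg, dg, dg, diagonal_mul_diagonal]
    congr 1
    funext l
    rcases l with l | l <;> simp [_root_.mul_zpow, Finset.prod_mul_distrib]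
  | inv a _ ha =>
    obtain ⟨t, h1⟩ := ha
    refine ⟨t⁻¹, ?_⟩
    refine (eq_comm.1 ?_)
    refine (Units.eq_inv_of_mul_eq_one_left (u := a) ?_)
    rw [h1, dg, dg, diagonal_mul_diagonal, ← Matrix.diagonal_one]
    congr 1
    funext l
    rcases l with l | l
    · simp
    · simp only [Sum.elim_inr, ← Units.val_mul, ← Finset.prod_mul_distrib]
      simp [_root_.inv_zpow]

theorem H_faithful {x : GL D.Idx F} (hx : x ∈ D.diagonalSubgroup F) {χ : ℕ → F}
    (hχ : (x : Matrix D.Idx D.Idx F) = dg D χ) (hone : ∀ i < D.rank, χ (D.simple i) = 1) : x = 1 := by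
  obtain ⟨t, ht⟩ := H_form G hx
  have hsimp : ∀ a : Fin D.rank, ∏ i : Fin D.rank, t i ^ D.cartan i (D.simple a) = 1 := by
    intro a
    have e := ht.symm.trans hχ
    have := congrFun (congrFun e (Sum.inr ⟨_, (G.good.simple a.2).lt⟩)) (Sum.inr ⟨_, (G.good.simple a.2).lt⟩)
    simp [dg] at this
    exact Units.ext (by simpa [hone a a.2, Units.coe_prod] using this)
  refine Units.ext ?_
  rw [ht, Units.val_one, dg, ← Matrix.diagonal_one]
  congr 1
  funext l
  rcases l with l | l
  · simp
  · simp only [Sum.elim_inr]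
    rw [cartan_span G t hsimp l.val l.2]
    simp

theorem core_trivial {Bs : List (List ℕ)} {k : ℕ} (hcs : corSimpleOK D = true)
    (hok : blocksOK D c Bs k = true) (Γ : Subgroup (GL D.Idx F))
    (hx : ∀ B ∈ Bs, xb G.good F B 1 ∈ Γ) (hy : ∀ B ∈ Bs, yb G.good F B (-1) ∈ Γ) :
    ((D.borelSubgroup F ⊓ Γ).subgroupOf Γ).normalCore = ⊥ := by
  simp only [blocksOK, Bool.and_eq_true, List.all_eq_true, List.any_eq_true, List.mem_range,
    Bool.or_eq_true, Bool.not_eq_true', decide_eq_true_eq, Nat.blt_eq, List.contains_eq_mem] at hok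
  obtain ⟨⟨⟨hB, hnd⟩, hcov⟩, hneg⟩ := hok
  have hB' : ∀ B ∈ Bs, ∀ i ∈ B, i < D.rank ∧ ∀ j ∈ B, i = j ∨ orthB D i j = true := fun B hb i hi =>
    ⟨(hB B hb i hi).1, fun j hj => ((hB B hb i hi).2 j hj).imp Nat.eq_of_beq_eq_true id⟩
  set L0 := (List.replicate k Bs.flatten).flatten
  have hwB : ∀ B ∈ Bs, wp G.good F B ∈ Γ := fun B hb => by
    rw [nn_block G B (hnd B hb) (hB' B hb)]
    exact mul_mem (mul_mem (hx B hb) (hy B hb)) (hx B hb)
  have hwfl : ∀ As : List (List ℕ), (∀ B ∈ As, wp G.good F B ∈ Γ) → wp G.good F As.flatten ∈ Γ := by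
    intro As
    induction As with
    | nil => intro _; simp [wp]
    | cons A As ih =>
      intro h
      rw [List.flatten_cons, wp_append G]
      exact mul_mem (h A (by simp)) (ih fun B hb => h B (by simp [hb]))
  have hn : wp G.good F L0 ∈ Γ := hwfl _ fun B hb => by
    rw [List.eq_of_mem_replicate hb]; exact hwfl _ hwB
  have hL0 : ∀ i ∈ L0, i < D.rank := by
    intro i hi
    obtain ⟨A, hA, hiA⟩ := List.mem_flatten.1 hi
    rw [List.eq_of_mem_replicate hA] at hiA
    obtain ⟨B, hb, hiB⟩ := List.mem_flatten.1 hiA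
    exact (hB B hb i hiB).1
  rw [Subgroup.eq_bot_iff_forall]
  rintro ⟨x, hxΓ⟩ hcore
  have hmem : ∀ y : GL D.Idx F, ∀ hyΓ : y ∈ Γ, y * x * y⁻¹ ∈ D.borelSubgroup F := fun y hyΓ => by
    have := hcore ⟨y, hyΓ⟩
    simp only [Subgroup.mem_subgroupOf, Subgroup.mem_inf] at this
    exact this.1
  -- the conjugates lie in the diagonal subgroup
  have hH : ∀ y ∈ Γ, y * x * y⁻¹ ∈ D.diagonalSubgroup F := by
    intro y hyΓ
    obtain ⟨u, hu, h, hh, e⟩ := (mem_B G.good).1 (hmem y hyΓ)
    have hb := hmem (wp G.good F L0 * y) (mul_mem hn hyΓ)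
    rw [show wp G.good F L0 * y * x * (wp G.good F L0 * y)⁻¹ =
      wp G.good F L0 * (y * x * y⁻¹) * (wp G.good F L0)⁻¹ by group, ← e,
      show wp G.good F L0 * (u * h) * (wp G.good F L0)⁻¹ = (wp G.good F L0 * u * (wp G.good F L0)⁻¹) *
        (wp G.good F L0 * h * (wp G.good F L0)⁻¹) by group] at hb
    have hnN := wp_mem_N (F := F) G L0 hL0
    have hb' := mul_mem hb (inv_mem (H_mem_B G (norm_H G hnN hh)))
    rw [mul_inv_cancel_right] at hb'
    have hV : wp G.good F L0 * u * (wp G.good F L0)⁻¹ ∈ D.negUnipotent F := by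
      clear hb hb' e
      induction hu using Subgroup.closure_induction with
      | mem z hz =>
        obtain ⟨s, t, hs, hz⟩ := hz
        obtain ⟨hs1, hs2⟩ := (pos_iff G.good).1 hs
        obtain ⟨ε, -, h1, -⟩ := wact (F := F) G L0 hL0 s hs1
        rw [show z = xG G.good s hs1 t from Units.ext hz, h1]
        refine Subgroup.subset_closure ⟨_, ε * t, (neg_iff G.good).2 ⟨wim_lt G L0 hL0 s hs1, ?_⟩, rfl⟩
        rcases hneg s hs1 with h' | h'
        · rw [← Bool.not_eq_true, Nat.ble_eq] at h'; exact absurd hs2 h'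
        · exact h'
      | one => simp
      | mul a b _ _ ha hb => have := mul_mem ha hb; simpa [mul_assoc] using this
      | inv a _ ha => have := inv_mem ha; simpa [mul_assoc] using this
    have h1 : u = 1 := by
      have := B_V G.good hb' hV
      rwa [mul_inv_eq_one, mul_eq_left] at this
    rw [← e, h1, one_mul]
    exact hh
  have hxH : x ∈ D.diagonalSubgroup F := by simpa using hH 1 (one_mem _)
  obtain ⟨χ, hχ, hc⟩ := H_char G.good hxH
  have hone : ∀ i, ∀ hi : i < D.rank, χ (D.simple i) = 1 := by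
    intro i hi
    obtain ⟨B, hb, hiB⟩ := hcov i hi
    set g := xb G.good F B (1 : F) with hg
    have hgU : g ∈ D.posUnipotent F := by
      refine list_prod_mem fun z hz => ?_
      obtain ⟨j, hj, rfl⟩ := List.mem_map.1 hz
      rw [dif_pos (hB B hb j hj).1]
      exact xG_mem_U G _ (G.good.simple (hB B hb j hj).1).pos _
    have h1 : x * g * x⁻¹ * g⁻¹ ∈ D.diagonalSubgroup F := by
      have := mul_mem hxH (inv_mem (hH g (hx B hb)))
      rwa [show x * (g * x * g⁻¹)⁻¹ = x * g * x⁻¹ * g⁻¹ by group] at this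
    have h2 : x * g * x⁻¹ ∈ D.posUnipotent F :=
      (Subgroup.mem_normalizer_iff.1 (H_norm_U G.good hxH) g).1 hgU
    have h3 := U_H G.good (mul_mem h2 (inv_mem hgU)) h1
    rw [mul_inv_eq_one] at h3
    have hconj : ∀ L : List ℕ, (∀ j ∈ L, j < D.rank) → x * xb G.good F L 1 * x⁻¹ =
        (L.map fun j => if h : j < D.rank then xG G.good (D.simple j) (G.good.simple h).lt (χ (D.simple j)) else 1).prod := by
      intro L
      induction L with
      | nil => intro _; simp [xb]
      | cons j L ih =>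
        intro hL
        have hj := hL j (by simp)
        rw [List.map_cons, List.prod_cons, dif_pos hj, ← ih (fun a ha => hL a (by simp [ha]))]
        have e1 := (hc (D.simple j) (G.good.simple hj).lt).2 (1 : F)
        rw [mul_one] at e1
        rw [← e1]
        simp [xb, hj, mul_assoc]
    rw [hg, hconj B fun j hj => (hB B hb j hj).1] at h3
    have k1 := block_coord G (hnd B hb) (hB' B hb) hcs χ hi hiB
    have k2 := block_coord G (hnd B hb) (hB' B hb) hcs (fun _ => (1 : F)) hi hiB
    rw [h3] at k1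
    exact k1.symm.trans k2
  refine Subtype.ext ?_
  show x = 1
  exact H_faithful G hxH hχ hone

end Cfsg.Agent.Chev.Twist
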