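import Cfsg.Agent.Chev.TwistCore
import Cfsg.Agent.Chev.RepE6
import Cfsg.Agent.Chev.RepD4
import Cfsg.Agent.Chev.TitsAll
import Cfsg.Prelude.Def_LieTwisted

set_option autoImplicit false
set_option maxRecDepth 100000
attribute [-simp] Array.getD_eq_getD_getElem?

namespace Cfsg.Agent.Chev.Twist

open Cfsg.Lie Cfsg.Agent.Chev.Tits Cfsg.Agent.Chev.Comm

theorem blocksE6 : blocksOK chevE6 certE6 [[0, 5], [1], [2, 4], [3]] 6 = true := by decide +kernel
theorem blocksD4 : blocksOK chevD4 certD4 [[0, 2, 3], [1]] 3 = true := by decide +kernel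

theorem neg_one_pow_card {K : Type*} [Field K] [Fintype K] {q k : ℕ} (hk : k ≠ 0)
    (hK : Fintype.card K = q ^ k) : (-1 : K) ^ q = -1 := by
  rcases Nat.even_or_odd q with h | h
  · have he : Even (Fintype.card K) := by rw [hK]; exact Nat.even_pow.2 ⟨h, hk⟩
    haveI : CharP K 2 := by
      have := (FiniteField.even_card_iff_char_two (F := K)).2 (Nat.even_iff.1 he)
      exact ringChar.of_eq this
    rw [CharTwo.neg_eq, one_pow]
  · exact h.neg_one_pow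

theorem coreE6 {K : Type*} [Field K] [Fintype K] {q : ℕ} (hK : Fintype.card K = q ^ 2) :
    ((chevE6.borelSubgroup K ⊓ twistedE6 K q).subgroupOf (twistedE6 K q)).normalCore = ⊥ := by
  have hq := neg_one_pow_card two_ne_zero hK
  have G : TGood chevE6 certE6 := ⟨⟨goodE6, repE6, closedE6⟩, posE6, connE6, selfE6⟩
  have hs : chevE6.simple 0 = e6p1 ∧ chevE6.simple 1 = e6p2 ∧ chevE6.simple 2 = e6p3 ∧ chevE6.simple 3 = e6p4 ∧
      chevE6.simple 4 = e6p5 ∧ chevE6.simple 5 = e6p6 ∧ chevE6.neg e6p1 = e6m1 ∧ chevE6.neg e6p2 = e6m2 ∧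
      chevE6.neg e6p3 = e6m3 ∧ chevE6.neg e6p4 = e6m4 ∧ chevE6.neg e6p5 = e6m5 ∧ chevE6.neg e6p6 = e6m6 := by
    decide +kernel
  obtain ⟨s0, s1, s2, s3, s4, s5, n1, n2, n3, n4, n5, n6⟩ := hs
  refine core_trivial G corSimpleE6 blocksE6 _ ?_ ?_
  · intro B hB
    simp only [List.mem_cons, List.not_mem_nil, or_false] at hB
    rcases hB with rfl | rfl | rfl | rfl <;> apply Subgroup.subset_closure
    · exact ⟨[(e6p1, 1), (e6p6, 1 ^ q)], Or.inr ⟨1, (e6p1, e6p6), by simp, rfl⟩,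
        by simp [xb, ChevalleyDatum.wordMat, xG, s0, s5, show chevE6.rank = 6 from rfl]⟩
    · exact ⟨[(e6p2, 1)], Or.inl ⟨1, one_pow _, e6p2, by simp, rfl⟩,
        by simp [xb, ChevalleyDatum.wordMat, xG, s1, show chevE6.rank = 6 from rfl]⟩
    · exact ⟨[(e6p3, 1), (e6p5, 1 ^ q)], Or.inr ⟨1, (e6p3, e6p5), by simp, rfl⟩,
        by simp [xb, ChevalleyDatum.wordMat, xG, s2, s4, show chevE6.rank = 6 from rfl]⟩
    · exact ⟨[(e6p4, 1)], Or.inl ⟨1, one_pow _, e6p4, by simp, rfl⟩,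
        by simp [xb, ChevalleyDatum.wordMat, xG, s3, show chevE6.rank = 6 from rfl]⟩
  · intro B hB
    simp only [List.mem_cons, List.not_mem_nil, or_false] at hB
    rcases hB with rfl | rfl | rfl | rfl <;> apply Subgroup.subset_closure
    · exact ⟨[(e6m1, -1), (e6m6, (-1) ^ q)], Or.inr ⟨-1, (e6m1, e6m6), by simp, rfl⟩,
        by simp [yb, ChevalleyDatum.wordMat, xG, s0, s5, n1, n6, hq, show chevE6.rank = 6 from rfl]⟩
    · exact ⟨[(e6m2, -1)], Or.inl ⟨-1, hq, e6m2, by simp, rfl⟩,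
        by simp [yb, ChevalleyDatum.wordMat, xG, s1, n2, show chevE6.rank = 6 from rfl]⟩
    · exact ⟨[(e6m3, -1), (e6m5, (-1) ^ q)], Or.inr ⟨-1, (e6m3, e6m5), by simp, rfl⟩,
        by simp [yb, ChevalleyDatum.wordMat, xG, s2, s4, n3, n5, hq, show chevE6.rank = 6 from rfl]⟩
    · exact ⟨[(e6m4, -1)], Or.inl ⟨-1, hq, e6m4, by simp, rfl⟩,
        by simp [yb, ChevalleyDatum.wordMat, xG, s3, n4, show chevE6.rank = 6 from rfl]⟩

theorem coreD4 {K : Type*} [Field K] [Fintype K] {q : ℕ} (hK : Fintype.card K = q ^ 3) :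
    ((chevD4.borelSubgroup K ⊓ twistedD4 K q).subgroupOf (twistedD4 K q)).normalCore = ⊥ := by
  have hq := neg_one_pow_card three_ne_zero hK
  have hq2 : (-1 : K) ^ (q ^ 2) = -1 := by rw [pow_two, pow_mul, hq, hq]
  have G : TGood chevD4 certD4 := ⟨⟨goodD4, repD4, closedD4⟩, posD4, connD4, selfD4⟩
  have hs : chevD4.simple 0 = d4p1 ∧ chevD4.simple 1 = d4p2 ∧ chevD4.simple 2 = d4p3 ∧ chevD4.simple 3 = d4p4 ∧
      chevD4.neg d4p1 = d4m1 ∧ chevD4.neg d4p2 = d4m2 ∧ chevD4.neg d4p3 = d4m3 ∧ chevD4.neg d4p4 = d4m4 := by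
    decide +kernel
  obtain ⟨s0, s1, s2, s3, n1, n2, n3, n4⟩ := hs
  refine core_trivial G corSimpleD4 blocksD4 _ ?_ ?_
  · intro B hB
    simp only [List.mem_cons, List.not_mem_nil, or_false] at hB
    rcases hB with rfl | rfl <;> apply Subgroup.subset_closure
    · exact ⟨[(d4p1, 1), (d4p3, 1 ^ q), (d4p4, 1 ^ (q ^ 2))], Or.inr ⟨1, (d4p1, d4p3, d4p4), by simp, rfl⟩,
        by simp [xb, ChevalleyDatum.wordMat, xG, s0, s2, s3, show chevD4.rank = 4 from rfl]⟩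
    · exact ⟨[(d4p2, 1)], Or.inl ⟨1, one_pow _, d4p2, by simp, rfl⟩,
        by simp [xb, ChevalleyDatum.wordMat, xG, s1, show chevD4.rank = 4 from rfl]⟩
  · intro B hB
    simp only [List.mem_cons, List.not_mem_nil, or_false] at hB
    rcases hB with rfl | rfl <;> apply Subgroup.subset_closure
    · exact ⟨[(d4m1, -1), (d4m3, (-1) ^ q), (d4m4, (-1) ^ (q ^ 2))], Or.inr ⟨-1, (d4m1, d4m3, d4m4), by simp, rfl⟩,
        by simp [yb, ChevalleyDatum.wordMat, xG, s0, s2, s3, n1, n3, n4, hq, hq2, show chevD4.rank = 4 from rfl]⟩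
    · exact ⟨[(d4m2, -1)], Or.inl ⟨-1, hq, d4m2, by simp, rfl⟩,
        by simp [yb, ChevalleyDatum.wordMat, xG, s1, n2, show chevD4.rank = 4 from rfl]⟩

end Cfsg.Agent.Chev.Twist
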