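import Cfsg.Agent.Chev.RepCheck
import Cfsg.Prelude.Def_ChevStructure
import Mathlib.GroupTheory.Coxeter.Matrix

set_option autoImplicit false

namespace Cfsg.Agent.Chev.Tits

open Cfsg.Lie

/-- The word fixes every fundamental root. -/
def fixB (D : ChevalleyDatum) (c : Cert) (L : List ℕ) : Bool :=
  (List.range D.rank).all fun m => Nat.beq (wimB c L (D.simple m)) (D.simple m)

/-- The image of the word in the Weyl group has the stated order. -/
def ordB (D : ChevalleyDatum) (c : Cert) (L : List ℕ) (m : ℕ) : Bool :=
  Nat.blt 0 m && fixB D c (List.replicate m L).flatten &&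
    (List.range m).all fun k => Nat.beq k 0 || !fixB D c (List.replicate k L).flatten

/-- The products of two fundamental reflections have the orders of the matrix. -/
def coxOK (D : ChevalleyDatum) (c : Cert) (M : CoxeterMatrix (Fin D.rank)) : Bool :=
  (List.finRange D.rank).all fun i => (List.finRange D.rank).all fun j =>
    ordB D c [i.val, j.val] (M i j)

end Cfsg.Agent.Chev.Tits
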