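import Cfsg.Agent.Chev.Count
import Cfsg.Agent.Chev.WeylCheck
import Cfsg.Agent.BN.Coxeter

/-!
`N / H` of a Chevalley group is the Coxeter group of the type.
-/

set_option autoImplicit false
attribute [-simp] Array.getD_eq_getD_getElem?

namespace Cfsg.Agent.Chev.Tits

open Cfsg.Lie Cfsg.Agent.Chev.Comm

variable {D : ChevalleyDatum} {c : Cert} {F : Type*} [Field F] (G : TGood D c)
include G

omit G in
theorem wimB_eq (L : List ℕ) (s : ℕ) : wimB c L s = wim c L s := rfl

theorem wp_mem_H_iff (hrev : revOK D = true) (hcs : corSimpleOK D = true) {L : List ℕ}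
    (hL : ∀ i ∈ L, i < D.rank) :
    wp G.good F L ∈ D.diagonalSubgroup F ↔ fixB D c L = true := by
  simp only [fixB, List.all_eq_true, List.mem_range]
  constructor
  · intro h m hm
    have he : Eqv G.good F L [] := by simpa [Eqv, wp] using h
    have := (eqv_wim G hrev hL (by simp) he (G.good.simple hm).lt).1
    rw [wimB_eq, this]
    exact Nat.beq_refl _
  · intro h
    have := eqv_of_simple (F := F) G hrev (cor_simple G hcs) (L' := []) hL (by simp) fun m hm => by
      have := Nat.eq_of_beq_eq_true (h m hm)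
      rwa [wimB_eq] at this
    simpa [Eqv, wp] using this

theorem simple_index (hcs : corSimpleOK D = true) {i j : ℕ} (hi : i < D.rank) (hj : j < D.rank)
    (h : D.simple i = D.simple j) : i = j := by
  by_contra hne
  have h1 := cor_simple G hcs i hi j hj
  rw [h, cor_simple G hcs j hj j hj, if_pos rfl, if_neg hne] at h1
  exact one_ne_zero h1

theorem wp_replicate (L : List ℕ) : ∀ k, wp G.good F (List.replicate k L).flatten = wp G.good F L ^ k := by
  intro k
  induction k with
  | zero => simp [wp]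
  | succ k ih => rw [List.replicate_succ, List.flatten_cons, wp_append G, ih, pow_succ']

theorem exists_weyl (hrev : revOK D = true) (hcs : corSimpleOK D = true)
    (M : CoxeterMatrix (Fin D.rank)) (hM : coxOK D c M = true)
    (h1 : D.borelSubgroup F ≤ D.group F) (h2 : D.monomialSubgroup F ≤ D.group F)
    (h3 : D.borelSubgroup F ⊔ D.monomialSubgroup F = D.group F) :
    ∃ φ : ↥(D.monomialSubgroup F) →* M.Group, Function.Surjective φ ∧
      φ.ker = (D.diagonalSubgroup F).subgroupOf (D.monomialSubgroup F) ∧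
      ∀ (i : Fin D.rank) (g : ↥(D.monomialSubgroup F)),
        (g : GL D.Idx F) = nn G.good F i → φ g = M.simple i := by
  obtain ⟨P, hB, hN, hS⟩ := exists_pair G h1 h2 h3
  have : ((P.B ⊓ P.N).subgroupOf P.N).Normal :=
    ⟨fun n hn g => Cfsg.Agent.BN.torus_conj P g.2 hn⟩
  let ι : ↥(D.monomialSubgroup F) →* ↥P.N :=
    { toFun := fun n => ⟨⟨n, h2 n.2⟩, by rw [hN]; exact n.2⟩
      map_one' := rfl
      map_mul' := fun _ _ => rfl }
  have hι : Function.Surjective ι := fun n =>
    ⟨⟨(n : ↥(D.group F)).1, le_of_eq hN n.2⟩, rfl⟩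
  let π := (QuotientGroup.mk' ((P.B ⊓ P.N).subgroupOf P.N)).comp ι
  have hker : ∀ n : ↥(D.monomialSubgroup F), π n = 1 ↔ (n : GL D.Idx F) ∈ D.diagonalSubgroup F := by
    intro n
    rw [← N_inf_B G (F := F)]
    show (QuotientGroup.mk (ι n) : P.N ⧸ _) = 1 ↔ _
    rw [QuotientGroup.eq_one_iff, Subgroup.mem_subgroupOf, Subgroup.mem_inf]
    show (⟨n, h2 n.2⟩ : ↥(D.group F)) ∈ P.B ∧ (⟨n, h2 n.2⟩ : ↥(D.group F)) ∈ P.N ↔ _
    rw [hB, hN]
    rfl
  -- the generators
  have hSmem : ∀ i : Fin D.rank, (⟨nn G.good F i, nn_mem_group G i.2⟩ : ↥(D.group F)) ∈ P.S := by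
    intro i
    rw [hS]
    exact ⟨i, i.2, (by show ((nn G.good F i : GL D.Idx F) : Matrix D.Idx D.Idx F) = _; rw [nn_eq G i.2, nG_val])⟩
  let e : Fin D.rank ≃ P.S := Equiv.ofBijective (fun i => ⟨⟨nn G.good F i, nn_mem_group G i.2⟩, hSmem i⟩) ⟨?_, ?_⟩
  rotate_left
  · intro i j h
    have h' : nn G.good F i = nn G.good F j := congrArg (fun x : P.S => ((x : ↥(D.group F)) : GL D.Idx F)) h
    refine Fin.ext (simple_index G hcs i.2 j.2 (simple_ne (F := F) G i.2 j.2 ?_))
    rw [h', inv_mul_cancel]
    exact one_mem (D.borelSubgroup F)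
  · rintro ⟨x, hx⟩
    have hx' := hx
    rw [hS] at hx'
    obtain ⟨i, hi, hxi⟩ := hx'
    refine ⟨⟨i, hi⟩, Subtype.ext (Subtype.ext (Units.ext ?_))⟩
    show ((nn G.good F i : GL D.Idx F) : Matrix D.Idx D.Idx F) = _
    rw [hxi, nn_eq G hi, nG_val]
  let E := Cfsg.Agent.BN.weylData P
  have hgen : ∀ i : Fin D.rank, E.gen (e i) = π ⟨nn G.good F i, nn_mem_N G i.2⟩ := fun i => rfl
  have hMat : E.matrix.reindex e.symm = M := by
    ext i j
    show orderOf (E.gen (e i) * E.gen (e j)) = M i j
    have h := hM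
    simp only [coxOK, List.all_eq_true, List.mem_finRange, forall_const, ordB, Bool.and_eq_true,
      Bool.or_eq_true, List.mem_range, Nat.blt_eq, Bool.not_eq_true'] at h
    obtain ⟨⟨hpos, hfix⟩, hmin⟩ := h i j
    set L : List ℕ := [i.val, j.val]
    have hL : ∀ k, ∀ x ∈ (List.replicate k L).flatten, x < D.rank := by
      intro k x hx
      obtain ⟨l, hl, hxl⟩ := List.mem_flatten.1 hx
      rw [List.eq_of_mem_replicate hl] at hxl
      rcases List.mem_cons.1 hxl with rfl | hxl
      · exact i.2
      · rw [List.mem_singleton.1 hxl]; exact j.2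
    have hpow : ∀ k, (E.gen (e i) * E.gen (e j)) ^ k = 1 ↔
        fixB D c (List.replicate k L).flatten = true := by
      intro k
      rw [hgen, hgen, ← map_mul, ← map_pow, hker, ← wp_mem_H_iff (F := F) G hrev hcs (hL k),
        wp_replicate G]
      simp [L, wp]
    rw [orderOf_eq_iff hpos]
    refine ⟨(hpow _).2 hfix, fun k hk hk0 hc => ?_⟩
    rcases hmin k hk with h0 | h0
    · exact absurd (Nat.eq_of_beq_eq_true h0) (by omega)
    · rw [(hpow k).1 hc] at h0; exact Bool.noConfusion h0
  let cs := E.coxeterSystem.reindex e.symm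
  rw [← hMat]
  refine ⟨cs.mulEquiv.toMonoidHom.comp π, ?_, ?_, ?_⟩
  · exact cs.mulEquiv.surjective.comp ((QuotientGroup.mk'_surjective _).comp hι)
  · ext n
    rw [MonoidHom.mem_ker, Subgroup.mem_subgroupOf, ← hker]
    exact cs.mulEquiv.map_eq_one_iff
  · intro i g hg
    have hg' : g = ⟨nn G.good F i, nn_mem_N G i.2⟩ := Subtype.ext hg
    subst hg'
    show cs.mulEquiv (π _) = _
    rw [← hgen]
    have : cs.simple i = E.gen (e i) := E.coxeterSystem_simple (e i)
    rw [← this]
    exact cs.mulEquiv.apply_symm_apply _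

/-- A product of fundamental reflections is trivial iff it fixes the fundamental roots. -/
theorem simple_prod_one {M : CoxeterMatrix (Fin D.rank)} (hrev : revOK D = true)
    (hcs : corSimpleOK D = true) {φ : ↥(D.monomialSubgroup F) →* M.Group}
    (hker : φ.ker = (D.diagonalSubgroup F).subgroupOf (D.monomialSubgroup F))
    (hs : ∀ (i : Fin D.rank) (g : ↥(D.monomialSubgroup F)),
      (g : GL D.Idx F) = nn G.good F i → φ g = M.simple i) (L : List (Fin D.rank)) :
    (L.map M.simple).prod = 1 ↔ fixB D c (L.map Fin.val) = true := by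
  have hL : ∀ x ∈ L.map Fin.val, x < D.rank := by
    intro x hx
    obtain ⟨i, -, rfl⟩ := List.mem_map.1 hx
    exact i.2
  have key : ∀ L : List (Fin D.rank), ∀ g : ↥(D.monomialSubgroup F),
      (g : GL D.Idx F) = wp G.good F (L.map Fin.val) → φ g = (L.map M.simple).prod := by
    intro L
    induction L with
    | nil =>
      intro g hg
      have : g = 1 := Subtype.ext (by rw [hg]; simp [wp])
      rw [this, map_one]
      simp
    | cons i L ih =>
      intro g hg
      have hlt : ∀ x ∈ L.map Fin.val, x < D.rank := by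
        intro x hx
        obtain ⟨j, -, rfl⟩ := List.mem_map.1 hx
        exact j.2
      have : g = ⟨nn G.good F i, nn_mem_N G i.2⟩ * ⟨_, wp_mem_N G _ hlt⟩ :=
        Subtype.ext (by rw [hg]; simp [wp])
      rw [this, map_mul, hs i _ rfl, ih _ rfl, List.map_cons, List.prod_cons]
  rw [← key L ⟨_, wp_mem_N G _ hL⟩ rfl, ← MonoidHom.mem_ker, hker, Subgroup.mem_subgroupOf]
  exact wp_mem_H_iff G hrev hcs hL

theorem coxeterElement_order {M : CoxeterMatrix (Fin D.rank)} (hrev : revOK D = true)
    (hcs : corSimpleOK D = true) {φ : ↥(D.monomialSubgroup F) →* M.Group}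
    (hker : φ.ker = (D.diagonalSubgroup F).subgroupOf (D.monomialSubgroup F))
    (hs : ∀ (i : Fin D.rank) (g : ↥(D.monomialSubgroup F)),
      (g : GL D.Idx F) = nn G.good F i → φ g = M.simple i) {h : ℕ}
    (hord : ordB D c (List.range D.rank) h = true) :
    orderOf ((List.finRange D.rank).map M.simple).prod = h := by
  simp only [ordB, Bool.and_eq_true, List.all_eq_true, List.mem_range, Bool.or_eq_true, Nat.blt_eq,
    Bool.not_eq_true'] at hord
  obtain ⟨⟨hpos, hfix⟩, hmin⟩ := hord
  have hpow : ∀ k, ((List.finRange D.rank).map M.simple).prod ^ k = 1 ↔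
      fixB D c (List.replicate k (List.range D.rank)).flatten = true := by
    intro k
    have h1 := simple_prod_one G hrev hcs hker hs (List.replicate k (List.finRange D.rank)).flatten
    rw [List.map_flatten, List.map_flatten, List.map_replicate, List.map_replicate,
      List.map_coe_finRange_eq_range, List.prod_flatten, List.map_replicate, List.prod_replicate] at h1
    exact h1
  rw [orderOf_eq_iff hpos]
  refine ⟨(hpow _).2 hfix, fun k hk hk0 hc => ?_⟩
  rcases hmin k hk with h0 | h0
  · exact absurd (Nat.eq_of_beq_eq_true h0) (by omega)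
  · rw [(hpow k).1 hc] at h0; exact Bool.noConfusion h0

theorem card_weyl {M : CoxeterMatrix (Fin D.rank)} (hrev : revOK D = true)
    (hcs : corSimpleOK D = true) (Ls : ℕ → Lev) (h : ∀ m < D.rank, levOK D c m (Ls m) = true)
    {φ : ↥(D.monomialSubgroup F) →* M.Group} (hsurj : Function.Surjective φ)
    (hker : φ.ker = (D.diagonalSubgroup F).subgroupOf (D.monomialSubgroup F)) :
    Nat.card M.Group = ∏ m ∈ Finset.range D.rank, (Ls m).reps.length := by
  set C := combos Ls D.rank
  have hinj := combos_inj (F := F) G hrev Ls D.rank le_rfl h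
  have hlt := combos_lt Ls D.rank h
  have heq : ∀ {a b : ↥(D.monomialSubgroup F)}, φ a = φ b ↔
      ((b : GL D.Idx F))⁻¹ * a ∈ D.diagonalSubgroup F := by
    intro a b
    have : φ a = φ b ↔ b⁻¹ * a ∈ φ.ker := by
      rw [MonoidHom.mem_ker, map_mul, map_inv, inv_mul_eq_one, eq_comm]
    rw [this, hker, Subgroup.mem_subgroupOf]
    rfl
  let f : Fin C.length → M.Group := fun i => φ ⟨_, wp_mem_N G _ (hlt _ (List.getElem_mem i.2))⟩
  have hb : Function.Bijective f := by
    constructor
    · intro i j e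
      rcases lt_trichotomy i.val j.val with hl | hl | hl
      · exact absurd (heq.1 e) (List.pairwise_iff_getElem.1 hinj i j i.2 j.2 hl)
      · exact Fin.ext hl
      · exact absurd (heq.1 e.symm) (List.pairwise_iff_getElem.1 hinj j i j.2 i.2 hl)
    · intro y
      obtain ⟨n, rfl⟩ := hsurj y
      obtain ⟨k, hk, L, hL, en⟩ := N_word G n.2
      obtain ⟨w, hw, ew⟩ := word_in_combos (F := F) G hrev hcs Ls h L hL
      obtain ⟨i, hi, rfl⟩ := List.getElem_of_mem hw
      refine ⟨⟨i, hi⟩, (heq.2 ?_).symm⟩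
      have hwn := wp_mem_N (F := F) G _ (hlt _ (List.getElem_mem hi))
      have := mul_mem (norm_H' G hwn hk) ew
      convert this using 1
      show (wp G.good F C[i])⁻¹ * (n : GL D.Idx F) = _
      rw [en]
      group
      rfl
  rw [← Nat.card_eq_of_bijective f hb, Nat.card_fin]
  have hsum := combos_sum 1 Ls D.rank
  simpa using hsum

end Cfsg.Agent.Chev.Tits
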