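import Mathlib.Algebra.Field.ZMod
import Cfsg.Agent.Chev.Weyl
import Cfsg.Agent.Chev.RepAll
import Cfsg.Agent.Chev.UnipOrd
import Cfsg.Agent.S1043

set_option autoImplicit false
set_option maxRecDepth 100000

namespace Cfsg.Agent.Chev.Tits

open Cfsg.Lie Cfsg.Agent.Chev.Comm

theorem coxG2 : coxOK chevG2 certG2 CoxeterMatrix.G₂ = true := by decide +kernel
theorem coxB2 : coxOK chevB2 certB2 (CoxeterMatrix.B 2) = true := by decide +kernel
theorem coxD4 : coxOK chevD4 certD4 Cfsg.Lie.coxeterD4 = true := by decide +kernel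
theorem coxF4 : coxOK chevF4 certF4 CoxeterMatrix.F₄ = true := by decide +kernel
theorem coxE6 : coxOK chevE6 certE6 CoxeterMatrix.E₆ = true := by decide +kernel
theorem coxE7 : coxOK chevE7 certE7 CoxeterMatrix.E₇ = true := by decide +kernel
theorem coxE8 : coxOK chevE8 certE8 CoxeterMatrix.E₈ = true := by decide +kernel

theorem ordG2 : ordB chevG2 certG2 (List.range chevG2.rank) 6 = true := by decide +kernel
theorem ordB2 : ordB chevB2 certB2 (List.range chevB2.rank) 4 = true := by decide +kernel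
theorem ordD4 : ordB chevD4 certD4 (List.range chevD4.rank) 6 = true := by decide +kernel
theorem ordF4 : ordB chevF4 certF4 (List.range chevF4.rank) 12 = true := by decide +kernel
theorem ordE6 : ordB chevE6 certE6 (List.range chevE6.rank) 12 = true := by decide +kernel
theorem ordE7 : ordB chevE7 certE7 (List.range chevE7.rank) 18 = true := by decide +kernel
theorem ordE8 : ordB chevE8 certE8 (List.range chevE8.rank) 30 = true := by decide +kernel

theorem cardG2 : (∏ m ∈ Finset.range 2, (levsG2 m).reps.length) = 12 := by decide +kernel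
theorem cardB2 : (∏ m ∈ Finset.range 2, (levsB2 m).reps.length) = 8 := by decide +kernel
theorem cardD4 : (∏ m ∈ Finset.range 4, (levsD4 m).reps.length) = 192 := by decide +kernel
theorem cardF4 : (∏ m ∈ Finset.range 4, (levsF4 m).reps.length) = 1152 := by decide +kernel
theorem cardE6 : (∏ m ∈ Finset.range 6, (levsE6 m).reps.length) = 51840 := by decide +kernel
theorem cardE7 : (∏ m ∈ Finset.range 7, (levsE7 m).reps.length) = 2903040 := by decide +kernel
theorem cardE8 : (∏ m ∈ Finset.range 8, (levsE8 m).reps.length) = 696729600 := by decide +kernel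

theorem weyl_of_mem {F : Type*} [Field F] {D : ChevalleyDatum} {c : Cert}
    (hD : D ∈ [chevG2, chevB2, chevD4, chevF4, chevE6, chevE7, chevE8])
    (G : TGood D c) (hcs : corSimpleOK D = true)
    (M : CoxeterMatrix (Fin D.rank)) (hM : coxOK D c M = true) :
    ∃ φ : ↥(D.monomialSubgroup F) →* M.Group, Function.Surjective φ ∧
      φ.ker = (D.diagonalSubgroup F).subgroupOf (D.monomialSubgroup F) ∧
      ∀ (i : Fin D.rank) (g : ↥(D.monomialSubgroup F)),
        (g : GL D.Idx F) = nn G.good F i → φ g = M.simple i := by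
  obtain ⟨h1, h2, h3⟩ := Cfsg.Agent.S1043.result (F := F) D hD
  exact exists_weyl G (rev_of_mem hD) hcs M hM h1 h2 h3

theorem quot_of_mem {F : Type*} [Field F] {D : ChevalleyDatum} {c : Cert}
    (hD : D ∈ [chevG2, chevB2, chevD4, chevF4, chevE6, chevE7, chevE8])
    (G : TGood D c) (hcs : corSimpleOK D = true)
    (M : CoxeterMatrix (Fin D.rank)) (hM : coxOK D c M = true) :
    ∃ φ : ↥(D.monomialSubgroup F) →* M.Group, Function.Surjective φ ∧
      φ.ker = (D.diagonalSubgroup F).subgroupOf (D.monomialSubgroup F) ∧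
      ∀ (i : Fin D.rank) (g : ↥(D.monomialSubgroup F)),
        ((g : GL D.Idx F) : Matrix D.Idx D.Idx F) = D.nMat F (D.simple i) 1 →
          φ g = M.simple i := by
  obtain ⟨φ, h1, h2, h3⟩ := weyl_of_mem (F := F) hD G hcs M hM
  refine ⟨φ, h1, h2, fun i g hg => h3 i g (Units.ext ?_)⟩
  rw [hg, nn_eq G i.2, nG_val]

theorem order_of_mem {D : ChevalleyDatum} {c : Cert}
    (hD : D ∈ [chevG2, chevB2, chevD4, chevF4, chevE6, chevE7, chevE8])
    (G : TGood D c) (hcs : corSimpleOK D = true)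
    (M : CoxeterMatrix (Fin D.rank)) (hM : coxOK D c M = true) {h : ℕ}
    (hh : ordB D c (List.range D.rank) h = true) :
    orderOf ((List.finRange D.rank).map M.simple).prod = h := by
  haveI : Fact (Nat.Prime 2) := ⟨Nat.prime_two⟩
  obtain ⟨φ, -, h2, h3⟩ := weyl_of_mem (F := ZMod 2) hD G hcs M hM
  exact coxeterElement_order G (rev_of_mem hD) hcs h2 h3 hh

theorem card_of_mem {D : ChevalleyDatum} {c : Cert}
    (hD : D ∈ [chevG2, chevB2, chevD4, chevF4, chevE6, chevE7, chevE8])
    (G : TGood D c) (hcs : corSimpleOK D = true)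
    (M : CoxeterMatrix (Fin D.rank)) (hM : coxOK D c M = true) (Ls : ℕ → Lev)
    (h : ∀ m < D.rank, levOK D c m (Ls m) = true) :
    Nat.card M.Group = ∏ m ∈ Finset.range D.rank, (Ls m).reps.length := by
  haveI : Fact (Nat.Prime 2) := ⟨Nat.prime_two⟩
  obtain ⟨φ, h1, h2, -⟩ := weyl_of_mem (F := ZMod 2) hD G hcs M hM
  exact card_weyl G (rev_of_mem hD) hcs Ls h h1 h2

theorem tgG2 : TGood chevG2 certG2 := ⟨⟨goodG2, repG2, closedG2⟩, posG2, connG2, selfG2⟩
theorem tgB2 : TGood chevB2 certB2 := ⟨⟨goodB2, repB2, closedB2⟩, posB2, connB2, selfB2⟩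
theorem tgD4 : TGood chevD4 certD4 := ⟨⟨goodD4, repD4, closedD4⟩, posD4, connD4, selfD4⟩
theorem tgF4 : TGood chevF4 certF4 := ⟨⟨goodF4, repF4, closedF4⟩, posF4, connF4, selfF4⟩
theorem tgE6 : TGood chevE6 certE6 := ⟨⟨goodE6, repE6, closedE6⟩, posE6, connE6, selfE6⟩
theorem tgE7 : TGood chevE7 certE7 := ⟨⟨goodE7, repE7, closedE7⟩, posE7, connE7, selfE7⟩
theorem tgE8 : TGood chevE8 certE8 := ⟨⟨goodE8, repE8, closedE8⟩, posE8, connE8, selfE8⟩

end Cfsg.Agent.Chev.Tits
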