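import Cfsg.Agent.Chev.WeylCheck

set_option autoImplicit false

namespace Cfsg.Agent.Chev.Tits

open Cfsg.Lie

/-- The word negates every fundamental root and commutes with every fundamental reflection. -/
def minusB (D : ChevalleyDatum) (c : Cert) (L : List ℕ) : Bool :=
  ((List.range D.rank).all fun m => Nat.beq (wimB c L (D.simple m)) (D.neg (D.simple m))) &&
    (List.range D.rank).all fun i => fixB D c (L ++ [i] ++ L.reverse ++ [i])

/-- Coordinates of negatives, and the roots negated by a fundamental reflection. -/
def negSimpleB (D : ChevalleyDatum) (c : Cert) : Bool :=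
  ((List.range D.nroots).all fun s => (List.range D.rank).all fun k =>
      decide (cor D (D.neg s) k = -cor D s k)) &&
    (List.range D.nroots).all fun s => (List.range D.rank).all fun i =>
      !Nat.beq (c.im i s) (D.neg s) || Nat.beq s (D.simple i) || Nat.beq s (D.neg (D.simple i))

/-- The diagram is connected, read off from the reflections of the fundamental roots. -/
def linkB (D : ChevalleyDatum) (c : Cert) : Bool :=
  (List.range D.rank).sublists.all fun A => A.isEmpty || Nat.beq A.length D.rank ||
    A.any fun i => (List.range D.rank).any fun j =>
      !A.contains j && decide (cor D (c.im i (D.simple j)) i ≠ 0) &&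
        decide (cor D (c.im i (D.simple j)) j ≠ 0)

/-- A vector fixed modulo `3` by all reflections, not fixed by minus one. -/
def invVecB (D : ChevalleyDatum) (v : List ℤ) : Bool :=
  ((List.range D.rank).all fun i =>
      decide (((List.range D.rank).map fun n => v.getD n 0 * D.cartan n (D.simple i)).sum % 3 = 0)) &&
    (List.range D.rank).any fun j => decide ((2 * v.getD j 0) % 3 ≠ 0)

/-- The product of the cited members. -/
def citeW (K : List (List ℕ)) (refs : List ℕ) : List ℕ :=
  (refs.map fun a => K.getD a []).flatten

/-- Words in the subgroup generated by the starting words. -/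
def derivB (D : ChevalleyDatum) (c : Cert) : List (List ℕ) → List (List ℕ × List ℕ) → List ℕ → Bool
  | K, [], w => (List.range K.length).any fun a => fixB D c (K.getD a [] ++ w.reverse)
  | K, (v, refs) :: t, w =>
    v.all (fun i => Nat.blt i D.rank) && fixB D c (citeW K refs ++ v.reverse) &&
      derivB D c (K ++ [v]) t w

end Cfsg.Agent.Chev.Tits
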