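import Cfsg.Agent.Chev.WeylAll
import Cfsg.Agent.Chev.WeylElemsCheck

/-!
The centre and generators of the exceptional Weyl groups.
-/

set_option autoImplicit false
attribute [-simp] Array.getD_eq_getD_getElem?

namespace Cfsg.Agent.Chev.Tits

open Cfsg.Lie Cfsg.Agent.Chev.Comm

variable {D : ChevalleyDatum} {c : Cert}

/-- The element of the Coxeter group of a word. -/
def wel (M : CoxeterMatrix (Fin D.rank)) (L : List ℕ) : M.Group :=
  (L.map fun i => if h : i < D.rank then M.simple ⟨i, h⟩ else 1).prod

theorem wel_append (M : CoxeterMatrix (Fin D.rank)) (A B : List ℕ) :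
    wel M (A ++ B) = wel M A * wel M B := by simp [wel]

theorem wel_flatten (M : CoxeterMatrix (Fin D.rank)) : ∀ A : List (List ℕ),
    wel M A.flatten = (A.map (wel M)).prod
  | [] => rfl
  | a :: A => by rw [List.flatten_cons, wel_append, wel_flatten M A]; simp

theorem wel_reverse (M : CoxeterMatrix (Fin D.rank)) : ∀ A : List ℕ,
    wel M A.reverse = (wel M A)⁻¹
  | [] => by simp [wel]
  | a :: A => by
    rw [List.reverse_cons, wel_append, wel_reverse M A, show a :: A = [a] ++ A from rfl, wel_append,
      mul_inv_rev]
    congr 1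
    refine (inv_eq_of_mul_eq_one_right ?_).symm
    simp only [wel, List.map_cons, List.map_nil, List.prod_cons, List.prod_nil, mul_one]
    split
    · exact M.toCoxeterSystem.simple_mul_simple_self _
    · exact mul_one 1

theorem wel_map_val (M : CoxeterMatrix (Fin D.rank)) (L : List (Fin D.rank)) :
    wel M (L.map Fin.val) = (L.map M.simple).prod := by
  rw [wel, List.map_map]
  congr 1
  exact List.map_congr_left fun i _ => by simp

theorem wel_surjective (M : CoxeterMatrix (Fin D.rank)) (z : M.Group) :
    ∃ L : List ℕ, (∀ i ∈ L, i < D.rank) ∧ wel M L = z := by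
  obtain ⟨L, rfl⟩ := M.toCoxeterSystem.wordProd_surjective z
  exact ⟨L.map Fin.val, fun i hi => by obtain ⟨j, -, rfl⟩ := List.mem_map.1 hi; exact j.2,
    wel_map_val M L⟩

variable (G : TGood D c)
include G

theorem wel_eq_one {M : CoxeterMatrix (Fin D.rank)}
    (hD : D ∈ [chevG2, chevB2, chevD4, chevF4, chevE6, chevE7, chevE8])
    (hcs : corSimpleOK D = true) (hM : coxOK D c M = true) {L : List ℕ}
    (hL : ∀ i ∈ L, i < D.rank) : wel M L = 1 ↔ fixB D c L = true := by
  haveI : Fact (Nat.Prime 2) := ⟨Nat.prime_two⟩
  obtain ⟨φ, -, h2, h3⟩ := weyl_of_mem (F := ZMod 2) hD G hcs M hM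
  have h := simple_prod_one G (rev_of_mem hD) hcs h2 h3 (L.pmap Fin.mk hL)
  rwa [← wel_map_val, List.map_pmap, List.pmap_eq_map, List.map_id'] at h

theorem fixB_all {L : List ℕ} (hrev : revOK D = true) (hcs : corSimpleOK D = true)
    (hL : ∀ i ∈ L, i < D.rank) (h : fixB D c L = true) {s : ℕ} (hs : s < D.nroots) :
    wim c L s = s := by
  haveI : Fact (Nat.Prime 2) := ⟨Nat.prime_two⟩
  have he : Eqv G.good (ZMod 2) L [] := by
    simpa [Eqv, wp] using (wp_mem_H_iff (F := ZMod 2) G hrev hcs hL).2 h
  exact (eqv_wim G hrev hL (by simp) he hs).1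

theorem center_aux {M : CoxeterMatrix (Fin D.rank)}
    (hD : D ∈ [chevG2, chevB2, chevD4, chevF4, chevE6, chevE7, chevE8])
    (hcs : corSimpleOK D = true) (hM : coxOK D c M = true) (hneg : negSimpleB D c = true)
    (hlink : linkB D c = true) {z : M.Group} (hz : z ∈ Subgroup.center M.Group) :
    ∃ L : List ℕ, (∀ i ∈ L, i < D.rank) ∧ wel M L = z ∧
      (z = 1 ∨ ∀ m < D.rank, wim c L (D.simple m) = D.neg (D.simple m)) := by
  obtain ⟨L, hL, rfl⟩ := wel_surjective M z
  refine ⟨L, hL, rfl, ?_⟩
  have hrev := rev_of_mem hD
  simp only [negSimpleB, Bool.and_eq_true, List.all_eq_true, List.mem_range, Bool.or_eq_true,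
    decide_eq_true_eq, Bool.not_eq_true'] at hneg
  obtain ⟨hneg1, hneg2⟩ := hneg
  -- `z` commutes with the reflections on all roots
  have hcomm : ∀ i < D.rank, ∀ s < D.nroots, c.im i (wim c L s) = wim c L (c.im i s) := by
    intro i hi s hs
    have h1 : wel M ([i] ++ L ++ [i] ++ L.reverse) = 1 := by
      have : wel M [i] * wel M [i] = 1 := by
        have := wel_reverse M [i]
        rw [List.reverse_singleton] at this
        nth_rewrite 2 [this]
        exact mul_inv_cancel _
      rw [wel_append, wel_append, wel_append, wel_reverse, Subgroup.mem_center_iff.1 hz (wel M [i]),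
        mul_assoc (wel M L), this, mul_one, mul_inv_cancel]
    have hR : ∀ j ∈ [i] ++ L ++ [i] ++ L.reverse, j < D.rank := by
      intro j hj
      simp only [List.mem_append, List.mem_singleton, List.mem_reverse] at hj
      rcases hj with ((rfl | hj) | rfl) | hj
      · exact hi
      · exact hL j hj
      · exact hi
      · exact hL j hj
    have hs' := wim_lt G L hL s hs
    have h2 := fixB_all G hrev hcs hR ((wel_eq_one G hD hcs hM hR).1 h1) hs'
    rw [wim_append G, wim_append G, wim_append G, (wim_inv G L hL s hs).1] at h2
    have h3 : c.im i (wim c L (c.im i s)) = wim c L s := h2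
    have h4 := congrArg (c.im i) h3
    rw [(G.good.refl hi (wim_lt G L hL _ (G.good.refl hi hs).lt)).invol] at h4
    exact h4.symm
  have hpm : ∀ m < D.rank, wim c L (D.simple m) = D.simple m ∨
      wim c L (D.simple m) = D.neg (D.simple m) := by
    intro m hm
    have hp := (G.good.simple hm).lt
    have h := hcomm m hm _ hp
    rw [(G.good.simple hm).im_self, wim_neg G L hL _ hp] at h
    rcases hneg2 _ (wim_lt G L hL _ hp) m hm with (h' | h') | h'
    · rw [h] at h'; simp at h'
    · exact Or.inl (Nat.eq_of_beq_eq_true h')
    · exact Or.inr (Nat.eq_of_beq_eq_true h')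
  classical
  let ε : ℕ → ℤ := fun m => if wim c L (D.simple m) = D.simple m then 1 else -1
  let A := (List.range D.rank).filter fun m => decide (wim c L (D.simple m) = D.simple m)
  have hA : ∀ m, m ∈ A ↔ m < D.rank ∧ wim c L (D.simple m) = D.simple m := by simp [A]
  have hlink' := hlink
  simp only [linkB, List.all_eq_true, List.mem_sublists, Bool.or_eq_true, List.isEmpty_iff,
    List.any_eq_true, List.mem_range, Bool.and_eq_true, Bool.not_eq_true', List.contains_eq_mem,
    decide_eq_false_iff_not, decide_eq_true_eq] at hlink'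
  rcases hlink' A List.filter_sublist with (h | h) | ⟨i, hiA, j, hj, ⟨hjA, hci⟩, hcj⟩
  · right
    intro m hm
    refine (hpm m hm).resolve_left fun e => ?_
    have := (hA m).2 ⟨hm, e⟩
    rw [h] at this
    simp at this
  · left
    have hfull : A = List.range D.rank :=
      List.filter_sublist.eq_of_length (by simpa using Nat.eq_of_beq_eq_true h)
    refine (wel_eq_one G hD hcs hM hL).2 ?_
    simp only [fixB, List.all_eq_true, List.mem_range]
    intro m hm
    rw [wimB_eq, ((hA m).1 (hfull ▸ List.mem_range.2 hm)).2]
    exact Nat.beq_refl _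
  · exfalso
    obtain ⟨hi, hiε⟩ := (hA i).1 hiA
    have hjε : wim c L (D.simple j) = D.neg (D.simple j) :=
      (hpm j hj).resolve_left fun e => hjA ((hA j).2 ⟨hj, e⟩)
    set x := c.im i (D.simple j) with hx
    have hxlt : x < D.nroots := (G.good.refl hi (G.good.simple hj).lt).lt
    have hzx : wim c L x = D.neg x := by
      rw [hx, ← hcomm i hi _ (G.good.simple hj).lt, hjε,
        (G.good.refl hi (G.good.simple hj).lt).im_neg]
    have hlin := cor_lin G (cor_simple G hcs) L hL x hxlt i hi
    rw [hzx, Finset.sum_eq_single i, hiε, cor_simple G hcs i hi i hi, if_pos rfl, mul_one] at hlin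
    · have h1 := hneg1 x hxlt i hi
      unfold cor at h1 hci
      omega
    · intro m hm hne
      rw [Finset.mem_range] at hm
      rcases hpm m hm with e | e
      · rw [e, cor_simple G hcs m hm i hi, if_neg hne, mul_zero]
      · have h1 := hneg1 _ (G.good.simple hm).lt i hi
        unfold cor at h1
        rw [e, h1, cor_simple G hcs m hm i hi, if_neg hne]
        simp
    · intro h; exact absurd (Finset.mem_range.2 hi) h

theorem center_two {M : CoxeterMatrix (Fin D.rank)}
    (hD : D ∈ [chevG2, chevB2, chevD4, chevF4, chevE6, chevE7, chevE8])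
    (hcs : corSimpleOK D = true) (hM : coxOK D c M = true) (hneg : negSimpleB D c = true)
    (hlink : linkB D c = true) (k : ℕ)
    (hk : minusB D c (List.replicate k (List.range D.rank)).flatten = true) :
    Nat.card (Subgroup.center M.Group) = 2 ∧
      Subgroup.center M.Group ≤
        Subgroup.zpowers ((List.finRange D.rank).map M.simple).prod := by
  set Z := (List.replicate k (List.range D.rank)).flatten with hZdef
  have hZ : ∀ i ∈ Z, i < D.rank := by
    intro i hi
    obtain ⟨l, hl, hil⟩ := List.mem_flatten.1 hi
    rw [List.eq_of_mem_replicate hl] at hil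
    exact List.mem_range.1 hil
  simp only [minusB, Bool.and_eq_true, List.all_eq_true, List.mem_range] at hk
  obtain ⟨hk1, hk2⟩ := hk
  have hm0 : ∀ m < D.rank, wim c Z (D.simple m) = D.neg (D.simple m) := fun m hm => by
    rw [← wimB_eq]; exact Nat.eq_of_beq_eq_true (hk1 m hm)
  set z := wel M Z
  have hrank : 0 < D.rank := by
    simp only [List.mem_cons, List.not_mem_nil, or_false] at hD
    rcases hD with rfl | rfl | rfl | rfl | rfl | rfl | rfl <;> decide
  have hne : z ≠ 1 := by
    intro h
    have h1 := (wel_eq_one G hD hcs hM hZ).1 h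
    simp only [fixB, List.all_eq_true, List.mem_range] at h1
    have h2 := Nat.eq_of_beq_eq_true (h1 0 hrank)
    rw [wimB_eq, hm0 0 hrank] at h2
    have h4 := (neg_side G (G.good.simple hrank).lt).2 (by rw [h2]; exact (G.good.simple hrank).pos)
    have := (G.good.simple hrank).pos
    omega
  have hzc : z ∈ Subgroup.center M.Group := by
    refine Subgroup.mem_center_iff.2 fun g => ?_
    refine M.toCoxeterSystem.simple_induction_left (p := fun g => g * z = z * g) g (by simp) fun w i hw => ?_
    have hR : ∀ j ∈ Z ++ [i.val] ++ Z.reverse ++ [i.val], j < D.rank := by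
      intro j hj
      simp only [List.mem_append, List.mem_singleton, List.mem_reverse] at hj
      rcases hj with ((hj | rfl) | hj) | rfl
      · exact hZ j hj
      · exact i.2
      · exact hZ j hj
      · exact i.2
    have h := (wel_eq_one G hD hcs hM hR).2 (hk2 i i.2)
    rw [wel_append, wel_append, wel_append, wel_reverse] at h
    have hs : wel M [i.val] = M.toCoxeterSystem.simple i := by
      simp only [wel, List.map_cons, List.map_nil, List.prod_cons, List.prod_nil, mul_one, dif_pos i.2]
      rfl
    rw [hs] at h
    have h' : M.toCoxeterSystem.simple i * z = z * M.toCoxeterSystem.simple i := by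
      have := M.toCoxeterSystem.simple_mul_simple_self i
      calc M.toCoxeterSystem.simple i * z
          = (z * M.toCoxeterSystem.simple i * z⁻¹ * M.toCoxeterSystem.simple i)⁻¹ *
              (z * M.toCoxeterSystem.simple i * z⁻¹ *
                (M.toCoxeterSystem.simple i * M.toCoxeterSystem.simple i) * z) := by group
        _ = _ := by rw [h, this]; group
    rw [mul_assoc, hw, ← mul_assoc, h', mul_assoc]
  have hset : (Subgroup.center M.Group : Set M.Group) = {1, z} := by
    ext y
    constructor
    · intro hy
      obtain ⟨L, hL, rfl, h | h⟩ := center_aux G hD hcs hM hneg hlink hy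
      · exact Or.inl h
      · refine Or.inr ?_
        have hLZ : ∀ i ∈ L ++ Z.reverse, i < D.rank := by
          intro i hi
          rcases List.mem_append.1 hi with hi | hi
          · exact hL i hi
          · exact hZ i (List.mem_reverse.1 hi)
        refine mul_inv_eq_one.1 ?_
        rw [← wel_reverse, ← wel_append, wel_eq_one G hD hcs hM hLZ]
        simp only [fixB, List.all_eq_true, List.mem_range]
        intro m hm
        have hp := (G.good.simple hm).lt
        have h5 : wim c Z.reverse (D.simple m) = D.neg (D.simple m) := by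
          have h6 := (wim_inv G Z hZ _ (G.good.neg_lt hp)).1
          rwa [wim_neg G Z hZ _ hp, hm0 m hm, G.good.neg_neg hp] at h6
        rw [wimB_eq, wim_append G, h5, wim_neg G L hL _ hp, h m hm, G.good.neg_neg hp]
        exact Nat.beq_refl _
    · rintro (rfl | rfl)
      · exact one_mem _
      · exact hzc
  refine ⟨?_, ?_⟩
  · show Nat.card (Subgroup.center M.Group : Set M.Group) = 2
    rw [Nat.card_coe_set_eq, hset, Set.ncard_pair hne.symm]
  · intro y hy
    rw [← SetLike.mem_coe, hset] at hy
    have hz : z = ((List.finRange D.rank).map M.simple).prod ^ k := by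
      rw [← wel_map_val, List.map_coe_finRange_eq_range]
      show wel M Z = _
      rw [hZdef, wel_flatten, List.map_replicate, List.prod_replicate]
    rcases hy with rfl | rfl
    · exact one_mem _
    · rw [hz]; exact pow_mem (Subgroup.mem_zpowers _) _

theorem center_trivial {M : CoxeterMatrix (Fin D.rank)}
    (hD : D ∈ [chevG2, chevB2, chevD4, chevF4, chevE6, chevE7, chevE8])
    (hcs : corSimpleOK D = true) (hM : coxOK D c M = true) (hneg : negSimpleB D c = true)
    (hlink : linkB D c = true) (v : List ℤ) (hv : invVecB D v = true) :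
    Subgroup.center M.Group = ⊥ := by
  rw [Subgroup.eq_bot_iff_forall]
  intro y hy
  obtain ⟨L, hL, rfl, h | h⟩ := center_aux G hD hcs hM hneg hlink hy
  · exact h
  exfalso
  simp only [invVecB, Bool.and_eq_true, List.all_eq_true, List.any_eq_true, List.mem_range,
    decide_eq_true_eq] at hv
  obtain ⟨hv1, j, hj, hv2⟩ := hv
  simp only [negSimpleB, Bool.and_eq_true, List.all_eq_true, List.mem_range,
    decide_eq_true_eq] at hneg
  have key : ∀ L : List ℕ, (∀ i ∈ L, i < D.rank) → ∀ k < D.rank,
      (((List.range D.rank).map fun m => v.getD m 0 * cor D (wim c L (D.simple m)) k).sum -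
        v.getD k 0) % 3 = 0 := by
    intro L
    induction L with
    | nil =>
      intro _ k hk
      have : ((List.range D.rank).map fun m => v.getD m 0 * cor D (D.simple m) k).sum = v.getD k 0 := by
        rw [← List.sum_toFinset _ List.nodup_range, List.toFinset_range]
        rw [Finset.sum_eq_single k]
        · unfold cor; rw [cor_simple G hcs k hk k hk, if_pos rfl, mul_one]
        · intro m hm hne
          unfold cor
          rw [cor_simple G hcs m (Finset.mem_range.1 hm) k hk, if_neg hne, mul_zero]
        · intro h; exact absurd (Finset.mem_range.2 hk) h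
      simp only [wim, List.foldr_nil, this, sub_self, Int.zero_emod]
    | cons i L ih =>
      intro hL k hk
      have hi := hL i (by simp)
      have hL' : ∀ a ∈ L, a < D.rank := fun a ha => hL a (List.mem_cons_of_mem _ ha)
      have hstep : ∀ m ∈ List.range D.rank,
          v.getD m 0 * cor D (wim c (i :: L) (D.simple m)) k =
            v.getD m 0 * cor D (wim c L (D.simple m)) k -
              if k = i then v.getD m 0 * ((List.range D.rank).map fun n =>
                cor D (wim c L (D.simple m)) n * D.cartan n (D.simple i)).sum else 0 := by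
        intro m hm
        have := (G.good.refl hi (wim_lt G L hL' _ (G.good.simple (List.mem_range.1 hm)).lt)).coroot_im k hk
        show v.getD m 0 * cor D (c.im i (wim c L (D.simple m))) k = _
        unfold cor
        rw [this]
        split <;> ring
      rw [List.map_congr_left hstep]
      have h0 := ih hL' k hk
      by_cases hki : k = i
      · subst hki
        simp only [if_true]
        have hexp : ((List.range D.rank).map fun m => v.getD m 0 * cor D (wim c L (D.simple m)) k -
              v.getD m 0 * ((List.range D.rank).map fun n =>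
                cor D (wim c L (D.simple m)) n * D.cartan n (D.simple k)).sum).sum =
            ((List.range D.rank).map fun m => v.getD m 0 * cor D (wim c L (D.simple m)) k).sum -
              ((List.range D.rank).map fun n => ((List.range D.rank).map fun m =>
                v.getD m 0 * cor D (wim c L (D.simple m)) n).sum * D.cartan n (D.simple k)).sum := by
          simp only [← List.sum_toFinset _ List.nodup_range, List.toFinset_range, Finset.sum_sub_distrib,
            Finset.mul_sum, Finset.sum_mul]
          congr 1
          rw [Finset.sum_comm]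
          exact Finset.sum_congr rfl fun n _ => Finset.sum_congr rfl fun m _ => by ring
        rw [hexp]
        have hv' := hv1 k hk
        have h3 : (((List.range D.rank).map fun n => ((List.range D.rank).map fun m =>
              v.getD m 0 * cor D (wim c L (D.simple m)) n).sum * D.cartan n (D.simple k)).sum -
            ((List.range D.rank).map fun n => v.getD n 0 * D.cartan n (D.simple k)).sum) % 3 = 0 := by
          simp only [← List.sum_toFinset _ List.nodup_range, List.toFinset_range,
            ← Finset.sum_sub_distrib, ← sub_mul]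
          refine Int.emod_eq_zero_of_dvd (Finset.dvd_sum fun n hn => Dvd.dvd.mul_right ?_ _)
          have := ih hL' n (Finset.mem_range.1 hn)
          simp only [← List.sum_toFinset _ List.nodup_range, List.toFinset_range] at this
          exact Int.dvd_of_emod_eq_zero this
        omega
      · simp only [if_neg hki, sub_zero]
        exact h0
  have h1 := key L hL j hj
  have h2 : ((List.range D.rank).map fun m => v.getD m 0 * cor D (wim c L (D.simple m)) j).sum =
      -v.getD j 0 := by
    rw [← List.sum_toFinset _ List.nodup_range, List.toFinset_range, Finset.sum_eq_single j]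
    · rw [h j hj, hneg.1 _ (G.good.simple hj).lt j hj]
      unfold cor
      rw [cor_simple G hcs j hj j hj, if_pos rfl]
      ring
    · intro m hm hne
      have hm' := Finset.mem_range.1 hm
      rw [h m hm', hneg.1 _ (G.good.simple hm').lt j hj]
      unfold cor
      rw [cor_simple G hcs m hm' j hj, if_neg hne]
      ring
    · intro h'; exact absurd (Finset.mem_range.2 hj) h'
  rw [h2] at h1
  omega

theorem derivB_sound {M : CoxeterMatrix (Fin D.rank)}
    (hD : D ∈ [chevG2, chevB2, chevD4, chevF4, chevE6, chevE7, chevE8])
    (hcs : corSimpleOK D = true) (hM : coxOK D c M = true) (H : Subgroup M.Group) :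
    ∀ (P : List (List ℕ × List ℕ)) (K : List (List ℕ)) (w : List ℕ),
      (∀ v ∈ K, (∀ i ∈ v, i < D.rank) ∧ wel M v ∈ H) → (∀ i ∈ w, i < D.rank) →
      derivB D c K P w = true → wel M w ∈ H := by
  have getd : ∀ (K : List (List ℕ)) (a : ℕ), (∀ v ∈ K, (∀ i ∈ v, i < D.rank) ∧ wel M v ∈ H) →
      (∀ i ∈ K.getD a [], i < D.rank) ∧ wel M (K.getD a []) ∈ H := by
    intro K a hK
    rcases Nat.lt_or_ge a K.length with h | h
    · rw [List.getD_eq_getElem _ _ h]; exact hK _ (List.getElem_mem h)
    · rw [List.getD_eq_default _ _ h]; exact ⟨by simp, one_mem H⟩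
  intro P
  induction P with
  | nil =>
    intro K w hK hw h
    simp only [derivB, List.any_eq_true, List.mem_range] at h
    obtain ⟨a, -, ha⟩ := h
    obtain ⟨ha1, ha2⟩ := getd K a hK
    have h1 := (wel_eq_one G hD hcs hM (fun i hi => by
      rcases List.mem_append.1 hi with hi | hi
      · exact ha1 i hi
      · exact hw i (List.mem_reverse.1 hi))).2 ha
    rw [wel_append, wel_reverse, mul_inv_eq_one] at h1
    rwa [← h1]
  | cons p P ih =>
    obtain ⟨v, refs⟩ := p
    intro K w hK hw h
    simp only [derivB, Bool.and_eq_true, List.all_eq_true, Nat.blt_eq] at h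
    obtain ⟨⟨hv, hfix⟩, hrest⟩ := h
    refine ih _ w (fun u hu => ?_) hw hrest
    rcases List.mem_append.1 hu with hu | hu
    · exact hK u hu
    rw [List.mem_singleton] at hu
    subst hu
    refine ⟨hv, ?_⟩
    have hc1 : ∀ i ∈ citeW K refs, i < D.rank := by
      intro i hi
      obtain ⟨l, hl, hil⟩ := List.mem_flatten.1 hi
      obtain ⟨a, -, rfl⟩ := List.mem_map.1 hl
      exact (getd K a hK).1 i hil
    have h1 := (wel_eq_one G hD hcs hM (fun i hi => by
      rcases List.mem_append.1 hi with hi | hi
      · exact hc1 i hi
      · exact hv i (List.mem_reverse.1 hi))).2 hfix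
    rw [wel_append, wel_reverse, mul_inv_eq_one] at h1
    rw [← h1, citeW, wel_flatten, List.map_map]
    refine list_prod_mem fun y hy => ?_
    obtain ⟨a, -, rfl⟩ := List.mem_map.1 hy
    exact (getd K a hK).2

theorem generated {M : CoxeterMatrix (Fin D.rank)}
    (hD : D ∈ [chevG2, chevB2, chevD4, chevF4, chevE6, chevE7, chevE8])
    (hcs : corSimpleOK D = true) (hM : coxOK D c M = true) (Ts : List (List ℕ × ℕ))
    (hTs : ∀ p ∈ Ts, (∀ i ∈ p.1, i < D.rank) ∧ p.2 < D.rank)
    (hnd : ∀ a < Ts.length, ∀ b < a,
      fixB D c ((Ts.getD a ([], 0)).1 ++ [(Ts.getD a ([], 0)).2] ++ (Ts.getD a ([], 0)).1.reverse ++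
        ((Ts.getD b ([], 0)).1 ++ [(Ts.getD b ([], 0)).2] ++ (Ts.getD b ([], 0)).1.reverse).reverse) = false)
    (P : List (List ℕ × List ℕ))
    (hP : ∀ i < D.rank, derivB D c
      (List.range D.rank :: Ts.map fun p => p.1 ++ [p.2] ++ p.1.reverse) P [i] = true) :
    ∃ T : Finset M.Group, T.card = Ts.length ∧
      (∀ t ∈ T, ∃ (g : M.Group) (i : Fin D.rank), t = g * M.simple i * g⁻¹) ∧
      Subgroup.closure (({((List.finRange D.rank).map M.simple).prod} : Set M.Group) ∪ ↑T) = ⊤ := by
  classical
  let R : List ℕ × ℕ → List ℕ := fun p => p.1 ++ [p.2] ++ p.1.reverse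
  have hR : ∀ p ∈ Ts, ∀ i ∈ R p, i < D.rank := by
    intro p hp i hi
    simp only [R, List.mem_append, List.mem_singleton, List.mem_reverse] at hi
    rcases hi with (hi | rfl) | hi
    · exact (hTs p hp).1 i hi
    · exact (hTs p hp).2
    · exact (hTs p hp).1 i hi
  have hne : ∀ a < Ts.length, ∀ b < a,
      wel M (R (Ts.getD a ([], 0))) ≠ wel M (R (Ts.getD b ([], 0))) := by
    intro a ha b hb e
    have hga : Ts.getD a ([], 0) ∈ Ts := by
      rw [List.getD_eq_getElem _ _ ha]; exact List.getElem_mem ha
    have hgb : Ts.getD b ([], 0) ∈ Ts := by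
      rw [List.getD_eq_getElem _ _ (lt_trans hb ha)]; exact List.getElem_mem _
    have h1 := (wel_eq_one G hD hcs hM (L := R (Ts.getD a ([], 0)) ++ (R (Ts.getD b ([], 0))).reverse)
      (fun i hi => by
        rcases List.mem_append.1 hi with hi | hi
        · exact hR _ hga i hi
        · exact hR _ hgb i (List.mem_reverse.1 hi))).1 (by rw [wel_append, wel_reverse, e, mul_inv_cancel])
    rw [hnd a ha b hb] at h1
    exact Bool.noConfusion h1
  have hnod : (Ts.map fun p => wel M (R p)).Nodup := by
    rw [List.nodup_iff_getElem?_ne_getElem?]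
    intro b a hba ha e
    rw [List.length_map] at ha
    rw [List.getElem?_eq_getElem (by simpa using lt_trans hba ha),
      List.getElem?_eq_getElem (by simpa using ha), Option.some_inj, List.getElem_map,
      List.getElem_map] at e
    exact hne a ha b hba (by rw [List.getD_eq_getElem _ _ ha, List.getD_eq_getElem _ _ (lt_trans hba ha)]; exact e.symm)
  refine ⟨(Ts.map fun p => wel M (R p)).toFinset, ?_, ?_, ?_⟩
  · rw [List.toFinset_card_of_nodup hnod, List.length_map]
  · intro t ht
    rw [List.mem_toFinset, List.mem_map] at ht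
    obtain ⟨p, hp, rfl⟩ := ht
    refine ⟨wel M p.1, ⟨p.2, (hTs p hp).2⟩, ?_⟩
    show wel M (p.1 ++ [p.2] ++ p.1.reverse) = _
    rw [wel_append, wel_append, wel_reverse]
    congr 2
    simp [wel, (hTs p hp).2]
  · rw [eq_top_iff]
    intro g _
    refine M.toCoxeterSystem.simple_induction_left g (one_mem _) fun w i hw => mul_mem ?_ hw
    have h := derivB_sound G hD hcs hM
      (Subgroup.closure (({((List.finRange D.rank).map M.simple).prod} : Set M.Group) ∪
        ↑(Ts.map fun p => wel M (R p)).toFinset)) P _ [i.val] (fun v hv => ?_)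
        (fun j hj => by rw [List.mem_singleton] at hj; exact hj ▸ i.2) (hP i i.2)
    · simpa [wel] using h
    rcases List.mem_cons.1 hv with rfl | hv
    · refine ⟨fun j hj => List.mem_range.1 hj, Subgroup.subset_closure (Or.inl ?_)⟩
      rw [Set.mem_singleton_iff, ← wel_map_val, List.map_coe_finRange_eq_range]
    · obtain ⟨p, hp, rfl⟩ := List.mem_map.1 hv
      refine ⟨hR p hp, Subgroup.subset_closure (Or.inr ?_)⟩
      rw [Finset.mem_coe, List.mem_toFinset]
      exact List.mem_map.2 ⟨p, hp, rfl⟩

end Cfsg.Agent.Chev.Tits
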