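import Cfsg.Agent.Chev.WeylElems
import Cfsg.Agent.Chev.WeylElemsData

set_option autoImplicit false
set_option maxRecDepth 100000

namespace Cfsg.Agent.Chev.Tits

open Cfsg.Lie Cfsg.Agent.Chev.Comm

theorem generated_data {D : ChevalleyDatum} {c : Cert}
    (hD : D ∈ [chevG2, chevB2, chevD4, chevF4, chevE6, chevE7, chevE8])
    (G : TGood D c) (hcs : corSimpleOK D = true) (M : CoxeterMatrix (Fin D.rank))
    (hM : coxOK D c M = true) (Ts : List (List ℕ × ℕ)) (P : List (List ℕ × List ℕ))
    (hT : (Ts.all fun p => p.1.all (fun i => Nat.blt i D.rank) && Nat.blt p.2 D.rank) = true)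
    (hnd : ((List.range Ts.length).all fun a => (List.range a).all fun b =>
      !fixB D c ((Ts.getD a ([], 0)).1 ++ [(Ts.getD a ([], 0)).2] ++ (Ts.getD a ([], 0)).1.reverse ++
        ((Ts.getD b ([], 0)).1 ++ [(Ts.getD b ([], 0)).2] ++ (Ts.getD b ([], 0)).1.reverse).reverse)) = true)
    (hP : ((List.range D.rank).all fun i => derivB D c
      (List.range D.rank :: Ts.map fun p => p.1 ++ [p.2] ++ p.1.reverse) P [i]) = true) :
    ∃ T : Finset M.Group, T.card = Ts.length ∧
      (∀ t ∈ T, ∃ (g : M.Group) (i : Fin D.rank), t = g * M.simple i * g⁻¹) ∧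
      Subgroup.closure (({((List.finRange D.rank).map M.simple).prod} : Set M.Group) ∪ ↑T) = ⊤ := by
  simp only [List.all_eq_true, Bool.and_eq_true, Nat.blt_eq, List.mem_range, Bool.not_eq_true'] at hT hnd hP
  exact generated G hD hcs hM Ts hT hnd P hP

end Cfsg.Agent.Chev.Tits
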